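import Mathlib
import Cfsg.Prelude.Def_Solvable
import Cfsg.Agent.Helper25.CharKer
import Cfsg.Agent.Helper25.CharMore
import Cfsg.Agent.Helper2.CosetAvg
import Cfsg.Agent.Helper2.Ind
import Cfsg.Agent.Helper2.CharExtra
import Cfsg.Agent.Helper7.Basic

/-!
# The Broline–Garrison theorem (helper24)

If the kernel `K` of an irreducible character `χ` is not nilpotent, or `K = F(G)` with `G/K`
solvable and nontrivial, then some irreducible character of larger degree has kernel properly
contained in `K`.  The proof: a maximal subgroup `M ⊇ N_G(P)` (`P` a suitable Sylow subgroup)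
with `G = KM`; either some constituent of `(χ_M)^G` does not restrict irreducibly to `M`, or
`χ_M` vanishes off the core of `M`, which contradicts the Frattini argument.
-/

set_option autoImplicit false

namespace Cfsg.Agent.Helper24

open Cfsg

open scoped Pointwise

universe u

section GroupTheory

variable {G : Type u} [Group G] [Finite G]

/-- Frattini argument for a Sylow subgroup of `L` inside a normal subgroup `X ≤ L`. -/
theorem bg_frattini (p : ℕ) [Fact p.Prime] (L : Subgroup G) (P : Sylow p L) (X : Subgroup G)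
    [X.Normal] (hPX : (P : Subgroup L).map L.subtype ≤ X) (hXL : X ≤ L) :
    X ⊔ Subgroup.normalizer (((P : Subgroup L).map L.subtype : Subgroup G) : Set G) = ⊤ := by
  obtain ⟨Pg, hPg⟩ : ∃ Pg : Subgroup G, Pg = (P : Subgroup L).map L.subtype := ⟨_, rfl⟩
  rw [← hPg] at hPX ⊢
  have hpg : IsPGroup p Pg := by rw [hPg]; exact P.2.map _
  have hQ : IsPGroup p (Pg.subgroupOf X) := hpg.comap_of_injective X.subtype X.subtype_injective
  have hidx : ¬ p ∣ (Pg.subgroupOf X).index := by
    have h1 : Pg.relIndex X * X.relIndex L = Pg.relIndex L :=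
      Subgroup.relIndex_mul_relIndex _ _ _ hPX hXL
    have h2 : Pg.relIndex L = (P : Subgroup L).index := by
      unfold Subgroup.relIndex
      congr 1
      ext x
      rw [Subgroup.mem_subgroupOf, hPg, Subgroup.mem_map]
      constructor
      · rintro ⟨y, hy, hyx⟩
        have : y = x := Subtype.ext hyx
        rwa [← this]
      · intro hx
        exact ⟨x, hx, rfl⟩
    intro hdvd
    apply P.not_dvd_index
    rw [← h2, ← h1]
    exact Dvd.dvd.mul_right hdvd _
  obtain ⟨S, hS⟩ : ∃ S : Sylow p X, (S : Subgroup X) = Pg.subgroupOf X :=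
    ⟨hQ.toSylow hidx, rfl⟩
  have h3 := Sylow.normalizer_sup_eq_top S
  rw [hS, Subgroup.map_subgroupOf_eq_of_le hPX] at h3
  rw [sup_comm]
  exact h3

/-- A subgroup containing a Sylow `p`-subgroup of `L` for every `p` is `L`. -/
theorem bg_sylow_gen (L J : Subgroup G) (hJL : J ≤ L)
    (h : ∀ (p : ℕ) [Fact p.Prime] (P : Sylow p L), (P : Subgroup L).map L.subtype ≤ J) :
    J = L := by
  apply Subgroup.eq_of_le_of_card_ge hJL
  have hJ0 : Nat.card J ≠ 0 := Nat.card_pos.ne'
  have hL0 : Nat.card L ≠ 0 := Nat.card_pos.ne'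
  apply Nat.le_of_dvd Nat.card_pos
  rw [← Nat.factorization_le_iff_dvd hL0 hJ0]
  intro p
  by_cases hp : p.Prime
  · haveI : Fact p.Prime := ⟨hp⟩
    obtain ⟨P⟩ : Nonempty (Sylow p L) := inferInstance
    have h1 := Subgroup.card_dvd_of_le (h p P)
    rw [Subgroup.card_map_of_injective L.subtype_injective, Sylow.card_eq_multiplicity] at h1
    exact (hp.pow_dvd_iff_le_factorization hJ0).mp h1
  · rw [Nat.factorization_eq_zero_of_not_prime _ hp]
    exact Nat.zero_le _

omit [Finite G] in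
/-- In a solvable group, a subgroup contained in its own commutator subgroup is trivial. -/
theorem bg_solv [Group.IsSolvable G] (H : Subgroup G) (h : H ≤ ⁅H, H⁆) : H = ⊥ := by
  obtain ⟨n, hn⟩ := Group.IsSolvable.solvable (G := G)
  have key : ∀ k, H ≤ derivedSeries G k := by
    intro k
    induction k with
    | zero => rw [derivedSeries_zero]; exact le_top
    | succ k ih => rw [derivedSeries_succ]; exact h.trans (Subgroup.commutator_mono ih ih)
  have := key n
  rw [hn] at this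
  exact le_bot_iff.mp this

/-- The group-theoretic input of the Broline–Garrison theorem. -/
theorem bg_data (K : Subgroup G) [K.Normal]
    (h : ¬ K ≤ Cfsg.fittingSubgroup G ∨
      (K = Cfsg.fittingSubgroup G ∧ Group.IsSolvable (G ⧸ K) ∧ K ≠ ⊤)) :
    ∃ (L M Pg : Subgroup G), L.Normal ∧ K ≤ L ∧
      (∀ N : Subgroup G, N.Normal → K ≤ N → N ≤ L → N = K ∨ N = L) ∧
      IsCoatom M ∧ K ⊔ M = ⊤ ∧ Pg ≤ L ∧ Pg ≤ M ∧
      (∀ X : Subgroup G, X.Normal → Pg ≤ X → X ≤ L → ¬ X ≤ M) := by
  classical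
  rcases h with h1 | ⟨hKF, hsolv, hKtop⟩
  · have hex : ∃ (p : ℕ) (_ : Fact p.Prime) (P : Sylow p K),
        Subgroup.normalizer (((P : Subgroup K).map K.subtype : Subgroup G) : Set G) ≠ ⊤ := by
      by_contra hcon
      push Not at hcon
      apply h1
      have h2 := bg_sylow_gen K (K ⊓ Cfsg.fittingSubgroup G) inf_le_left (by
        intro p hp P
        refine le_inf (Subgroup.map_subtype_le _) ?_
        have hn : ((P : Subgroup K).map K.subtype).Normal :=
          Subgroup.normalizer_eq_top_iff.mp (hcon p hp P)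
        have hnil : Group.IsNilpotent ((P : Subgroup K).map K.subtype) :=
          (P.2.map K.subtype).isNilpotent
        exact le_sSup ⟨hn, hnil⟩)
      exact inf_eq_left.mp h2
    obtain ⟨p, hp, P, hP⟩ := hex
    obtain ⟨M, hM, hNM⟩ := (eq_top_or_exists_le_coatom _).resolve_left hP
    have hfr : ∀ X : Subgroup G, X.Normal → (P : Subgroup K).map K.subtype ≤ X → X ≤ K →
        X ⊔ Subgroup.normalizer (((P : Subgroup K).map K.subtype : Subgroup G) : Set G) = ⊤ :=
      fun X hX hPX hXK => by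
        haveI := hX
        exact bg_frattini p K P X hPX hXK
    refine ⟨K, M, (P : Subgroup K).map K.subtype, inferInstance, le_rfl, ?_, hM, ?_,
      Subgroup.map_subtype_le _, le_trans Subgroup.le_normalizer hNM, ?_⟩
    · intro N _ hKN hNK
      exact Or.inl (le_antisymm hNK hKN)
    · have h2 := hfr K inferInstance (Subgroup.map_subtype_le _) le_rfl
      exact top_le_iff.mp (h2 ▸ sup_le_sup_left hNM K)
    · intro X hX hPX hXK hXM
      have h2 := hfr X hX hPX hXK
      exact hM.1 (top_le_iff.mp (h2 ▸ sup_le hXM hNM))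
  · haveI := hsolv
    have hne : ∃ n, ∃ L : Subgroup G, L.Normal ∧ K < L ∧ Nat.card L = n :=
      ⟨_, ⊤, inferInstance, lt_top_iff_ne_top.mpr hKtop, rfl⟩
    obtain ⟨L, hLn, hKL, hLcard⟩ := Nat.find_spec hne
    haveI := hLn
    have hmin : ∀ N : Subgroup G, N.Normal → K ≤ N → N ≤ L → N = K ∨ N = L := by
      intro N hN hKN hNL
      by_cases hNK : N = K
      · exact Or.inl hNK
      · right
        apply Subgroup.eq_of_le_of_card_ge hNL
        rw [hLcard]
        exact Nat.find_min' hne ⟨N, hN, lt_of_le_of_ne hKN (Ne.symm hNK), rfl⟩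
    have hcomm : ⁅L, L⁆ ≤ K := by
      rcases hmin (K ⊔ ⁅L, L⁆) inferInstance le_sup_left
        (sup_le hKL.le (Subgroup.commutator_le_right L L)) with h2 | h2
      · rw [← h2]
        exact le_sup_right
      · exfalso
        have h3 : L.map (QuotientGroup.mk' K) ≤
            ⁅L.map (QuotientGroup.mk' K), L.map (QuotientGroup.mk' K)⁆ := by
          rw [← Subgroup.map_commutator]
          conv_lhs => rw [← h2]
          rw [Subgroup.map_sup, QuotientGroup.map_mk'_self, bot_sup_eq]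
        have h4 := bg_solv _ h3
        have h5 : L ≤ K := by
          intro x hx
          have h6 : QuotientGroup.mk' K x ∈ L.map (QuotientGroup.mk' K) :=
            Subgroup.mem_map_of_mem _ hx
          rw [h4, Subgroup.mem_bot] at h6
          exact (QuotientGroup.eq_one_iff x).mp h6
        exact hKL.ne (le_antisymm hKL.le h5)
    have hex : ∃ (q : ℕ) (_ : Fact q.Prime) (Q : Sylow q L),
        ¬ (Q : Subgroup L).map L.subtype ≤ K := by
      by_contra hcon
      push Not at hcon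
      exact hKL.ne (bg_sylow_gen L K hKL.le (fun p hp P => hcon p hp P))
    obtain ⟨q, hq, Q, hQK⟩ := hex
    obtain ⟨Qg, hQg⟩ : ∃ Qg : Subgroup G, Qg = (Q : Subgroup L).map L.subtype := ⟨_, rfl⟩
    rw [← hQg] at hQK
    have hQL : Qg ≤ L := by rw [hQg]; exact Subgroup.map_subtype_le _
    have hQnn : Subgroup.normalizer (Qg : Set G) ≠ ⊤ := by
      intro htop
      apply hQK
      have hn : Qg.Normal := Subgroup.normalizer_eq_top_iff.mp htop
      have hnil : Group.IsNilpotent Qg := by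
        rw [hQg]
        exact (Q.2.map L.subtype).isNilpotent
      rw [hKF]
      exact le_sSup ⟨hn, hnil⟩
    obtain ⟨M, hM, hNM⟩ := (eq_top_or_exists_le_coatom _).resolve_left hQnn
    have hQM : Qg ≤ M := le_trans Subgroup.le_normalizer hNM
    have hfr : ∀ X : Subgroup G, X.Normal → Qg ≤ X → X ≤ L →
        X ⊔ Subgroup.normalizer (Qg : Set G) = ⊤ :=
      fun X hX hPX hXL => by
        haveI := hX
        rw [hQg] at hPX ⊢
        exact bg_frattini q L Q X hPX hXL
    have hLM : L ⊔ M = ⊤ := by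
      have h2 := hfr L inferInstance hQL le_rfl
      exact top_le_iff.mp (h2 ▸ sup_le_sup_left hNM L)
    have hKM : ¬ K ≤ M := by
      intro hKM
      have hNn : (L ⊓ M).Normal := by
        constructor
        intro n hn g
        have hg : g ∈ ((L ⊔ M : Subgroup G) : Set G) := by
          rw [hLM]
          exact Set.mem_univ g
        rw [Subgroup.normal_mul] at hg
        obtain ⟨l, hl, m, hm, rfl⟩ := Set.mem_mul.mp hg
        have hn' : m * n * m⁻¹ ∈ L ⊓ M :=
          ⟨hLn.conj_mem n hn.1 m, M.mul_mem (M.mul_mem hm hn.2) (M.inv_mem hm)⟩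
        have hc : l * (m * n * m⁻¹) * l⁻¹ * (m * n * m⁻¹)⁻¹ ∈ K := by
          have h7 := hcomm (Subgroup.commutator_mem_commutator hl hn'.1)
          rwa [commutatorElement_def] at h7
        have e : l * m * n * (l * m)⁻¹ =
            (l * (m * n * m⁻¹) * l⁻¹ * (m * n * m⁻¹)⁻¹) * (m * n * m⁻¹) := by
          group
        rw [e]
        exact (L ⊓ M).mul_mem ⟨hKL.le hc, hKM hc⟩ hn'
      rcases hmin (L ⊓ M) hNn (le_inf hKL.le hKM) inf_le_left with h2 | h2
      · exact hQK (h2 ▸ le_inf hQL hQM)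
      · have h3 : L ≤ M := h2 ▸ inf_le_right
        exact hM.1 (top_le_iff.mp (hLM ▸ sup_le h3 le_rfl))
    refine ⟨L, M, Qg, hLn, hKL.le, hmin, hM, ?_, hQL, hQM, ?_⟩
    · by_contra hne'
      have h2 : M < K ⊔ M := lt_of_le_of_ne le_sup_right (fun h => hKM (h ▸ le_sup_left))
      exact hne' (hM.2 _ h2)
    · intro X hX hPX hXL hXM
      have h2 := hfr X hX hPX hXL
      exact hM.1 (top_le_iff.mp (h2 ▸ sup_le hXM hNM))

end GroupTheory

section Chars

variable {G : Type u} [Group G] [Fintype G]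

omit [Fintype G] in
theorem bg_factor (K M : Subgroup G) [K.Normal] (hKM : K ⊔ M = ⊤) (g : G) :
    ∃ k ∈ K, ∃ m ∈ M, g = k * m := by
  have hg : g ∈ ((K ⊔ M : Subgroup G) : Set G) := by
    rw [hKM]
    exact Set.mem_univ g
  rw [Subgroup.normal_mul] at hg
  obtain ⟨k, hk, m, hm, rfl⟩ := Set.mem_mul.mp hg
  exact ⟨k, hk, m, hm, rfl⟩

/-- If `G = KM` with `K` in the kernel of `χ`, then `χ` restricts irreducibly to `M`. -/
theorem bg_restrict_irr (χ : IrrCharacter G) (K M : Subgroup G) [K.Normal]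
    (hK : K ≤ Helper25.irrKer χ) (hKM : K ⊔ M = ⊤) :
    IsIrrCharacter M (fun m : M => (χ : G → ℂ) m) := by
  obtain ⟨ψ, hψ⟩ := Helper25.exists_deflate χ K hK
  have hsurj : Function.Surjective ((QuotientGroup.mk' K).comp M.subtype) := by
    intro q
    obtain ⟨g, rfl⟩ := QuotientGroup.mk'_surjective K q
    obtain ⟨k, hk, m, hm, rfl⟩ := bg_factor K M hKM g
    refine ⟨⟨m, hm⟩, ?_⟩
    show QuotientGroup.mk' K m = QuotientGroup.mk' K (k * m)
    rw [map_mul, show QuotientGroup.mk' K k = 1 from (QuotientGroup.eq_one_iff k).mpr hk, one_mul]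
  have h1 := Helper2.isIrrCharacter_comp_of_surjective _ hsurj ψ.2
  have h2 : (fun m : M => (ψ : G ⧸ K → ℂ) (((QuotientGroup.mk' K).comp M.subtype) m)) =
      (fun m : M => (χ : G → ℂ) m) := by
    funext m
    exact hψ m
  rwa [h2] at h1

/-- Decomposition of the restriction of an irreducible character to a subgroup. -/
theorem bg_decomp (ψ : IrrCharacter G) (M : Subgroup G) [Fintype M] :
    ∃ c : IrrCharacter M → ℕ,
      (∀ θ : IrrCharacter M,
        classInner (fun m : M => (ψ : G → ℂ) m) (θ : M → ℂ) = (c θ : ℂ)) ∧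
      ∀ m : M, (ψ : G → ℂ) m = ∑ θ : IrrCharacter M, (c θ : ℂ) * (θ : M → ℂ) m := by
  classical
  have hψM : IsCharacter M (fun m : M => (ψ : G → ℂ) m) :=
    Helper2.isCharacter_restrict M (Helper25.irr_isCharacter ψ)
  have hc : ∀ θ : IrrCharacter M, ∃ c : ℕ,
      classInner (fun m : M => (ψ : G → ℂ) m) (θ : M → ℂ) = c :=
    fun θ => Helper2.classInner_char_nat hψM (Helper25.irr_isCharacter θ)
  choose c hc using hc
  refine ⟨c, hc, ?_⟩
  have hdec := Helper2.classFun_eq_sum_classInner (Helper2.isClassFunction_of_isCharacter hψM)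
  intro m
  have h1 := congrFun hdec m
  simp only [Finset.sum_apply, Pi.smul_apply, smul_eq_mul, hc] at h1
  exact h1

/-- The kernel of `ψ` meets `M` inside the kernel of every constituent of `ψ_M`. -/
theorem bg_sub_ker (ψ : IrrCharacter G) (M : Subgroup G) [Fintype M] (ϑ : IrrCharacter M)
    (h : classInner (fun m : M => (ψ : G → ℂ) m) (ϑ : M → ℂ) ≠ 0) (g : M)
    (hg : (ψ : G → ℂ) g = (ψ : G → ℂ) 1) : (ϑ : M → ℂ) g = (ϑ : M → ℂ) 1 := by
  classical
  obtain ⟨c, hc, hv⟩ := bg_decomp ψ M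
  have h1 : ∑ θ : IrrCharacter M,
      (c θ : ℝ) * (((θ : M → ℂ) 1).re - ((θ : M → ℂ) g).re) = 0 := by
    have e1 := hv g
    have e2 := hv 1
    rw [Subgroup.coe_one] at e2
    have e3 : ∑ θ : IrrCharacter M, (c θ : ℂ) * ((θ : M → ℂ) 1 - (θ : M → ℂ) g) = 0 := by
      simp only [mul_sub]
      rw [Finset.sum_sub_distrib, ← e1, ← e2, hg, sub_self]
    have e4 := congrArg Complex.re e3
    rw [Complex.re_sum, Complex.zero_re] at e4
    rw [← e4]
    apply Finset.sum_congr rfl
    intro θ _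
    simp
  have hone : ∀ θ : IrrCharacter M, ‖(θ : M → ℂ) 1‖ = ((θ : M → ℂ) 1).re := by
    intro θ
    rw [Helper25.irr_one_eq_degree]
    simp
  have hnn : ∀ θ : IrrCharacter M,
      0 ≤ (c θ : ℝ) * (((θ : M → ℂ) 1).re - ((θ : M → ℂ) g).re) := by
    intro θ
    apply mul_nonneg (Nat.cast_nonneg _)
    have h2 := Helper25.irr_norm_le θ g
    have h3 : ((θ : M → ℂ) g).re ≤ ‖(θ : M → ℂ) g‖ := Complex.re_le_norm _
    have h4 := hone θ
    linarith
  have h5 := (Finset.sum_eq_zero_iff_of_nonneg (fun θ _ => hnn θ)).mp h1 ϑ (Finset.mem_univ _)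
  have hcϑ : (c ϑ : ℝ) ≠ 0 := by
    intro h0
    apply h
    rw [hc ϑ]
    exact_mod_cast h0
  have h6 : ((ϑ : M → ℂ) g).re = ((ϑ : M → ℂ) 1).re := by
    have h7 := (mul_eq_zero.mp h5).resolve_left hcϑ
    linarith
  have h7 := Helper25.irr_norm_le ϑ g
  have h8 := hone ϑ
  have h9 : ((ϑ : M → ℂ) 1).im = 0 := by
    rw [Helper25.irr_one_eq_degree]
    simp
  apply Complex.ext h6
  rw [h9]
  have h10 : ‖(ϑ : M → ℂ) g‖ ^ 2 = ((ϑ : M → ℂ) g).re ^ 2 + ((ϑ : M → ℂ) g).im ^ 2 := by
    rw [Complex.sq_norm, Complex.normSq_apply]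
    ring
  have h11 : ‖(ϑ : M → ℂ) g‖ ^ 2 ≤ ((ϑ : M → ℂ) 1).re ^ 2 := by
    rw [← h8]
    exact pow_le_pow_left₀ (norm_nonneg _) h7 2
  have h12 : ((ϑ : M → ℂ) g).im ^ 2 ≤ 0 := by
    rw [h10, h6] at h11
    linarith
  have h13 : ((ϑ : M → ℂ) g).im ^ 2 = 0 := le_antisymm h12 (sq_nonneg _)
  exact pow_eq_zero_iff (two_ne_zero) |>.mp h13

/-- A constituent of `ψ_M` of degree at least `ψ(1)` is all of `ψ_M`. -/
theorem bg_degree (ψ : IrrCharacter G) (M : Subgroup G) [Fintype M] (ϑ : IrrCharacter M)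
    (h : classInner (fun m : M => (ψ : G → ℂ) m) (ϑ : M → ℂ) ≠ 0)
    (hd : charDegree (ψ : G → ℂ) ≤ charDegree (ϑ : M → ℂ)) :
    ∀ m : M, (ψ : G → ℂ) m = (ϑ : M → ℂ) m := by
  classical
  obtain ⟨c, hc, hv⟩ := bg_decomp ψ M
  have hdeg : charDegree (ψ : G → ℂ) =
      ∑ θ : IrrCharacter M, c θ * charDegree (θ : M → ℂ) := by
    have e2 := hv 1
    rw [Subgroup.coe_one, Helper25.irr_one_eq_degree] at e2
    simp only [Helper25.irr_one_eq_degree] at e2
    exact_mod_cast e2
  have hcϑ : c ϑ ≠ 0 := by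
    intro h0
    apply h
    rw [hc ϑ, h0, Nat.cast_zero]
  have hpos : ∀ θ : IrrCharacter M, 0 < charDegree (θ : M → ℂ) := Helper25.irr_degree_pos
  rw [← Finset.add_sum_erase _ _ (Finset.mem_univ ϑ)] at hdeg
  have h0 : charDegree (ϑ : M → ℂ) ≤ c ϑ * charDegree (ϑ : M → ℂ) :=
    Nat.le_mul_of_pos_left _ (Nat.pos_of_ne_zero hcϑ)
  have h1 : c ϑ = 1 := by
    by_contra hne
    have h2 : 2 ≤ c ϑ := by omega
    have h3 : 2 * charDegree (ϑ : M → ℂ) ≤ c ϑ * charDegree (ϑ : M → ℂ) :=
      Nat.mul_le_mul_right _ h2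
    have := hpos ϑ
    omega
  have h2 : ∑ θ ∈ Finset.univ.erase ϑ, c θ * charDegree (θ : M → ℂ) = 0 := by
    rw [h1, one_mul] at hdeg
    omega
  intro m
  rw [hv m, Finset.sum_eq_single ϑ]
  · rw [h1, Nat.cast_one, one_mul]
  · intro θ _ hθ
    have h3 := (Finset.sum_eq_zero_iff.mp h2) θ (Finset.mem_erase.mpr ⟨hθ, Finset.mem_univ _⟩)
    have hc0 : c θ = 0 := by
      rcases Nat.mul_eq_zero.mp h3 with h4 | h4
      · exact h4
      · exact absurd h4 (hpos θ).ne'
    rw [hc0, Nat.cast_zero, zero_mul]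
  · intro h3
    exact absurd (Finset.mem_univ _) h3

/-- If every constituent of `ϑ^G` restricts to `ϑ`, then `ϑ` vanishes off the core of `M`. -/
theorem bg_vanish (M : Subgroup G) [Fintype M] (ϑ : IrrCharacter M)
    (hall : ∀ ψ : IrrCharacter G,
      classInner (fun m : M => (ψ : G → ℂ) m) (ϑ : M → ℂ) ≠ 0 →
      ∀ m : M, (ψ : G → ℂ) m = (ϑ : M → ℂ) m)
    (m : M) (hm : (ϑ : M → ℂ) m ≠ 0) : (m : G) ∈ M.normalCore := by
  classical
  obtain ⟨Φ, hΦ⟩ : ∃ Φ : G → ℂ, Φ = indFun M (ϑ : M → ℂ) := ⟨_, rfl⟩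
  have hΦc : IsClassFunction G Φ := by
    rw [hΦ]
    exact Helper2.indFun_isClassFunction M _
  have hdec := Helper2.classFun_eq_sum_classInner hΦc
  have hfr : ∀ ψ : IrrCharacter G, classInner Φ (ψ : G → ℂ) =
      classInner (ϑ : M → ℂ) (fun m : M => (ψ : G → ℂ) m) := fun ψ => by
    rw [hΦ]
    exact Helper2.frobenius_reciprocity M _ _
      (Helper2.isClassFunction_of_isCharacter (Helper25.irr_isCharacter ψ))
  have hnz : ∀ ψ : IrrCharacter G, classInner Φ (ψ : G → ℂ) ≠ 0 →
      ∀ m : M, (ψ : G → ℂ) m = (ϑ : M → ℂ) m := by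
    intro ψ hne
    apply hall ψ
    rw [Helper2.classInner_conj_symm, ← hfr ψ]
    intro h0
    apply hne
    have h1 := congrArg (starRingEnd ℂ) h0
    simpa using h1
  obtain ⟨s, hs⟩ : ∃ s : ℂ, s = ∑ ψ : IrrCharacter G, classInner Φ (ψ : G → ℂ) := ⟨_, rfl⟩
  have hval : ∀ m : M, Φ m = s * (ϑ : M → ℂ) m := by
    intro m
    have h1 := congrFun hdec m
    simp only [Finset.sum_apply, Pi.smul_apply, smul_eq_mul] at h1
    rw [h1, hs, Finset.sum_mul]
    apply Finset.sum_congr rfl
    intro ψ _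
    by_cases h0 : classInner Φ (ψ : G → ℂ) = 0
    · rw [h0, zero_mul, zero_mul]
    · rw [hnz ψ h0 m]
  have hϑ1 : (ϑ : M → ℂ) 1 ≠ 0 := Helper25.irr_one_ne_zero ϑ
  have hM0 : (Nat.card M : ℂ) ≠ 0 := Nat.cast_ne_zero.mpr Nat.card_pos.ne'
  have hG0 : (Nat.card G : ℂ) ≠ 0 := Nat.cast_ne_zero.mpr Nat.card_pos.ne'
  have hs' : s = (Nat.card M : ℂ)⁻¹ * (Nat.card G : ℂ) := by
    have h1 := hval 1
    rw [Subgroup.coe_one, hΦ, Helper7.indFun_one] at h1
    apply mul_right_cancel₀ hϑ1
    rw [← h1]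
    ring
  have hs0 : s ≠ 0 := by
    rw [hs']
    exact mul_ne_zero (inv_ne_zero hM0) hG0
  obtain ⟨ψ₀, hψ₀⟩ : ∃ ψ₀ : IrrCharacter G, classInner Φ (ψ₀ : G → ℂ) ≠ 0 := by
    by_contra hcon
    push Not at hcon
    apply hs0
    rw [hs]
    exact Finset.sum_eq_zero (fun ψ _ => hcon ψ)
  have hψ₀M := hnz ψ₀ hψ₀
  have hdir : Φ m = (Nat.card M : ℂ)⁻¹ *
      (((Finset.univ.filter (fun x : G => x⁻¹ * (m : G) * x ∈ M)).card : ℂ) *
        (ϑ : M → ℂ) m) := by
    rw [hΦ, Helper2.indFun_apply]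
    congr 1
    rw [Finset.card_filter, Nat.cast_sum, Finset.sum_mul]
    apply Finset.sum_congr rfl
    intro x _
    by_cases hx : x⁻¹ * (m : G) * x ∈ M
    · rw [Helper2.extendByZero_of_mem M _ hx, if_pos hx, Nat.cast_one, one_mul]
      have h1 := hψ₀M ⟨_, hx⟩
      rw [← h1, ← hψ₀M m]
      have h2 := Helper25.irr_conj ψ₀ (m : G) x⁻¹
      rw [inv_inv] at h2
      exact h2
    · rw [Helper2.extendByZero_of_not_mem M _ hx, if_neg hx, Nat.cast_zero, zero_mul]
  have hcard : (Finset.univ.filter (fun x : G => x⁻¹ * (m : G) * x ∈ M)).card =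
      (Finset.univ : Finset G).card := by
    have h1 := hval m
    rw [hdir, hs', mul_assoc] at h1
    have h2 := mul_right_cancel₀ hm (mul_left_cancel₀ (inv_ne_zero hM0) h1)
    rw [Nat.card_eq_fintype_card] at h2
    rw [Finset.card_univ]
    exact_mod_cast h2
  have hall' := Finset.card_filter_eq_iff.mp hcard
  intro b
  have h1 := hall' b⁻¹ (Finset.mem_univ _)
  rw [inv_inv] at h1
  exact h1

/-- The character-theoretic dichotomy. -/
theorem bg_char (χ : IrrCharacter G) (K M : Subgroup G) [K.Normal] [Fintype M]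
    (hK : ∀ g : G, g ∈ K ↔ (χ : G → ℂ) g = (χ : G → ℂ) 1) (hM : IsCoatom M)
    (hKM : K ⊔ M = ⊤) :
    (∃ ψ : IrrCharacter G, charDegree (χ : G → ℂ) < charDegree (ψ : G → ℂ) ∧
      Helper25.irrKer ψ < K) ∨
    (K ⊓ M ≤ M.normalCore ∧ ∀ g : G, g ∉ K ⊔ M.normalCore → (χ : G → ℂ) g = 0) := by
  classical
  have hKker : K ≤ Helper25.irrKer χ :=
    fun g hg => (Helper25.mem_irrKer χ g).mpr ((hK g).mp hg)
  obtain ⟨ϑ, hϑ⟩ : ∃ ϑ : IrrCharacter M, (ϑ : M → ℂ) = fun m : M => (χ : G → ℂ) m :=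
    ⟨⟨_, bg_restrict_irr χ K M hKker hKM⟩, rfl⟩
  have hϑv : ∀ m : M, (ϑ : M → ℂ) m = (χ : G → ℂ) m := fun m => by rw [hϑ]
  have hdegϑ : charDegree (ϑ : M → ℂ) = charDegree (χ : G → ℂ) := by
    unfold charDegree
    rw [hϑv 1, Subgroup.coe_one]
  by_cases hA : ∃ ψ : IrrCharacter G,
      classInner (fun m : M => (ψ : G → ℂ) m) (ϑ : M → ℂ) ≠ 0 ∧
      ¬ ∀ m : M, (ψ : G → ℂ) m = (ϑ : M → ℂ) m
  · obtain ⟨ψ, hψ1, hψ2⟩ := hA
    left
    refine ⟨ψ, ?_, ?_⟩
    · by_contra hlt
      push Not at hlt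
      exact hψ2 (bg_degree ψ M ϑ hψ1 (by rw [hdegϑ]; exact hlt))
    · by_cases hL : Helper25.irrKer ψ ≤ M
      · apply lt_of_le_of_ne
        · intro g hg
          have hgM := hL hg
          have h1 := bg_sub_ker ψ M ϑ hψ1 ⟨g, hgM⟩ ((Helper25.mem_irrKer ψ g).mp hg)
          rw [hϑv, hϑv, Subgroup.coe_one] at h1
          exact (hK g).mpr h1
        · intro heq
          have h2 : K ≤ M := heq ▸ hL
          apply hM.1
          rw [← hKM]
          exact (sup_eq_right.mpr h2).symm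
      · exfalso
        have hsup : Helper25.irrKer ψ ⊔ M = ⊤ := by
          by_contra hne
          have h2 : M < Helper25.irrKer ψ ⊔ M :=
            lt_of_le_of_ne le_sup_right (fun h => hL (h ▸ le_sup_left))
          exact hne (hM.2 _ h2)
        have hirr := bg_restrict_irr ψ (Helper25.irrKer ψ) M le_rfl hsup
        have h3 := Helper2.classInner_irr_irr (⟨_, hirr⟩ : IrrCharacter M) ϑ
        by_cases heq : (⟨_, hirr⟩ : IrrCharacter M) = ϑ
        · apply hψ2
          intro m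
          exact congrArg (fun θ : IrrCharacter M => (θ : M → ℂ) m) heq
        · rw [if_neg heq] at h3
          exact hψ1 h3
  · push Not at hA
    right
    have hvan := bg_vanish M ϑ hA
    constructor
    · intro x hx
      have h1 : (ϑ : M → ℂ) ⟨x, hx.2⟩ ≠ 0 := by
        rw [hϑv]
        show (χ : G → ℂ) x ≠ 0
        rw [(hK x).mp hx.1]
        exact Helper25.irr_one_ne_zero χ
      exact hvan ⟨x, hx.2⟩ h1
    · intro g hg
      obtain ⟨k, hk, m, hm, rfl⟩ := bg_factor K M hKM g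
      rw [Helper2.irr_mul_of_le_ker χ K hKker hk m]
      by_contra hne
      apply hg
      have h1 : (ϑ : M → ℂ) ⟨m, hm⟩ ≠ 0 := by
        rw [hϑv]
        exact hne
      exact Subgroup.mul_mem _ (Subgroup.mem_sup_left hk)
        (Subgroup.mem_sup_right (hvan ⟨m, hm⟩ h1))

/-- **Broline–Garrison.** -/
theorem bg_main (χ : IrrCharacter G) (K : Subgroup G) [K.Normal]
    (hK : ∀ g : G, g ∈ K ↔ (χ : G → ℂ) g = (χ : G → ℂ) 1)
    (h : ¬ K ≤ Cfsg.fittingSubgroup G ∨
      (K = Cfsg.fittingSubgroup G ∧ Group.IsSolvable (G ⧸ K) ∧ K ≠ ⊤)) :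
    ∃ ψ : IrrCharacter G, charDegree (χ : G → ℂ) < charDegree (ψ : G → ℂ) ∧
      Helper25.irrKer ψ < K := by
  classical
  obtain ⟨L, M, Pg, hLn, hKL, hmin, hM, hKM, hPL, hPM, hFr⟩ := bg_data K h
  haveI := hLn
  haveI : Fintype M := Fintype.ofFinite M
  rcases bg_char χ K M hK hM hKM with hψ | ⟨hKMD, hvan⟩
  · exact hψ
  · exfalso
    haveI : M.normalCore.Normal := Subgroup.normalCore_normal M
    by_cases hLD : L ≤ K ⊔ M.normalCore
    · have hPD : Pg ≤ M.normalCore := by
        intro x hx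
        have hx' : x ∈ ((K ⊔ M.normalCore : Subgroup G) : Set G) := hLD (hPL hx)
        rw [Subgroup.normal_mul] at hx'
        obtain ⟨k, hk, d, hd, hkd⟩ := Set.mem_mul.mp hx'
        have hdM : d ∈ M := Subgroup.normalCore_le M hd
        have hkM : k ∈ M := by
          have h1 := M.mul_mem (hPM hx) (M.inv_mem hdM)
          rw [← hkd, mul_inv_cancel_right] at h1
          exact h1
        rw [← hkd]
        exact Subgroup.mul_mem _ (hKMD ⟨hk, hkM⟩) hd
      exact hFr (L ⊓ M.normalCore) inferInstance (le_inf hPL hPD) inf_le_left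
        (inf_le_right.trans (Subgroup.normalCore_le M))
    · rcases hmin (L ⊓ (K ⊔ M.normalCore)) inferInstance (le_inf hKL le_sup_left)
        inf_le_left with h2 | h2
      · have hLK : ¬ L ≤ Helper25.irrKer χ := by
          intro hle
          apply hLD
          intro x hx
          exact Subgroup.mem_sup_left ((hK x).mpr ((Helper25.mem_irrKer χ x).mp (hle hx)))
        have h3 := Helper2.irr_sum_coset_normal χ L hLK 1
        have h4 : ∑ x : G, (if x ∈ L then (χ : G → ℂ) (x * 1) else 0) =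
            ∑ x : G, (if x ∈ K then (χ : G → ℂ) 1 else 0) := by
          apply Finset.sum_congr rfl
          intro x _
          rw [mul_one]
          by_cases hxK : x ∈ K
          · rw [if_pos (hKL hxK), if_pos hxK, (hK x).mp hxK]
          · rw [if_neg hxK]
            by_cases hxL : x ∈ L
            · rw [if_pos hxL]
              apply hvan
              intro hx
              apply hxK
              have h5 : x ∈ L ⊓ (K ⊔ M.normalCore) := ⟨hxL, hx⟩
              rwa [h2] at h5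
            · rw [if_neg hxL]
        rw [h4, Finset.sum_ite, Finset.sum_const_zero, add_zero, Finset.sum_const,
          nsmul_eq_mul] at h3
        have hc : ((Finset.univ.filter (fun x : G => x ∈ K)).card : ℂ) ≠ 0 := by
          rw [Nat.cast_ne_zero]
          exact Finset.card_ne_zero.mpr ⟨1, Finset.mem_filter.mpr ⟨Finset.mem_univ _, K.one_mem⟩⟩
        exact (mul_ne_zero hc (Helper25.irr_one_ne_zero χ)) h3
      · exact hLD (h2 ▸ inf_le_right)

end Chars

end Cfsg.Agent.Helper24
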