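import Mathlib
import Cfsg.Agent.Helper7.BlockQuot
import Cfsg.Agent.Helper7.MinMax

/-!
# Blocks of a quotient: images of Sylow subgroups of centralizers (helper24)
-/

set_option autoImplicit false

namespace Cfsg.Agent.Helper24

open Cfsg Cfsg.Agent.Helper25 Cfsg.Agent.Helper7

universe u

variable {G : Type u} [Group G]

theorem bq_centralizer_le (N : Subgroup G) [N.Normal] (g : G) :
    Subgroup.centralizer ({g} : Set G) ≤
      (Subgroup.centralizer ({(QuotientGroup.mk g : G ⧸ N)} : Set (G ⧸ N))).comap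
        (QuotientGroup.mk' N) := by
  intro x hx
  rw [Subgroup.mem_comap, Subgroup.mem_centralizer_singleton_iff]
  have h1 := Subgroup.mem_centralizer_singleton_iff.mp hx
  show (QuotientGroup.mk x : G ⧸ N) * QuotientGroup.mk g = QuotientGroup.mk g * QuotientGroup.mk x
  rw [← QuotientGroup.mk_mul, ← QuotientGroup.mk_mul, h1]

/-- If the image of `C_G(g)` has index prime to `p` in `C_{G/N}(gN)`, the image of a Sylow
`p`-subgroup of `C_G(g)` is a Sylow `p`-subgroup of `C_{G/N}(gN)`. -/
theorem bq_sylow_map [Finite G] (p : ℕ) [Fact p.Prime] (N : Subgroup G) [N.Normal] (g : G)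
    (ht : ¬ p ∣ (Subgroup.centralizer ({g} : Set G)).relIndex
      ((Subgroup.centralizer ({(QuotientGroup.mk g : G ⧸ N)} : Set (G ⧸ N))).comap
        (QuotientGroup.mk' N)))
    (S : Sylow p (Subgroup.centralizer ({g} : Set G))) :
    ∃ Q : Sylow p (Subgroup.centralizer ({(QuotientGroup.mk g : G ⧸ N)} : Set (G ⧸ N))),
      (Q : Subgroup (Subgroup.centralizer ({(QuotientGroup.mk g : G ⧸ N)} : Set (G ⧸ N)))).map
          (Subgroup.centralizer ({(QuotientGroup.mk g : G ⧸ N)} : Set (G ⧸ N))).subtype
        = ((S : Subgroup (Subgroup.centralizer ({g} : Set G))).map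
            (Subgroup.centralizer ({g} : Set G)).subtype).map (QuotientGroup.mk' N) := by
  classical
  have hCle := bq_centralizer_le N g
  obtain ⟨Cb, hCb⟩ : ∃ Cb, Cb = Subgroup.centralizer
      ({(QuotientGroup.mk g : G ⧸ N)} : Set (G ⧸ N)) := ⟨_, rfl⟩
  rw [← hCb] at hCle ht ⊢
  obtain ⟨SG, hSG⟩ : ∃ SG, SG = (S : Subgroup (Subgroup.centralizer ({g} : Set G))).map
      (Subgroup.centralizer ({g} : Set G)).subtype := ⟨_, rfl⟩
  rw [← hSG]
  have hSGC : SG ≤ Subgroup.centralizer ({g} : Set G) := by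
    rw [hSG]
    exact Subgroup.map_subtype_le _
  have hTle : SG.map (QuotientGroup.mk' N) ≤ Cb := by
    rw [Subgroup.map_le_iff_le_comap]
    exact hSGC.trans hCle
  have hTp : IsPGroup p (SG.map (QuotientGroup.mk' N)) := by
    rw [hSG]
    exact (S.isPGroup'.map _).map _
  have hsurj : Function.Surjective (QuotientGroup.mk' N) := QuotientGroup.mk'_surjective N
  have hidx : ¬ p ∣ ((SG.map (QuotientGroup.mk' N)).subgroupOf Cb).index := by
    show ¬ p ∣ (SG.map (QuotientGroup.mk' N)).relIndex Cb
    have h1 : Cb = (Cb.comap (QuotientGroup.mk' N)).map (QuotientGroup.mk' N) :=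
      (Subgroup.map_comap_eq_self_of_surjective hsurj Cb).symm
    rw [h1, ← Subgroup.relIndex_comap, Subgroup.comap_map_eq]
    intro hdvd
    have h2 : (SG ⊔ (QuotientGroup.mk' N).ker).relIndex (Cb.comap (QuotientGroup.mk' N)) ∣
        SG.relIndex (Cb.comap (QuotientGroup.mk' N)) :=
      Subgroup.relIndex_dvd_of_le_left _ le_sup_left
    have h3 : SG.relIndex (Subgroup.centralizer ({g} : Set G)) *
        (Subgroup.centralizer ({g} : Set G)).relIndex (Cb.comap (QuotientGroup.mk' N))
        = SG.relIndex (Cb.comap (QuotientGroup.mk' N)) :=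
      Subgroup.relIndex_mul_relIndex _ _ _ hSGC hCle
    have h4 : SG.relIndex (Subgroup.centralizer ({g} : Set G))
        = (S : Subgroup (Subgroup.centralizer ({g} : Set G))).index := by
      show (SG.subgroupOf (Subgroup.centralizer ({g} : Set G))).index = _
      congr 1
      rw [hSG]
      exact Subgroup.comap_map_eq_self_of_injective (Subgroup.subtype_injective _) _
    have h5 : ¬ p ∣ (S : Subgroup (Subgroup.centralizer ({g} : Set G))).index := S.not_dvd_index
    rw [← h3, h4] at h2
    exact (Nat.Prime.not_dvd_mul (Fact.out) h5 ht) (hdvd.trans h2)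
  have hTp' : IsPGroup p ((SG.map (QuotientGroup.mk' N)).subgroupOf Cb) := hTp.comap_subtype
  refine ⟨hTp'.toSylow hidx, ?_⟩
  rw [IsPGroup.toSylow_coe, Subgroup.subgroupOf_map_subtype, inf_eq_left.mpr hTle]

/-- The index of `C_G(g)` in the preimage of `C_{G/N}(gN)`. -/
theorem bq_relIndex [Finite G] (N : Subgroup G) [N.Normal] (g : G) (t : ℕ)
    (ht : (Subgroup.centralizer ({g} : Set G)).index
      = t * (Subgroup.centralizer ({(QuotientGroup.mk g : G ⧸ N)} : Set (G ⧸ N))).index) :
    (Subgroup.centralizer ({g} : Set G)).relIndex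
      ((Subgroup.centralizer ({(QuotientGroup.mk g : G ⧸ N)} : Set (G ⧸ N))).comap
        (QuotientGroup.mk' N)) = t := by
  have e1 := Subgroup.relIndex_mul_index (bq_centralizer_le N g)
  rw [Subgroup.index_comap_of_surjective _ (QuotientGroup.mk'_surjective N), ht] at e1
  exact Nat.eq_of_mul_eq_mul_right (Nat.pos_of_ne_zero Subgroup.index_ne_zero_of_finite) e1

end Cfsg.Agent.Helper24
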