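import Mathlib
import Cfsg.Prelude
import Cfsg.Agent.Helper24.BlockDeg2
import Cfsg.Agent.Helper25.BlockBF
import Cfsg.Agent.Helper25.BlockOrth

/-!
# 2-blocks of defect one

A `2`-block of defect one consists of exactly two irreducible characters, which agree on the
elements of odd order and are opposite on the elements of even order.
-/

namespace Cfsg.Agent.Helper24

open Cfsg Cfsg.Agent.Helper25

universe u

variable {G : Type u} [Group G] {M : Ideal AlgInt}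

theorem defect_one_two [Fintype G] (hM : IsPModular 2 M) {B : Set (IrrCharacter G)}
    (hB : IsPBlock M B) (hd : blockDefect 2 B = 1) :
    ∃ χ₁ χ₂ : IrrCharacter G, χ₁ ≠ χ₂ ∧ B = {χ₁, χ₂} ∧
      (∀ g : G, ¬ 2 ∣ orderOf g → (χ₂ : G → ℂ) g = (χ₁ : G → ℂ) g) ∧
      (∀ g : G, 2 ∣ orderOf g → (χ₂ : G → ℂ) g = -(χ₁ : G → ℂ) g) ∧
      gram 2 (χ₁ : G → ℂ) (χ₁ : G → ℂ) = 1 / 2 := by
  classical
  haveI : Fact (Nat.Prime 2) := ⟨Nat.prime_two⟩
  have hp : Nat.Prime 2 := Nat.prime_two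
  obtain ⟨χ₀, hB0⟩ := id hB
  have hne0 : χ₀ ∈ B := hB0 ▸ self_mem_blockOf hM χ₀
  set Sset := (fun ψ : IrrCharacter G => (charDegree (ψ : G → ℂ)).factorization 2) '' B with hSset
  have hSne : Sset.Nonempty := ⟨_, χ₀, hne0, rfl⟩
  obtain ⟨χ, hχ, hχmin⟩ := Nat.sInf_mem hSne
  have hχmin' : (charDegree (χ : G → ℂ)).factorization 2 = sInf Sset := hχmin
  have h0 : blockHeight 2 B (χ : G → ℂ) = 0 := by
    unfold blockHeight
    rw [← hSset, hχmin', Nat.sub_self]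
  set S := (Set.toFinite B).toFinset with hS
  have hmemS : ∀ ψ : IrrCharacter G, ψ ∈ S ↔ ψ ∈ B := fun ψ => Set.Finite.mem_toFinset _
  have hχS : χ ∈ S := (hmemS χ).mpr hχ
  have hk : ∀ ψ : IrrCharacter G, ψ ∈ B → ∃ s : ℤ, ¬ (2 : ℤ) ∣ s ∧
      2 * gram 2 (χ : G → ℂ) (ψ : G → ℂ) = ((2 ^ blockHeight 2 B (ψ : G → ℂ) : ℕ) : ℂ) * s := by
    intro ψ hψ
    obtain ⟨s, hs, e⟩ := gram_height hM hB hχ h0 hψ
    refine ⟨s, by exact_mod_cast hs, ?_⟩
    rw [hd] at e
    rw [← e]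
    norm_num
  have hk' : ∀ ψ : IrrCharacter G, ∃ k : ℤ, ψ ∈ B →
      (k ≠ 0 ∧ 2 * gram 2 (χ : G → ℂ) (ψ : G → ℂ) = (k : ℂ)) := by
    intro ψ
    by_cases hψ : ψ ∈ B
    · obtain ⟨s, hs, e⟩ := hk ψ hψ
      refine ⟨2 ^ blockHeight 2 B (ψ : G → ℂ) * s, fun _ => ⟨?_, ?_⟩⟩
      · apply mul_ne_zero (pow_ne_zero _ two_ne_zero)
        rintro rfl
        exact hs (dvd_zero _)
      · rw [e]
        push_cast
        ring
    · exact ⟨0, fun h => absurd h hψ⟩
  choose k hkk using hk'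
  have hself : gram 2 (χ : G → ℂ) (χ : G → ℂ) = 1 / 2 := by
    obtain ⟨s, hs, e⟩ := hk χ hχ
    rw [h0, pow_zero, Nat.cast_one, one_mul] at e
    obtain ⟨ρ, hρ, hpos, hle, -⟩ := gram_self_bounds hp χ
    rw [hρ] at e
    have e' : 2 * ρ = (s : ℝ) := by exact_mod_cast e
    have h1 : 0 < s := by
      have : (0 : ℝ) < s := by rw [← e']; linarith
      exact_mod_cast this
    have h2 : s ≤ 2 := by
      have : (s : ℝ) ≤ 2 := by rw [← e']; linarith
      exact_mod_cast this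
    have h3 : s = 1 := by omega
    have h4 : ρ = 1 / 2 := by
      rw [h3] at e'
      push_cast at e'
      linarith
    rw [hρ, h4]
    norm_num
  have hidem := gram_idem_block hM B (fun g => blockCoeff_lr hM hB g) hχ χ
  have hsum : ∑ ψ ∈ S, (k ψ) ^ 2 = 2 := by
    have h1 : ((∑ ψ ∈ S, (k ψ) ^ 2 : ℤ) : ℂ) = 2 := by
      push_cast
      have e : ∀ ψ ∈ S, ((k ψ : ℂ)) ^ 2
          = 4 * (gram 2 (χ : G → ℂ) (ψ : G → ℂ) * gram 2 (ψ : G → ℂ) (χ : G → ℂ)) := by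
        intro ψ hψ
        rw [gram_symm hp χ ψ, ← (hkk ψ ((hmemS ψ).mp hψ)).2]
        ring
      rw [Finset.sum_congr rfl e, ← Finset.mul_sum, hidem, hself]
      norm_num
    exact_mod_cast h1
  have hkχ : k χ = 1 := by
    have h1 := (hkk χ hχ).2
    rw [hself] at h1
    have h2 : ((k χ : ℤ) : ℂ) = 1 := by rw [← h1]; norm_num
    exact_mod_cast h2
  have hsum' : ∑ ψ ∈ S.erase χ, (k ψ) ^ 2 = 1 := by
    have h1 := Finset.add_sum_erase S (fun ψ => (k ψ) ^ 2) hχS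
    simp only [hkχ] at h1
    linarith
  have hge : ∀ ψ ∈ S.erase χ, (1 : ℤ) ≤ (k ψ) ^ 2 := by
    intro ψ hψ
    have h1 := (hkk ψ ((hmemS ψ).mp (Finset.mem_of_mem_erase hψ))).1
    have h2 : 0 < (k ψ) ^ 2 := by positivity
    omega
  have hcard : (S.erase χ).card ≤ 1 := by
    have h1 := Finset.card_nsmul_le_sum (S.erase χ) (fun ψ => (k ψ) ^ 2) 1 hge
    rw [hsum', nsmul_eq_mul, mul_one] at h1
    exact_mod_cast h1
  have hne' : (S.erase χ).Nonempty := by
    by_contra h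
    rw [Finset.not_nonempty_iff_eq_empty] at h
    rw [h, Finset.sum_empty] at hsum'
    exact zero_ne_one hsum'
  obtain ⟨ψ, hψ⟩ := hne'
  have hS2 : S.erase χ = {ψ} :=
    Finset.eq_singleton_iff_unique_mem.mpr
      ⟨hψ, fun y hy => Finset.card_le_one.mp hcard y hy ψ hψ⟩
  have hψχ : ψ ≠ χ := Finset.ne_of_mem_erase hψ
  have hψB : ψ ∈ B := (hmemS ψ).mp (Finset.mem_of_mem_erase hψ)
  have hkψ2 : (k ψ) ^ 2 = 1 := by
    rw [hS2, Finset.sum_singleton] at hsum'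
    exact hsum'
  have hB2 : B = {χ, ψ} := by
    ext φ
    simp only [Set.mem_insert_iff, Set.mem_singleton_iff]
    constructor
    · intro hφ
      by_cases hφχ : φ = χ
      · left; exact hφχ
      · right
        have h1 : φ ∈ S.erase χ := Finset.mem_erase.mpr ⟨hφχ, (hmemS φ).mpr hφ⟩
        rw [hS2] at h1
        exact Finset.mem_singleton.mp h1
    · rintro (rfl | rfl)
      · exact hχ
      · exact hψB
  have hreg : ∀ g : G, pRegularPart 2 (χ : G → ℂ) g =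
      gram 2 (χ : G → ℂ) (χ : G → ℂ) * pRegularPart 2 (χ : G → ℂ) g +
        gram 2 (χ : G → ℂ) (ψ : G → ℂ) * pRegularPart 2 (ψ : G → ℂ) g := by
    intro g
    have h1 := pRegularPart_eq_sum_gram (p := 2) χ g
    have h2 : ∑ φ : IrrCharacter G, gram 2 (χ : G → ℂ) (φ : G → ℂ) * pRegularPart 2 (φ : G → ℂ) g
        = ∑ φ ∈ ({χ, ψ} : Finset (IrrCharacter G)),
            gram 2 (χ : G → ℂ) (φ : G → ℂ) * pRegularPart 2 (φ : G → ℂ) g := by
      symm
      apply Finset.sum_subset (Finset.subset_univ _)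
      intro φ _ hφ
      have hφB : φ ∉ B := by
        intro h
        apply hφ
        rw [hB2] at h
        simpa using h
      rw [gram_eq_zero_of_lr hM B (fun g => blockCoeff_lr hM hB g) hχ hφB, zero_mul]
    rw [h2, Finset.sum_pair hψχ.symm] at h1
    exact h1
  have h11 : ¬ 2 ∣ orderOf (1 : G) := not_dvd_orderOf_one hp
  have hkψ : k ψ = 1 := by
    have h1 := hreg 1
    rw [pRegularPart_of_reg h11, pRegularPart_of_reg h11, hself] at h1
    have h2 := (hkk ψ hψB).2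
    have h3 : (χ : G → ℂ) 1 = (k ψ : ℂ) * (ψ : G → ℂ) 1 := by
      linear_combination (2 : ℂ) * h1 + (ψ : G → ℂ) 1 * h2
    rw [irr_one_eq_degree, irr_one_eq_degree] at h3
    have h4 : ((charDegree (χ : G → ℂ) : ℤ)) = k ψ * (charDegree (ψ : G → ℂ) : ℤ) := by
      exact_mod_cast h3
    have h5 : (0 : ℤ) < charDegree (χ : G → ℂ) := by exact_mod_cast irr_degree_pos χ
    have h6 : (0 : ℤ) < charDegree (ψ : G → ℂ) := by exact_mod_cast irr_degree_pos ψ
    have h7 : (k ψ - 1) * (k ψ + 1) = 0 := by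
      have : (k ψ - 1) * (k ψ + 1) = (k ψ) ^ 2 - 1 := by ring
      rw [this, hkψ2, sub_self]
    rcases mul_eq_zero.mp h7 with h | h
    · omega
    · exfalso
      have h8 : k ψ = -1 := by omega
      rw [h8] at h4
      omega
  have hgψ : gram 2 (χ : G → ℂ) (ψ : G → ℂ) = 1 / 2 := by
    have h2 := (hkk ψ hψB).2
    rw [hkψ] at h2
    have h3 : (2 : ℂ) * gram 2 (χ : G → ℂ) (ψ : G → ℂ) = 1 := by rw [h2]; norm_num
    linear_combination (1 / 2 : ℂ) * h3
  have hregeq : ∀ g : G, ¬ 2 ∣ orderOf g → (ψ : G → ℂ) g = (χ : G → ℂ) g := by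
    intro g hg
    have h1 := hreg g
    rw [pRegularPart_of_reg hg, pRegularPart_of_reg hg, hself, hgψ] at h1
    linear_combination (-2 : ℂ) * h1
  refine ⟨χ, ψ, hψχ.symm, hB2, hregeq, ?_, hself⟩
  intro g hg
  have h1 := weak_block_orth hM hB 1 g⁻¹ h11 (by rwa [orderOf_inv])
  rw [inv_inv] at h1
  have hSeq : (Set.toFinite B).toFinset = ({χ, ψ} : Finset (IrrCharacter G)) := by
    ext φ
    rw [Set.Finite.mem_toFinset, hB2]
    simp
  rw [hSeq, Finset.sum_pair hψχ.symm, hregeq 1 h11] at h1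
  have h2 : (χ : G → ℂ) 1 ≠ 0 := irr_one_ne_zero χ
  have h3 : (χ : G → ℂ) 1 * ((χ : G → ℂ) g + (ψ : G → ℂ) g) = 0 := by
    rw [mul_add]; exact h1
  have h4 := (mul_eq_zero.mp h3).resolve_left h2
  linear_combination h4

end Cfsg.Agent.Helper24
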