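import Mathlib
import Cfsg.Prelude
import Cfsg.Agent.Helper24.DefectOne
import Cfsg.Agent.Helper7.SectionSum
import Cfsg.Agent.Helper7.Defect

/-!
# Blocks with a defect group of order two: the local block

* `normalizer_zpowers_involution`: `N_G(⟨x⟩) = C_G(x)` for an involution `x`.
* `unique_induced_of_involution`: if `⟨x⟩` is a defect group of `B`, the block of `C_G(x)`
  inducing `B` is unique and has defect one.
* `section_eq_blockPart_of_unique`: the second main theorem when exactly one block of `C_G(u)`
  induces `B`.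
* `indFun_eq_of_ti`: induction from a subgroup `H` of a class function supported on a subset `T`
  that is moved off itself by the elements outside `H`.
-/

namespace Cfsg.Agent.Helper24

open Cfsg Cfsg.Agent.Helper25 Cfsg.Agent.Helper7 Cfsg.Agent.Helper2

universe u

variable {G : Type u} [Group G] {p : ℕ} {M : Ideal AlgInt}

theorem mem_zpowers_involution {x y : G} (hx : orderOf x = 2) (hy : y ∈ Subgroup.zpowers x) :
    y = 1 ∨ y = x := by
  obtain ⟨k, rfl⟩ := Subgroup.mem_zpowers_iff.mp hy
  have hx2 : x ^ (2 : ℤ) = 1 := by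
    rw [zpow_two, ← pow_two, ← hx]; exact pow_orderOf_eq_one x
  rcases Int.even_or_odd' k with ⟨m, rfl | rfl⟩
  · left
    rw [zpow_mul, hx2, one_zpow]
  · right
    rw [zpow_add, zpow_mul, hx2, one_zpow, one_mul, zpow_one]

theorem normalizer_zpowers_involution (x : G) (hx : orderOf x = 2) :
    Subgroup.normalizer ((Subgroup.zpowers x : Subgroup G) : Set G)
      = Subgroup.centralizer ({x} : Set G) := by
  have hx1 : x ≠ 1 := by
    intro h
    rw [h, orderOf_one] at hx
    exact absurd hx (by decide)
  apply le_antisymm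
  · intro g hg
    rw [Subgroup.mem_normalizer_iff] at hg
    have h1 : g * x * g⁻¹ ∈ Subgroup.zpowers x := (hg x).mp (Subgroup.mem_zpowers x)
    rw [Subgroup.mem_centralizer_singleton_iff]
    rcases mem_zpowers_involution hx h1 with h | h
    · exfalso
      apply hx1
      have : x = g⁻¹ * (g * x * g⁻¹) * g := by group
      rw [this, h]; group
    · have : g * x = (g * x * g⁻¹) * g := by group
      rw [this, h]
  · intro g hg
    rw [Subgroup.mem_centralizer_singleton_iff] at hg
    apply Subgroup.centralizer_le_normalizer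
    rw [Subgroup.mem_centralizer_iff]
    intro h hh
    obtain ⟨k, rfl⟩ := Subgroup.mem_zpowers_iff.mp hh
    have hc : Commute g x := hg
    exact (hc.zpow_right k).eq.symm

theorem unique_induced_of_involution [Finite G] (hM : IsPModular 2 M) (x : G)
    (hx : orderOf x = 2) {B : Set (IrrCharacter G)} (hB : IsPBlock M B)
    (hBD : IsDefectGroup 2 M B (Subgroup.zpowers x))
    {b : Set (IrrCharacter (Subgroup.centralizer ({x} : Set G)))}
    (hb : IsInducedBlock M (Subgroup.centralizer ({x} : Set G)) b B) :
    blockDefect 2 b = 1 ∧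
      ∀ b' : Set (IrrCharacter (Subgroup.centralizer ({x} : Set G))),
        IsInducedBlock M (Subgroup.centralizer ({x} : Set G)) b' B → b' = b := by
  classical
  haveI : Fact (Nat.Prime 2) := ⟨Nat.prime_two⟩
  have hDp : IsPGroup 2 (Subgroup.zpowers x) := isPGroup_of_isDefectGroup hBD
  have key : ∀ H : Subgroup G,
      H = Subgroup.normalizer ((Subgroup.zpowers x : Subgroup G) : Set G) →
      ∀ b : Set (IrrCharacter H), IsInducedBlock M H b B →
        (blockDefect 2 b = 1 ∧ ∀ b' : Set (IrrCharacter H), IsInducedBlock M H b' B → b' = b) := by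
    intro H hH
    subst hH
    intro b hb
    obtain ⟨b₀, hb₀, hD₀, hind₀⟩ := first_main_exists hM (Subgroup.zpowers x) hB hBD
    have e1 : b₀ = b := first_main_unique hM (Subgroup.zpowers x) hDp hind₀ hb hD₀
    subst e1
    constructor
    · have hc := card_defectGroup hM hb₀ hD₀
      have h2 : Nat.card ((Subgroup.zpowers x).subgroupOf
          (Subgroup.normalizer ((Subgroup.zpowers x : Subgroup G) : Set G))) = 2 := by
        rw [Nat.card_congr (Subgroup.subgroupOfEquivOfLe Subgroup.le_normalizer).toEquiv,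
          Nat.card_zpowers, hx]
      rw [h2] at hc
      have h3 : (2 : ℕ) ^ 1 = 2 ^ blockDefect 2 b₀ := by rw [pow_one]; exact hc
      exact (Nat.pow_right_injective (le_refl 2) h3).symm
    · intro b' hb'
      exact (first_main_unique hM (Subgroup.zpowers x) hDp hind₀ hb' hD₀).symm
  exact key _ (normalizer_zpowers_involution x hx).symm b hb

open Classical in
/-- The second main theorem when a single block `b` of `C_G(u)` induces `B`. -/
theorem section_eq_blockPart_of_unique [Finite G] [Fact p.Prime] (hM : IsPModular p M) (u : G)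
    (k : ℕ) (hk : orderOf u = p ^ k) {B : Set (IrrCharacter G)}
    {b : Set (IrrCharacter (Subgroup.centralizer ({u} : Set G)))}
    (hind : IsInducedBlock M (Subgroup.centralizer ({u} : Set G)) b B)
    (huniq : ∀ b' : Set (IrrCharacter (Subgroup.centralizer ({u} : Set G))),
      IsInducedBlock M (Subgroup.centralizer ({u} : Set G)) b' B → b' = b)
    (χ : IrrCharacter G)
    (y : Subgroup.centralizer ({u} : Set G)) (hy : ¬ p ∣ orderOf y) :
    blockPart b (fun c : Subgroup.centralizer ({u} : Set G) => (χ : G → ℂ) (u * (c : G))) y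
      = if χ ∈ B then (χ : G → ℂ) (u * (y : G)) else 0 := by
  classical
  have hp := hM.1
  haveI := Fintype.ofFinite (Subgroup.centralizer ({u} : Set G))
  obtain ⟨ϑ, hϑ⟩ : ∃ ϑ : Subgroup.centralizer ({u} : Set G) → ℂ,
      ϑ = fun c : Subgroup.centralizer ({u} : Set G) => (χ : G → ℂ) (u * (c : G)) := ⟨_, rfl⟩
  rw [← hϑ]
  have hcomm : ∀ c : Subgroup.centralizer ({u} : Set G), u * (c : G) = (c : G) * u :=
    fun c => Subgroup.mem_centralizer_iff.mp c.2 u (Set.mem_singleton u)
  have hϑcl : ∀ g t : Subgroup.centralizer ({u} : Set G), ϑ (t * g * t⁻¹) = ϑ g := by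
    intro g t
    rw [hϑ]
    show (χ : G → ℂ) (u * ((t : G) * (g : G) * (t : G)⁻¹)) = (χ : G → ℂ) (u * (g : G))
    have e : u * ((t : G) * (g : G) * (t : G)⁻¹) = (t : G) * (u * (g : G)) * (t : G)⁻¹ := by
      rw [← mul_assoc, ← mul_assoc, hcomm t]
      group
    rw [e, irr_conj]
  have hB : IsPBlock M B := hind.2.1
  have hb₀ : IsPBlock M b := hind.1
  by_cases hχ : χ ∈ B
  · rw [if_pos hχ]
    have h1 : ∑ b ∈ allBlocks M (Subgroup.centralizer ({u} : Set G)),
        blockPart b ϑ y = ϑ y := by
      have h2 : ∀ b ∈ allBlocks M (Subgroup.centralizer ({u} : Set G)),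
          blockPart b ϑ y
            = ∑ c : Subgroup.centralizer ({u} : Set G), blockCoeff b c * ϑ (c * y) := by
        intro b _
        rw [blockPart_eq_sum_blockCoeff b ϑ hϑcl, finsum_eq_sum_of_fintype]
      have h3 : ∀ c : Subgroup.centralizer ({u} : Set G),
          ∑ b ∈ allBlocks M (Subgroup.centralizer ({u} : Set G)),
            blockCoeff b c * ϑ (c * y) = if c = 1 then ϑ y else 0 := by
        intro c
        rw [← Finset.sum_mul, sum_allBlocks_blockCoeff hM]
        by_cases hc : c = 1
        · rw [if_pos hc, if_pos hc, one_mul, hc, one_mul]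
        · rw [if_neg hc, if_neg hc, zero_mul]
      rw [Finset.sum_congr rfl h2, Finset.sum_comm, Finset.sum_congr rfl (fun c _ => h3 c),
        Finset.sum_eq_single 1]
      · rw [if_pos rfl]
      · intro c _ hc
        rw [if_neg hc]
      · intro h
        exact absurd (Finset.mem_univ _) h
    have h4 : ϑ y = (χ : G → ℂ) (u * (y : G)) := by rw [hϑ]
    rw [← h4, ← h1]
    symm
    apply Finset.sum_eq_single b
    · intro b' hb' hne
      rw [hϑ]
      apply blockPart_section_eq_zero hM u k hk hB hχ (mem_allBlocks.mp hb') _ y hy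
      intro hind'
      exact hne (huniq b' hind')
    · intro h
      exact absurd (mem_allBlocks.mpr hb₀) h
  · rw [if_neg hχ, hϑ]
    apply blockPart_section_eq_zero hM u k hk (isPBlock_blockOf χ) (self_mem_blockOf hM χ) hb₀ _ y hy
    intro hind'
    have h3 := isInducedBlock_unique hM _ hind hind'
    apply hχ
    rw [h3]
    exact self_mem_blockOf hM χ

theorem defect_one_partner [Fintype G] (hM : IsPModular 2 M) {B : Set (IrrCharacter G)}
    (hB : IsPBlock M B) (hd : blockDefect 2 B = 1) (θ : IrrCharacter G) (hθ : θ ∈ B) :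
    ∃ θ' : IrrCharacter G, θ ≠ θ' ∧ B = {θ, θ'} ∧
      (∀ g : G, ¬ 2 ∣ orderOf g → (θ' : G → ℂ) g = (θ : G → ℂ) g) ∧
      (∀ g : G, 2 ∣ orderOf g → (θ' : G → ℂ) g = -(θ : G → ℂ) g) ∧
      gram 2 (θ : G → ℂ) (θ : G → ℂ) = 1 / 2 := by
  obtain ⟨χ₁, χ₂, hne, hBeq, hreg, hsing, hgram⟩ := defect_one_two hM hB hd
  rw [hBeq] at hθ
  rcases hθ with h | h
  · subst h
    exact ⟨χ₂, hne, hBeq, hreg, hsing, hgram⟩
  · have h' : θ = χ₂ := h
    subst h'
    refine ⟨χ₁, hne.symm, by rw [hBeq, Set.pair_comm], fun g hg => (hreg g hg).symm,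
      fun g hg => by rw [hsing g hg, neg_neg], ?_⟩
    rw [← hgram, gram_eq, gram_eq]
    congr 1
    apply Finset.sum_congr rfl
    intro g _
    by_cases hg : 2 ∣ orderOf g
    · rw [pRegularPart_of_sing hg, pRegularPart_of_sing hg, zero_mul, zero_mul]
    · rw [pRegularPart_of_reg hg, pRegularPart_of_reg hg, hreg g hg,
        hreg g⁻¹ (by rwa [orderOf_inv])]

/-- Induction from `H` of a class function supported on a subset `T` which every element
outside `H` moves off itself: the induced function agrees with the original one on `T`. -/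
theorem indFun_eq_of_ti [Fintype G] (H : Subgroup G) (T : Set G)
    (hTI : ∀ g : G, g ∉ H → ∀ t ∈ T, g * t * g⁻¹ ∉ T)
    (ψ : H → ℂ) (hψ : IsClassFunction H ψ)
    (hψT : ∀ h : H, (h : G) ∉ T → ψ h = 0)
    (t : H) (htT : (t : G) ∈ T) :
    indFun H ψ t = ψ t := by
  classical
  haveI : Fintype H := Fintype.ofFinite _
  have key : ∀ x : G, extendByZero H ψ (x⁻¹ * (t : G) * x) =
      extendByZero H (fun _ => ψ t) x := by
    intro x
    by_cases hx : x ∈ H
    · have hmem : x⁻¹ * (t : G) * x ∈ H := H.mul_mem (H.mul_mem (H.inv_mem hx) t.2) hx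
      rw [extendByZero_of_mem _ _ hx, extendByZero_of_mem _ _ hmem]
      have h1 := hψ t (⟨x, hx⟩⁻¹ : H)
      rw [← h1]
      congr 1
      apply Subtype.ext
      simp
    · rw [extendByZero_of_not_mem _ _ hx]
      by_cases hmem : x⁻¹ * (t : G) * x ∈ H
      · rw [extendByZero_of_mem _ _ hmem]
        apply hψT
        intro hT
        have hx' : x⁻¹ ∉ H := fun h => hx (by simpa using H.inv_mem h)
        have := hTI x⁻¹ hx' (t : G) htT
        rw [inv_inv] at this
        exact this hT
      · exact extendByZero_of_not_mem _ _ hmem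
  rw [indFun_apply, Finset.sum_congr rfl (fun x _ => key x), sum_extendByZero, Finset.sum_const,
    Finset.card_univ, nsmul_eq_mul, ← Nat.card_eq_fintype_card]
  have hN : (Nat.card H : ℂ) ≠ 0 := natCard_ne_zero_complex _
  field_simp

end Cfsg.Agent.Helper24
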