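import Mathlib
import Cfsg.Agent.Helper26.CycGlaub2
import Cfsg.Agent.Helper25.CharOrth
import Cfsg.Agent.Helper25.CharKer

/-!
# Characters with values of absolute value one off the identity; extraspecial groups (helper24)

* `fp_arith`, `fp_abel`: a character of a finite abelian group `Q` of degree `N` all of whose
  values off the identity have absolute value one has `|Q| ∣ N + 1` or `|Q| ∣ N - 1`.
* `fp_extra`: a group with commutators central, centre of prime order `p` and order `p^(2n+1)`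
  has an irreducible character of degree `p^n` vanishing off the centre.
* `fp_main`: `X = A ⋊ B`, `A` as in `fp_extra`, `B` abelian of order prime to `p` with
  `C_A(x) = Z(A)` for all `1 ≠ x ∈ B`: then `|B| ∣ p^n ± 1`.
-/

set_option autoImplicit false

namespace Cfsg.Agent.Helper24

open Cfsg Cfsg.Agent.Helper26
open scoped ComplexConjugate

universe u

theorem fp_arith (h N : ℕ) (hh : 0 < h) {ι : Type*} [Fintype ι] (m : ι → ℕ)
    (hι : Fintype.card ι = h) (h1 : ∑ i, m i = N)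
    (h2 : h * ∑ i, (m i) ^ 2 = N ^ 2 + h - 1) : h ∣ N + 1 ∨ h ∣ N - 1 := by
  obtain ⟨a, r, hr, hN⟩ : ∃ a r : ℕ, r < h ∧ N = h * a + r :=
    ⟨N / h, N % h, Nat.mod_lt _ hh, (Nat.div_add_mod N h).symm⟩
  have h2' : (h : ℤ) * ∑ i, ((m i : ℤ)) ^ 2 = (N : ℤ) ^ 2 + h - 1 := by
    have h3 : h * ∑ i, (m i) ^ 2 + 1 = N ^ 2 + h := by omega
    have h4 : ((h * ∑ i, (m i) ^ 2 + 1 : ℕ) : ℤ) = ((N ^ 2 + h : ℕ) : ℤ) := by rw [h3]
    push_cast at h4
    linarith
  have h1' : ∑ i, (m i : ℤ) = N := by exact_mod_cast h1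
  have hk1 : ∑ i, ((m i : ℤ) - a) = r := by
    rw [Finset.sum_sub_distrib, h1', Finset.sum_const, Finset.card_univ, hι, hN]
    push_cast
    simp only [nsmul_eq_mul]
    ring
  have hk2 : (h : ℤ) * ∑ i, ((m i : ℤ) - a) ^ 2 = (r : ℤ) ^ 2 + h - 1 := by
    have h5 : ∑ i, ((m i : ℤ) - a) ^ 2
        = ∑ i, (m i : ℤ) ^ 2 - 2 * a * ∑ i, (m i : ℤ) + h * (a : ℤ) ^ 2 := by
      have h6 : ∀ i : ι, ((m i : ℤ) - a) ^ 2 = (m i : ℤ) ^ 2 - 2 * a * (m i : ℤ) + (a : ℤ) ^ 2 :=
        fun i => by ring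
      rw [Finset.sum_congr rfl (fun i _ => h6 i), Finset.sum_add_distrib, Finset.sum_sub_distrib,
        ← Finset.mul_sum, Finset.sum_const, Finset.card_univ, hι]
      simp only [nsmul_eq_mul]
    rw [h5, h1', mul_add, mul_sub, h2']
    have hN' : (N : ℤ) = h * a + r := by exact_mod_cast hN
    rw [hN']
    ring
  have hk3 : ∑ i, ((m i : ℤ) - a) ≤ ∑ i, ((m i : ℤ) - a) ^ 2 :=
    Finset.sum_le_sum (fun i _ => Int.le_self_sq _)
  rw [hk1] at hk3
  have hk4 : (h : ℤ) * r ≤ (r : ℤ) ^ 2 + h - 1 := by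
    rw [← hk2]
    exact mul_le_mul_of_nonneg_left hk3 (by positivity)
  rcases Nat.lt_or_ge r 2 with hr2 | hr2
  · interval_cases r
    · -- r = 0
      left
      have h7 : (h : ℤ) ∣ (h : ℤ) - 1 := by
        refine ⟨∑ i, ((m i : ℤ) - a) ^ 2, ?_⟩
        rw [hk2]
        ring
      have h8 : (h : ℤ) ∣ 1 := by
        have h9 := Int.dvd_sub (dvd_refl (h : ℤ)) h7
        simpa using h9
      have h10 : h ∣ 1 := by exact_mod_cast h8
      rw [Nat.dvd_one.mp h10]
      exact one_dvd _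
    · -- r = 1
      right
      exact ⟨a, by omega⟩
  · left
    have hr' : (r : ℤ) < h := by exact_mod_cast hr
    have hr2' : (2 : ℤ) ≤ r := by exact_mod_cast hr2
    have h7 : (h : ℤ) - 1 ≤ r := by nlinarith
    have h8 : r = h - 1 := by omega
    refine ⟨a + 1, ?_⟩
    rw [hN, h8]
    have : h * (a + 1) = h * a + h := by ring
    omega

theorem fp_abel {Q : Type u} [Group Q] [Fintype Q] (hab : ∀ a b : Q, a * b = b * a)
    (B : Q → ℂ) (hB : IsCharacter Q B) (N : ℕ) (hN : B 1 = N)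
    (h1 : ∀ t, t ≠ 1 → B t * conj (B t) = 1) :
    Nat.card Q ∣ N + 1 ∨ Nat.card Q ∣ N - 1 := by
  classical
  have hcardhom := Helper2.card_hom_of_comm hab
  haveI : Finite (Q →* ℂˣ) := Nat.finite_of_card_ne_zero (by rw [hcardhom]; exact Nat.card_pos.ne')
  letI : Fintype (Q →* ℂˣ) := Fintype.ofFinite _
  have hn0 : (Nat.card Q : ℂ) ≠ 0 := Nat.cast_ne_zero.mpr Nat.card_pos.ne'
  have hnat : ∀ μ : Q →* ℂˣ, ∃ k : ℕ, classInner B (fun u => ((μ u : ℂˣ) : ℂ)) = k :=
    fun μ => Helper2.classInner_char_nat hB (Helper7.isCharacter_of_hom μ)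
  choose m hm using hnat
  have hsum1 : ∑ μ : Q →* ℂˣ, m μ = N := by
    have h := cz_inversion hab B 1
    rw [hN, Finset.sum_congr rfl (fun μ _ => by rw [hm μ, map_one, Units.val_one, mul_one])] at h
    have h' : ((∑ μ : Q →* ℂˣ, m μ : ℕ) : ℂ) = (N : ℂ) := by push_cast; exact h.symm
    exact_mod_cast h'
  have hinner : ∀ μ : Q →* ℂˣ, ∑ t : Q, B t * conj ((μ t : ℂˣ) : ℂ) = (Nat.card Q : ℂ) * m μ := by
    intro μ
    have h := hm μ
    unfold classInner at h
    rw [← h, ← mul_assoc, mul_inv_cancel₀ hn0, one_mul]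
  have hpars : ∑ t : Q, B t * conj (B t) = (Nat.card Q : ℂ) * ∑ μ : Q →* ℂˣ, ((m μ : ℂ)) ^ 2 := by
    have h3 : ∀ t : Q, B t * conj (B t)
        = ∑ μ : Q →* ℂˣ, (m μ : ℂ) * (((μ t : ℂˣ) : ℂ) * conj (B t)) := by
      intro t
      have h0 := cz_inversion hab B t
      have h00 : B t * conj (B t)
          = (∑ μ : Q →* ℂˣ, classInner B (fun u => ((μ u : ℂˣ) : ℂ)) * ((μ t : ℂˣ) : ℂ)) * conj (B t) := by
        rw [← h0]
      rw [h00, Finset.sum_mul]
      apply Finset.sum_congr rfl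
      intro μ _
      rw [hm μ]
      ring
    rw [Finset.sum_congr rfl (fun t _ => h3 t), Finset.sum_comm, Finset.mul_sum]
    apply Finset.sum_congr rfl
    intro μ _
    rw [← Finset.mul_sum]
    have h4 : ∑ t : Q, ((μ t : ℂˣ) : ℂ) * conj (B t) = conj (∑ t : Q, B t * conj ((μ t : ℂˣ) : ℂ)) := by
      rw [map_sum]
      apply Finset.sum_congr rfl
      intro t _
      rw [map_mul, Complex.conj_conj, mul_comm]
    rw [h4, hinner μ, map_mul, Complex.conj_natCast, Complex.conj_natCast]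
    ring
  have hval : ∑ t : Q, B t * conj (B t) = (N : ℂ) ^ 2 + (Nat.card Q : ℂ) - 1 := by
    rw [← Finset.add_sum_erase Finset.univ _ (Finset.mem_univ (1 : Q)),
      Finset.sum_congr rfl (fun t ht => h1 t (Finset.ne_of_mem_erase ht)), hN, Complex.conj_natCast,
      Finset.sum_const, Finset.card_erase_of_mem (Finset.mem_univ _), Finset.card_univ,
      nsmul_eq_mul, mul_one, ← Nat.card_eq_fintype_card]
    have hc : 1 ≤ Nat.card Q := Nat.card_pos
    rw [Nat.cast_sub hc]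
    push_cast
    ring
  have hsum2 : Nat.card Q * ∑ μ : Q →* ℂˣ, (m μ) ^ 2 = N ^ 2 + Nat.card Q - 1 := by
    have h5 : ((Nat.card Q * ∑ μ : Q →* ℂˣ, (m μ) ^ 2 + 1 : ℕ) : ℂ) = ((N ^ 2 + Nat.card Q : ℕ) : ℂ) := by
      push_cast
      rw [← hpars, hval]
      ring
    have h6 : Nat.card Q * ∑ μ : Q →* ℂˣ, (m μ) ^ 2 + 1 = N ^ 2 + Nat.card Q := by exact_mod_cast h5
    omega
  exact fp_arith (Nat.card Q) N Nat.card_pos m (by rw [← Nat.card_eq_fintype_card, hcardhom]) hsum1 hsum2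

theorem fp_extra {P : Type u} [Group P] [Fintype P] (p n : ℕ) [Fact p.Prime]
    (hc : ∀ x g : P, x⁻¹ * g⁻¹ * x * g ∈ Subgroup.center P)
    (hZcard : Nat.card (Subgroup.center P) = p)
    (hcard : Nat.card P = p ^ (2 * n + 1)) :
    ∃ θ : IrrCharacter P, (θ : P → ℂ) 1 = (p : ℂ) ^ n ∧
      ∀ x : P, x ∉ Subgroup.center P → (θ : P → ℂ) x = 0 := by
  classical
  have hp : p.Prime := Fact.out
  have hP0 : (Nat.card P : ℂ) ≠ 0 := Nat.cast_ne_zero.mpr Nat.card_pos.ne'
  obtain ⟨z₀, hz₀, hz₀1⟩ : ∃ z₀ ∈ Subgroup.center P, z₀ ≠ 1 := by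
    by_contra hcon
    push Not at hcon
    have h1 : Subgroup.center P = ⊥ := (Subgroup.eq_bot_iff_forall _).mpr hcon
    rw [h1, Subgroup.card_bot] at hZcard
    exact hp.one_lt.ne hZcard
  obtain ⟨θ, hθ⟩ : ∃ θ : IrrCharacter P, (θ : P → ℂ) z₀ ≠ (θ : P → ℂ) 1 := by
    by_contra hcon
    push Not at hcon
    have h := Helper25.second_orthogonality z₀ (1 : P)
    rw [if_neg (by rw [isConj_one_left]; exact hz₀1),
      Finset.sum_congr rfl (fun χ _ => by rw [hcon χ, inv_one, Helper25.irr_one_eq_degree χ])] at h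
    have h2 := Helper25.sum_irr_degree_sq_nat (G := P)
    have h3 : ((∑ χ : IrrCharacter P, charDegree (χ : P → ℂ) ^ 2 : ℕ) : ℂ) = 0 := by
      push_cast
      rw [← h]
      apply Finset.sum_congr rfl
      intro χ _
      ring
    rw [h2] at h3
    exact hP0 h3
  have h1ne : (θ : P → ℂ) 1 ≠ 0 := Helper25.irr_one_ne_zero θ
  have hmul : ∀ c z : P, z ∈ Subgroup.center P →
      (θ : P → ℂ) (c * z) * (θ : P → ℂ) 1 = (θ : P → ℂ) c * (θ : P → ℂ) z := by
    intro c z hz
    have h := Helper25.irr_sum_conj_mul θ c z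
    rw [Finset.sum_congr rfl (fun y _ => by
      rw [show y * z * y⁻¹ = z from by rw [Subgroup.mem_center_iff.mp hz y, mul_inv_cancel_right]]),
      Finset.sum_const, Finset.card_univ, nsmul_eq_mul, ← Nat.card_eq_fintype_card] at h
    have h' : (Nat.card P : ℂ) * ((θ : P → ℂ) (c * z) * (θ : P → ℂ) 1)
        = (Nat.card P : ℂ) * ((θ : P → ℂ) c * (θ : P → ℂ) z) := by
      rw [← mul_assoc, h]
      field_simp
    exact mul_left_cancel₀ hP0 h'
  have hker : ∀ c ∈ Subgroup.center P, c ≠ 1 → (θ : P → ℂ) c ≠ (θ : P → ℂ) 1 := by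
    intro c hcZ hc1 heq
    have h1 : (⟨z₀, hz₀⟩ : Subgroup.center P) ∈ Subgroup.zpowers (⟨c, hcZ⟩ : Subgroup.center P) :=
      mem_zpowers_of_prime_card hZcard (fun h => hc1 (congrArg Subtype.val h))
    obtain ⟨k, hk⟩ := Subgroup.mem_zpowers_iff.mp h1
    have hk' : c ^ k = z₀ := by simpa using congrArg Subtype.val hk
    have h2 : c ∈ Helper25.irrKer θ := heq
    have h3 : z₀ ∈ Helper25.irrKer θ := hk' ▸ Subgroup.zpow_mem _ h2 k
    exact hθ h3
  have hvan : ∀ x : P, x ∉ Subgroup.center P → (θ : P → ℂ) x = 0 := by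
    intro x hx
    obtain ⟨g, hg⟩ : ∃ g : P, g * x ≠ x * g := by
      by_contra h
      push Not at h
      exact hx (Subgroup.mem_center_iff.mpr h)
    have hc1 : x⁻¹ * g⁻¹ * x * g ≠ 1 := by
      intro h
      apply hg
      calc g * x = g * x * (x⁻¹ * g⁻¹ * x * g) := by rw [h, mul_one]
        _ = x * g := by group
    have hcZ := hc x g
    have h1 : (θ : P → ℂ) (g⁻¹ * x * g) = (θ : P → ℂ) x := by
      have := Helper25.irr_conj θ x g⁻¹
      simpa using this
    have h2 : g⁻¹ * x * g = x * (x⁻¹ * g⁻¹ * x * g) := by group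
    rw [h2] at h1
    have h3 := hmul x _ hcZ
    rw [h1] at h3
    by_contra hne
    exact hker _ hcZ hc1 (mul_left_cancel₀ hne h3).symm
  refine ⟨θ, ?_, hvan⟩
  have hnorm : ∀ z ∈ Subgroup.center P,
      (θ : P → ℂ) z * conj ((θ : P → ℂ) z) = (θ : P → ℂ) 1 * (θ : P → ℂ) 1 := by
    intro z hz
    have h := hmul z⁻¹ z hz
    rw [inv_mul_cancel, Helper25.char_inv (Helper25.irr_isCharacter θ) z] at h
    rw [h]
    ring
  have hsum : ∑ g : P, (θ : P → ℂ) g * conj ((θ : P → ℂ) g) = (Nat.card P : ℂ) := by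
    have h := Helper25.irr_classInner θ θ
    rw [if_pos rfl] at h
    unfold classInner at h
    have h' : (Nat.card P : ℂ) * ((Nat.card P : ℂ)⁻¹ *
        ∑ g : P, (θ : P → ℂ) g * conj ((θ : P → ℂ) g)) = (Nat.card P : ℂ) * 1 := by rw [h]
    rw [← mul_assoc, mul_inv_cancel₀ hP0, one_mul, mul_one] at h'
    exact h'
  have hsum2 : ∑ g : P, (θ : P → ℂ) g * conj ((θ : P → ℂ) g)
      = ∑ g : P, if g ∈ Subgroup.center P then (θ : P → ℂ) 1 * (θ : P → ℂ) 1 else 0 := by
    apply Finset.sum_congr rfl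
    intro g _
    split_ifs with hg
    · exact hnorm g hg
    · rw [hvan g hg, zero_mul]
  have hcardZ : (Finset.univ.filter (fun g : P => g ∈ Subgroup.center P)).card = p := by
    rw [← hZcard, Nat.card_eq_fintype_card, Fintype.card_subtype]
  rw [hsum2, Finset.sum_ite, Finset.sum_const_zero, add_zero, Finset.sum_const, nsmul_eq_mul,
    hcardZ, hcard, Helper25.irr_one_eq_degree θ] at hsum
  have h5 : p * (charDegree (θ : P → ℂ) * charDegree (θ : P → ℂ)) = p ^ (2 * n + 1) := by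
    exact_mod_cast hsum
  have h6 : charDegree (θ : P → ℂ) ^ 2 = (p ^ n) ^ 2 := by
    have h7 : p * charDegree (θ : P → ℂ) ^ 2 = p * (p ^ n) ^ 2 := by
      rw [pow_two, h5]
      ring
    exact Nat.eq_of_mul_eq_mul_left hp.pos h7
  have h8 : charDegree (θ : P → ℂ) = p ^ n := Nat.pow_left_injective (by norm_num : (2 : ℕ) ≠ 0) h6
  rw [Helper25.irr_one_eq_degree θ, h8]
  push_cast
  rfl

theorem fp_main {X : Type u} [Group X] [Fintype X] {p : ℕ} [Fact p.Prime] (A B : Subgroup X)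
    [hA : A.Normal] [Fintype A] [Fintype B]
    (hsup : A ⊔ B = ⊤) (n : ℕ) (hcard : Nat.card A = p ^ (2 * n + 1))
    (hab : ∀ a b : B, a * b = b * a) (hcop : (Nat.card B).Coprime p)
    (hc : ∀ x g : A, x⁻¹ * g⁻¹ * x * g ∈ Subgroup.center A)
    (hZcard : Nat.card (Subgroup.center A) = p)
    (hfix : ∀ x ∈ B, x ≠ 1 → ∀ a : A, (x * (a : X) = a * x ↔ a ∈ Subgroup.center A)) :
    Nat.card B ∣ p ^ n + 1 ∨ Nat.card B ∣ p ^ n - 1 := by
  classical
  have hp : p.Prime := Fact.out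
  have hcop' : (Nat.card A).Coprime (Nat.card B) := by
    rw [hcard]
    exact Nat.Coprime.pow_left _ hcop.symm
  have hinf : A ⊓ B = ⊥ := (Subgroup.disjoint_of_coprime_natCard hcop').eq_bot
  obtain ⟨θ, hθ1, hθ0⟩ := fp_extra p n hc hZcard hcard
  have hZB : ∀ x ∈ B, ∀ a : A, a ∈ Subgroup.center A → x * (a : X) = a * x := by
    intro x hx a ha
    by_cases hx1 : x = 1
    · rw [hx1, one_mul, mul_one]
    · exact (hfix x hx hx1 a).mpr ha
  have hinv : ∀ (x : X) (a : A),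
      (θ : A → ℂ) ⟨x * a * x⁻¹, hA.conj_mem a a.2 x⟩ = (θ : A → ℂ) a := by
    intro x a
    obtain ⟨k, hk, b, hb, rfl⟩ := gx_decomp A B hsup x
    have h1 : (⟨k * b * a * (k * b)⁻¹, hA.conj_mem a a.2 (k * b)⟩ : A)
        = ⟨k, hk⟩ * ⟨b * a * b⁻¹, hA.conj_mem a a.2 b⟩ * (⟨k, hk⟩ : A)⁻¹ :=
      Subtype.ext (by
        show k * b * a * (k * b)⁻¹ = k * (b * a * b⁻¹) * k⁻¹
        group)
    rw [h1, Helper25.irr_conj]
    by_cases ha : a ∈ Subgroup.center A
    · have h2 : (⟨b * a * b⁻¹, hA.conj_mem a a.2 b⟩ : A) = a :=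
        Subtype.ext (by
          show b * a * b⁻¹ = a
          rw [hZB b hb a ha, mul_inv_cancel_right])
      rw [h2]
    · rw [hθ0 a ha, hθ0]
      intro hcon
      apply ha
      rw [Subgroup.mem_center_iff] at hcon ⊢
      intro w
      have h := congrArg Subtype.val (hcon ⟨b * w * b⁻¹, hA.conj_mem w w.2 b⟩)
      apply Subtype.ext
      have h' : b * ((w : X) * a) * b⁻¹ = b * ((a : X) * w) * b⁻¹ := by
        have e1 : b * ((w : X) * a) * b⁻¹ = b * w * b⁻¹ * (b * a * b⁻¹) := by group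
        have e2 : b * ((a : X) * w) * b⁻¹ = b * a * b⁻¹ * (b * w * b⁻¹) := by group
        rw [e1, e2]
        exact h
      exact mul_left_cancel (mul_right_cancel h')
  obtain ⟨χ, hχ⟩ := gx_exists_ext A B hsup hcop' θ hinv
  have hχ1 : (χ : X → ℂ) 1 = (p : ℂ) ^ n := by
    have := hχ 1
    rw [hθ1] at this
    exact this
  have hkey : ∀ b : B, b ≠ 1 → (χ : X → ℂ) b * conj ((χ : X → ℂ) b) = 1 := by
    intro b hb1
    have hbX : (b : X) ≠ 1 := fun h => hb1 (Subtype.ext h)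
    have h := Helper25.irr_sum_conj_mul χ (b : X)⁻¹ (b : X)
    rw [cy_sum_cosets A B hsup hinf] at h
    have hterm : ∀ (t : B) (g : A),
        (χ : X → ℂ) ((b : X)⁻¹ * ((g : X) * t * b * ((g : X) * t)⁻¹))
          = if g ∈ Subgroup.center A then (p : ℂ) ^ n else 0 := by
      intro t g
      have h1 : (b : X)⁻¹ * ((g : X) * t * b * ((g : X) * t)⁻¹)
          = (b : X)⁻¹ * (g * b * (g : X)⁻¹) := by
        have htb : (t : X) * b = b * t := congrArg Subtype.val (hab t b)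
        rw [mul_inv_rev, mul_assoc (g : X) t b, htb]
        group
      rw [h1]
      have hmem : (b : X)⁻¹ * (g * b * (g : X)⁻¹) ∈ A := by
        have e1 : (b : X)⁻¹ * (g * b * (g : X)⁻¹) = ((b : X)⁻¹ * g * (b : X)⁻¹⁻¹) * (g : X)⁻¹ := by
          group
        rw [e1]
        exact A.mul_mem (hA.conj_mem g g.2 _) (A.inv_mem g.2)
      have h2 := hχ ⟨_, hmem⟩
      rw [h2]
      split_ifs with hg
      · have e2 : (⟨_, hmem⟩ : A) = 1 :=
          Subtype.ext (by
            show (b : X)⁻¹ * (g * b * (g : X)⁻¹) = 1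
            rw [← hZB b b.2 g hg]
            group)
        rw [e2, hθ1]
      · apply hθ0
        intro hw
        apply hg
        -- the order argument
        obtain ⟨w, hwdef⟩ : ∃ w : A, w = (⟨_, hmem⟩ : A) := ⟨_, rfl⟩
        rw [← hwdef] at hw
        have hwX : (w : X) = (b : X)⁻¹ * (g * b * (g : X)⁻¹) := by rw [hwdef]
        have hbw : (b : X) * w = w * b := hZB b b.2 w hw
        have hconj : (g : X) * b * (g : X)⁻¹ = b * w := by rw [hwX]; group
        have hpow : (w : X) ^ orderOf (b : X) = 1 := by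
          have e3 : ((g : X) * b * (g : X)⁻¹) ^ orderOf (b : X) = 1 := by
            rw [conj_pow, pow_orderOf_eq_one, mul_one, mul_inv_cancel]
          rw [hconj, (show Commute (b : X) w from hbw).mul_pow, pow_orderOf_eq_one, one_mul] at e3
          exact e3
        have hpow2 : (w : X) ^ (Nat.card A) = 1 := by
          have e4 : w ^ (Nat.card A) = 1 := pow_card_eq_one'
          rw [← Subgroup.coe_pow, e4, Subgroup.coe_one]
        have hd1 : orderOf (w : X) ∣ orderOf (b : X) := orderOf_dvd_of_pow_eq_one hpow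
        have hd2 : orderOf (w : X) ∣ Nat.card A := orderOf_dvd_of_pow_eq_one hpow2
        have hd3 : orderOf (b : X) ∣ Nat.card B := by
          rw [Subgroup.orderOf_coe]
          exact orderOf_dvd_natCard b
        have hd4 : orderOf (w : X) = 1 :=
          Nat.eq_one_of_dvd_coprimes hcop' hd2 (hd1.trans hd3)
        have hw1 : (w : X) = 1 := orderOf_eq_one_iff.mp hd4
        rw [hw1, mul_one] at hconj
        have hcomm : (b : X) * g = g * b := by
          calc (b : X) * g = (g : X) * b * (g : X)⁻¹ * g := by rw [hconj]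
            _ = g * b := by group
        exact (hfix b b.2 hbX g).mp hcomm
    rw [Finset.sum_congr rfl (fun t _ => Finset.sum_congr rfl (fun g _ => hterm t g))] at h
    have hcardZ : (Finset.univ.filter (fun g : A => g ∈ Subgroup.center A)).card = p := by
      rw [← hZcard, Nat.card_eq_fintype_card, Fintype.card_subtype]
    rw [Finset.sum_const, Finset.sum_ite, Finset.sum_const_zero, add_zero, Finset.sum_const,
      nsmul_eq_mul, nsmul_eq_mul, hcardZ, Finset.card_univ, ← Nat.card_eq_fintype_card,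
      cy_card_eq A B hsup hinf, hχ1, hcard,
      Helper25.char_inv (Helper25.irr_isCharacter χ) (b : X)] at h
    have hB0 : (Nat.card B : ℂ) ≠ 0 := Nat.cast_ne_zero.mpr Nat.card_pos.ne'
    have hp0 : (p : ℂ) ≠ 0 := Nat.cast_ne_zero.mpr hp.pos.ne'
    have hpn0 : (p : ℂ) ^ n ≠ 0 := pow_ne_zero _ hp0
    have e6 : ((p ^ (2 * n + 1) : ℕ) : ℂ) = (p : ℂ) * ((p : ℂ) ^ n * (p : ℂ) ^ n) := by
      push_cast
      ring
    rw [e6] at h
    have e7 : (Nat.card B : ℂ) * ((p : ℂ) * (p : ℂ) ^ n) * 1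
        = (Nat.card B : ℂ) * ((p : ℂ) * (p : ℂ) ^ n) *
          ((χ : X → ℂ) b * conj ((χ : X → ℂ) b)) := by
      rw [mul_one]
      conv_lhs => rw [h]
      field_simp
    exact (mul_left_cancel₀ (mul_ne_zero hB0 (mul_ne_zero hp0 hpn0)) e7).symm
  exact fp_abel hab (fun t : B => (χ : X → ℂ) t)
    (Helper2.isCharacter_restrict B (Helper25.irr_isCharacter χ)) (p ^ n)
    (by show (χ : X → ℂ) ((1 : B) : X) = ((p ^ n : ℕ) : ℂ); rw [Subgroup.coe_one, hχ1]; push_cast; rfl) hkey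

end Cfsg.Agent.Helper24
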