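import Mathlib
import Cfsg.Agent.Helper2.BlockCov
import Cfsg.Agent.Helper2.CharExtra
import Cfsg.Agent.Helper2.Ind
import Cfsg.Agent.Helper2.CosetAvg
import Cfsg.Agent.Helper7.SecondMain
import Cfsg.Agent.Helper7.IndBlock
import Cfsg.Agent.Helper7.SectionSum
import Cfsg.Agent.Helper7.BlockCover
import Cfsg.Agent.Helper25.BlockBrauerMap
import Cfsg.Agent.Helper25.BlockRank

/-!
# Fong–Reynolds: blocks of the stabilizer of a block of a normal subgroup (helper24)
-/

set_option autoImplicit false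
open Cfsg Cfsg.Agent.Helper25 Cfsg.Agent.Helper7 Cfsg.Agent.Helper2
open scoped ComplexConjugate

namespace Cfsg.Agent.Helper24

universe u
variable {G : Type u} [Group G] {p : ℕ} {M : Ideal AlgInt}

/-- If `z` sends one member of the block `b` into `b`, it sends every member of `b` into `b`. -/
theorem fr_stab_of_one (hM : IsPModular p M) (N : Subgroup G) [hN : N.Normal]
    {b : Set (IrrCharacter N)} (hb : IsPBlock M b) (z : G) {θ : IrrCharacter N} (hθ : θ ∈ b)
    (hθz : conjIrrEquiv N z θ ∈ b) (θ₂ : IrrCharacter N) (hθ₂ : θ₂ ∈ b) :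
    conjIrrEquiv N z θ₂ ∈ b := by
  have h1 := sameBlock_of_mem hM hb hθ hθ₂
  have h2 := sameBlock_conjChar (M := M) N (θ : N → ℂ) (θ₂ : N → ℂ) z h1
  rw [eq_blockOf_of_mem hM hb hθz]
  exact h2

theorem fr_blockCoeff_conj (N : Subgroup G) [hN : N.Normal] [Finite N]
    (U : Set (IrrCharacter N)) (x : G) (n : N) :
    blockCoeff U ⟨x * n * x⁻¹, hN.conj_mem n n.2 x⟩
      = blockCoeff {θ | (conjIrrEquiv N x).symm θ ∈ U} n := by
  classical
  rw [blockCoeff_eq_sum, blockCoeff_eq_sum]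
  congr 1
  refine Finset.sum_equiv (conjIrrEquiv N x) ?_ ?_
  · intro ξ
    simp only [Set.Finite.mem_toFinset, Set.mem_ofPred_eq, Equiv.symm_apply_apply]
  · intro ξ _
    show _ = conjChar N (ξ : N → ℂ) x 1 * conjChar N (ξ : N → ℂ) x _
    rw [conjChar_apply, conjChar_apply]
    have e1 : (⟨x * ((1 : N) : G) * x⁻¹, hN.conj_mem _ (1 : N).2 x⟩ : N) = 1 :=
      Subtype.ext (by simp)
    have e2 : (⟨x * ((n⁻¹ : N) : G) * x⁻¹, hN.conj_mem _ (n⁻¹ : N).2 x⟩ : N)
        = (⟨x * n * x⁻¹, hN.conj_mem n n.2 x⟩ : N)⁻¹ := Subtype.ext (by simp [mul_assoc])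
    rw [e1, e2]

theorem fr_ext_conj (N : Subgroup G) [hN : N.Normal] [Finite N]
    (U : Set (IrrCharacter N)) (x g : G) :
    extendByZero N (blockCoeff U) (x * g * x⁻¹)
      = extendByZero N (blockCoeff {θ | (conjIrrEquiv N x).symm θ ∈ U}) g := by
  by_cases hg : g ∈ N
  · rw [extendByZero_of_mem _ _ (hN.conj_mem g hg x), extendByZero_of_mem _ _ hg]
    exact fr_blockCoeff_conj N U x ⟨g, hg⟩
  · have hg' : x * g * x⁻¹ ∉ N := fun h => hg (by
      have := hN.conj_mem _ h x⁻¹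
      simpa [mul_assoc] using this)
    rw [extendByZero_of_not_mem _ _ hg', extendByZero_of_not_mem _ _ hg]

theorem fr_set_of_mem (N : Subgroup G) [hN : N.Normal] (b : Set (IrrCharacter N))
    (T : Subgroup G) (hT : ∀ g : G, g ∈ T ↔ ∀ θ ∈ b, conjIrrEquiv N g θ ∈ b) {x : G}
    (hx : x ∈ T) : {θ | (conjIrrEquiv N x).symm θ ∈ b} = b := by
  ext θ
  simp only [Set.mem_ofPred_eq]
  constructor
  · intro h
    have := (hT x).mp hx _ h
    rwa [Equiv.apply_symm_apply] at this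
  · intro h
    exact (hT x⁻¹).mp (T.inv_mem hx) θ h

theorem fr_set_of_not_mem (hM : IsPModular p M) (N : Subgroup G) [hN : N.Normal]
    {b : Set (IrrCharacter N)} (hb : IsPBlock M b)
    (T : Subgroup G) (hT : ∀ g : G, g ∈ T ↔ ∀ θ ∈ b, conjIrrEquiv N g θ ∈ b) {x : G}
    (hx : x ∉ T) : {θ | (conjIrrEquiv N x).symm θ ∈ b} ∩ b = ∅ := by
  ext θ
  simp only [Set.mem_inter_iff, Set.mem_ofPred_eq, Set.mem_empty_iff_false, iff_false, not_and]
  intro h1 h2
  apply hx
  rw [hT]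
  intro θ₂ hθ₂
  refine fr_stab_of_one hM N hb x h1 ?_ θ₂ hθ₂
  rwa [Equiv.apply_symm_apply]

theorem fr_E_conj (N : Subgroup G) [hN : N.Normal] [Finite N] (b : Set (IrrCharacter N))
    (T : Subgroup G) (hT : ∀ g : G, g ∈ T ↔ ∀ θ ∈ b, conjIrrEquiv N g θ ∈ b) {x : G}
    (hx : x ∈ T) (g : G) :
    extendByZero N (blockCoeff b) (x * g * x⁻¹) = extendByZero N (blockCoeff b) g := by
  rw [fr_ext_conj, fr_set_of_mem N b T hT hx]

theorem fr_E_idem [Fintype G] (N : Subgroup G) [Fintype N] (b : Set (IrrCharacter N)) :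
    conv (extendByZero N (blockCoeff b)) (extendByZero N (blockCoeff b))
      = extendByZero N (blockCoeff b) := by
  rw [conv_extendByZero, conv_blockCoeff_self]

theorem fr_E_orth [Fintype G] (hM : IsPModular p M) (N : Subgroup G) [hN : N.Normal]
    [Fintype N] {b : Set (IrrCharacter N)} (hb : IsPBlock M b)
    (T : Subgroup G) (hT : ∀ g : G, g ∈ T ↔ ∀ θ ∈ b, conjIrrEquiv N g θ ∈ b) {x : G}
    (hx : x ∉ T) :
    conv (fun g => extendByZero N (blockCoeff b) (x * g * x⁻¹)) (extendByZero N (blockCoeff b))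
      = 0 := by
  have h1 : (fun g => extendByZero N (blockCoeff b) (x * g * x⁻¹))
      = extendByZero N (blockCoeff {θ | (conjIrrEquiv N x).symm θ ∈ b}) :=
    funext (fun g => fr_ext_conj N b x g)
  rw [h1, conv_extendByZero, conv_blockCoeff, fr_set_of_not_mem hM N hb T hT hx]
  funext g
  by_cases hg : g ∈ N
  · rw [extendByZero_of_mem _ _ hg, blockCoeff_empty]; rfl
  · rw [extendByZero_of_not_mem _ _ hg]; rfl

theorem fr_sum_support [Fintype G] (H : Subgroup G) [Fintype H] (F : G → ℂ)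
    (hF : ∀ g, g ∉ H → F g = 0) : ∑ g : G, F g = ∑ h : H, F h := by
  have h1 : extendByZero H (fun h : H => F h) = F := by
    funext g
    by_cases hg : g ∈ H
    · rw [extendByZero_of_mem _ _ hg]
    · rw [extendByZero_of_not_mem _ _ hg, hF g hg]
  rw [← sum_extendByZero H (fun h : H => F h), h1]

theorem fr_E_off (N T : Subgroup G) (hNT : N ≤ T) (f : N → ℂ) {g : G} (hg : g ∉ T) :
    extendByZero N f g = 0 :=
  extendByZero_of_not_mem _ _ (fun h => hg (hNT h))

/-- The idempotent of `b`, viewed on the stabilizer `T`, has central character values `0`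
or `1`. -/
theorem fr_omegaT [Fintype G] (N : Subgroup G) [hN : N.Normal] [Fintype N]
    (b : Set (IrrCharacter N)) (T : Subgroup G) [Fintype T]
    (hT : ∀ g : G, g ∈ T ↔ ∀ θ ∈ b, conjIrrEquiv N g θ ∈ b) (hNT : N ≤ T)
    (ψ : IrrCharacter T) :
    omega (fun t : T => extendByZero N (blockCoeff b) (t : G)) ψ = 0 ∨
      omega (fun t : T => extendByZero N (blockCoeff b) (t : G)) ψ = 1 := by
  obtain ⟨E, hE⟩ : ∃ E, E = extendByZero N (blockCoeff b) := ⟨_, rfl⟩
  rw [← hE]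
  have h1 : ∀ t x : T, (fun t : T => E (t : G)) (x * t * x⁻¹) = (fun t : T => E (t : G)) t := by
    intro t x
    show E ((x * t * x⁻¹ : T) : G) = E t
    rw [hE]
    have : ((x * t * x⁻¹ : T) : G) = (x : G) * t * (x : G)⁻¹ := by simp
    rw [this]
    exact fr_E_conj N b T hT x.2 t
  have h2 : conv (fun t : T => E (t : G)) (fun t : T => E (t : G)) = fun t : T => E (t : G) := by
    funext t
    show ∑ s : T, E (s : G) * E ((s⁻¹ * t : T) : G) = E t
    have h3 : E (t : G) = conv E E t := by rw [hE, fr_E_idem]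
    rw [h3]
    show _ = ∑ g : G, E g * E (g⁻¹ * t)
    rw [fr_sum_support T (fun g => E g * E (g⁻¹ * t))
      (fun g hg => by rw [hE, fr_E_off N T hNT _ hg, zero_mul])]
    apply Finset.sum_congr rfl
    intro s _
    simp
  have h4 := omega_conv (f₁ := fun t : T => E (t : G)) (f₂ := fun t : T => E (t : G)) h1 ψ
  rw [h2] at h4
  have h5 : omega (fun t : T => E (t : G)) ψ * (omega (fun t : T => E (t : G)) ψ - 1) = 0 := by
    linear_combination (-1 : ℂ) * h4
  rcases mul_eq_zero.mp h5 with h | h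
  · left; exact h
  · right; exact sub_eq_zero.mp h

open Classical in
/-- The idempotent of `b`, viewed on `G`, has central character values `0` or `|T|/|G|`. -/
theorem fr_omegaG [Fintype G] (hM : IsPModular p M) (N : Subgroup G) [hN : N.Normal]
    [Fintype N] {b : Set (IrrCharacter N)} (hb : IsPBlock M b) (T : Subgroup G)
    (hT : ∀ g : G, g ∈ T ↔ ∀ θ ∈ b, conjIrrEquiv N g θ ∈ b)
    (χ : IrrCharacter G) :
    omega (extendByZero N (blockCoeff b)) χ = 0 ∨
      omega (extendByZero N (blockCoeff b)) χ = (Nat.card T : ℂ) / (Nat.card G : ℂ) := by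
  obtain ⟨E, hE⟩ : ∃ E, E = extendByZero N (blockCoeff b) := ⟨_, rfl⟩
  rw [← hE]
  obtain ⟨F, hF⟩ : ∃ F : G → ℂ, F = fun g => ∑ x : G, E (x * g * x⁻¹) := ⟨_, rfl⟩
  have hFcl : ∀ g y : G, F (y * g * y⁻¹) = F g := by
    intro g y
    rw [hF]
    show ∑ x : G, E (x * (y * g * y⁻¹) * x⁻¹) = ∑ x : G, E (x * g * x⁻¹)
    refine Fintype.sum_equiv (Equiv.mulRight y) _ _ (fun x => ?_)
    simp only [Equiv.coe_mulRight]
    refine congrArg E ?_
    group
  have hconv : conv F E = fun g => (Nat.card T : ℂ) * E g := by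
    funext g
    show ∑ h : G, F h * E (h⁻¹ * g) = _
    rw [hF]
    simp only [Finset.sum_mul]
    rw [Finset.sum_comm]
    have hx : ∀ x : G, ∑ h : G, E (x * h * x⁻¹) * E (h⁻¹ * g) = if x ∈ T then E g else 0 := by
      intro x
      by_cases hx : x ∈ T
      · rw [if_pos hx]
        have h1 : ∑ h : G, E (x * h * x⁻¹) * E (h⁻¹ * g) = conv E E g := by
          show _ = ∑ h : G, E h * E (h⁻¹ * g)
          apply Finset.sum_congr rfl
          intro h _
          rw [hE, fr_E_conj N b T hT hx]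
        rw [h1, hE, fr_E_idem]
      · rw [if_neg hx]
        have := congrFun (fr_E_orth hM N hb T hT hx) g
        rw [hE]
        exact this
    rw [Finset.sum_congr rfl (fun x _ => hx x)]
    exact sum_indicator_subgroup T (E g)
  have hF_omega : omega F χ = (Nat.card G : ℂ) * omega E χ := by
    unfold omega
    rw [hF]
    simp only [Finset.sum_mul]
    rw [Finset.sum_comm]
    have hx : ∀ x : G, ∑ g : G, E (x * g * x⁻¹) * (χ : G → ℂ) g
        = ∑ g : G, E g * (χ : G → ℂ) g := by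
      intro x
      rw [← Equiv.sum_comp (MulAut.conj x).toEquiv (fun g => E g * (χ : G → ℂ) g)]
      apply Finset.sum_congr rfl
      intro g _
      show _ = E (x * g * x⁻¹) * (χ : G → ℂ) (x * g * x⁻¹)
      rw [irr_conj]
    rw [Finset.sum_congr rfl (fun x _ => hx x), Finset.sum_const, Finset.card_univ,
      nsmul_eq_mul, Nat.card_eq_fintype_card]
    ring
  have h4 := omega_conv (f₁ := F) (f₂ := E) hFcl χ
  rw [hconv, hF_omega] at h4
  have h5 : omega (fun g => (Nat.card T : ℂ) * E g) χ = (Nat.card T : ℂ) * omega E χ := by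
    unfold omega
    simp only [mul_assoc, ← Finset.mul_sum]
    ring
  rw [h5] at h4
  have hG : (Nat.card G : ℂ) ≠ 0 := natCard_ne_zero_complex G
  by_cases hu : omega E χ = 0
  · left; exact hu
  · right
    have h6 := mul_right_cancel₀ hu h4
    rw [h6]
    field_simp

theorem fr_sum_blockCoeff {H : Type*} [Group H] [Fintype H] (b : Set (IrrCharacter H))
    (φ : H → ℂ) :
    ∑ n : H, blockCoeff b n * φ n
      = ∑ θ ∈ (Set.toFinite b).toFinset, (θ : H → ℂ) 1 * classInner φ (θ : H → ℂ) := by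
  unfold blockCoeff classInner
  simp only [finsum_mem_eq_finite_toFinset_sum _ (Set.toFinite b)]
  simp only [Finset.mul_sum, Finset.sum_mul]
  rw [Finset.sum_comm]
  apply Finset.sum_congr rfl
  intro θ _
  apply Finset.sum_congr rfl
  intro n _
  ring

theorem fr_cover_iff {H : Type*} [Group H] [Fintype H] (b : Set (IrrCharacter H))
    {φ : H → ℂ} (hφ : IsCharacter H φ) :
    (∑ n : H, blockCoeff b n * φ n ≠ 0) ↔ ∃ θ ∈ b, classInner φ (θ : H → ℂ) ≠ 0 := by
  classical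
  rw [fr_sum_blockCoeff]
  choose m hm using fun θ : IrrCharacter H => classInner_char_nat hφ (irr_isCharacter θ)
  have h1 : ∑ θ ∈ (Set.toFinite b).toFinset, (θ : H → ℂ) 1 * classInner φ (θ : H → ℂ)
      = ((∑ θ ∈ (Set.toFinite b).toFinset, charDegree (θ : H → ℂ) * m θ : ℕ) : ℂ) := by
    push_cast
    apply Finset.sum_congr rfl
    intro θ _
    rw [hm, irr_one_eq_degree]
  rw [h1, Ne, Nat.cast_eq_zero, Finset.sum_eq_zero_iff]
  push Not
  constructor
  · rintro ⟨θ, hθ, h⟩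
    refine ⟨θ, (Set.Finite.mem_toFinset _).mp hθ, ?_⟩
    rw [hm]
    intro h0
    apply h
    have : m θ = 0 := by exact_mod_cast h0
    rw [this, mul_zero]
  · rintro ⟨θ, hθ, h⟩
    refine ⟨θ, (Set.Finite.mem_toFinset _).mpr hθ, ?_⟩
    rw [hm] at h
    have h0 : m θ ≠ 0 := fun h0 => h (by rw [h0]; simp)
    exact Nat.mul_ne_zero (irr_degree_pos θ).ne' h0

theorem fr_sumT [Fintype G] (N T : Subgroup G) [Fintype N] [Fintype T] (hNT : N ≤ T)
    (f : N → ℂ) (ψ : T → ℂ) :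
    ∑ t : T, extendByZero N f (t : G) * ψ t = ∑ n : N, f n * ψ ⟨(n : G), hNT n.2⟩ := by
  have h1 : ∑ t : T, extendByZero N f (t : G) * ψ t
      = ∑ g : G, extendByZero N f g * extendByZero T ψ g := by
    rw [fr_sum_support T (fun g => extendByZero N f g * extendByZero T ψ g)
      (fun g hg => by rw [fr_E_off N T hNT f hg, zero_mul])]
    apply Finset.sum_congr rfl
    intro t _
    rw [extendByZero_coe]
  rw [h1, sum_extendByZero_mul]
  apply Finset.sum_congr rfl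
  intro n _
  rw [extendByZero_of_mem _ _ (hNT n.2)]

theorem fr_covG_iff [Fintype G] (N : Subgroup G) [Fintype N] (b : Set (IrrCharacter N))
    (χ : IrrCharacter G) :
    omega (extendByZero N (blockCoeff b)) χ ≠ 0 ↔
      ∃ θ ∈ b, classInner (fun n : N => (χ : G → ℂ) n) (θ : N → ℂ) ≠ 0 := by
  rw [← fr_cover_iff b (isCharacter_restrict N (irr_isCharacter χ))]
  unfold omega
  rw [sum_extendByZero_mul]
  constructor
  · intro h h0
    apply h
    rw [h0, zero_div]
  · intro h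
    exact div_ne_zero h (irr_one_ne_zero χ)

theorem fr_covT_iff [Fintype G] (N T : Subgroup G) [Fintype N] [Fintype T] (hNT : N ≤ T)
    (b : Set (IrrCharacter N)) (ψ : IrrCharacter T) :
    omega (fun t : T => extendByZero N (blockCoeff b) (t : G)) ψ ≠ 0 ↔
      ∃ θ ∈ b, classInner (fun n : N => (ψ : T → ℂ) ⟨(n : G), hNT n.2⟩) (θ : N → ℂ) ≠ 0 := by
  have key := fr_cover_iff b (φ := fun n : N => (ψ : T → ℂ) ⟨(n : G), hNT n.2⟩)
    (isCharacter_comp (Subgroup.inclusion hNT) (irr_isCharacter ψ))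
  rw [← key]
  unfold omega
  rw [fr_sumT N T hNT]
  constructor
  · intro h h0
    apply h
    rw [h0, zero_div]
  · intro h
    exact div_ne_zero h (irr_one_ne_zero ψ)

theorem fr_spade [Fintype G] (N T : Subgroup G) [Fintype T] (hNT : N ≤ T) (f : N → ℂ)
    (χ : IrrCharacter G) :
    ∑ g : G, extendByZero N f g * (χ : G → ℂ) g
      = ∑ ψ : IrrCharacter T, classInner (fun t : T => (χ : G → ℂ) t) (ψ : T → ℂ) *
          ∑ t : T, extendByZero N f (t : G) * (ψ : T → ℂ) t := by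
  rw [fr_sum_support T (fun g => extendByZero N f g * (χ : G → ℂ) g)
    (fun g hg => by rw [fr_E_off N T hNT f hg, zero_mul])]
  have hdec := classFun_eq_sum_classInner
    (isClassFunction_of_isCharacter (isCharacter_restrict T (irr_isCharacter χ)))
  have hval : ∀ t : T, (χ : G → ℂ) t = ∑ ψ : IrrCharacter T,
      classInner (fun t : T => (χ : G → ℂ) t) (ψ : T → ℂ) * (ψ : T → ℂ) t := by
    intro t
    have := congrFun hdec t
    simp only [Finset.sum_apply, Pi.smul_apply, smul_eq_mul] at this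
    exact this
  calc ∑ t : T, extendByZero N f (t : G) * (χ : G → ℂ) t
      = ∑ t : T, ∑ ψ : IrrCharacter T, extendByZero N f (t : G) *
          (classInner (fun t : T => (χ : G → ℂ) t) (ψ : T → ℂ) * (ψ : T → ℂ) t) := by
        apply Finset.sum_congr rfl
        intro t _
        rw [← Finset.mul_sum, ← hval t]
    _ = _ := by
        rw [Finset.sum_comm]
        apply Finset.sum_congr rfl
        intro ψ _
        rw [Finset.mul_sum]
        apply Finset.sum_congr rfl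
        intro t _
        ring

theorem fr_ind_decomp [Fintype G] (T : Subgroup G) [Fintype T] (ψ : IrrCharacter T) :
    indFun T (ψ : T → ℂ) = ∑ χ : IrrCharacter G,
      classInner (fun t : T => (χ : G → ℂ) t) (ψ : T → ℂ) • (χ : G → ℂ) := by
  have hdec := classFun_eq_sum_classInner (indFun_isClassFunction T (ψ : T → ℂ))
  refine hdec.trans ?_
  apply Finset.sum_congr rfl
  intro χ _
  congr 1
  rw [frobenius_reciprocity T (ψ : T → ℂ) (χ : G → ℂ)
    (isClassFunction_of_isCharacter (irr_isCharacter χ))]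
  rw [classInner_conj_symm (fun t : T => (χ : G → ℂ) t) (ψ : T → ℂ)]
  obtain ⟨m, hm⟩ := classInner_char_nat (isCharacter_restrict T (irr_isCharacter χ))
    (irr_isCharacter ψ)
  rw [hm, Complex.conj_natCast]

theorem fr_numeric {X Y : Type*} [Fintype X] [DecidableEq X] [DecidableEq Y]
    (m : X → Y → ℕ) (dX : X → ℕ) (dY : Y → ℕ) (hdX : ∀ x, 0 < dX x) (hdY : ∀ y, 0 < dY y)
    (A : Finset Y) (cG cT : ℕ) (hcG : 0 < cG) (hcT : 0 < cT)
    (N1 : ∀ x, (∑ y ∈ A, m x y * dY y = 0) ∨ cT * dX x = cG * ∑ y ∈ A, m x y * dY y)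
    (N2 : ∀ y, cG * dY y = cT * ∑ x, m x y * dX x)
    (y : Y) (hy : y ∈ A) (x : X) (hm : m x y ≠ 0) :
    m x y = 1 ∧ (∀ x', x' ≠ x → m x' y = 0) ∧ (∀ y' ∈ A, y' ≠ y → m x y' = 0) := by
  have hS1 := Finset.add_sum_erase A (fun y' => m x y' * dY y') hy
  have hS2 := Finset.add_sum_erase Finset.univ (fun x' => m x' y * dX x') (Finset.mem_univ x)
  obtain ⟨R1, hR1⟩ : ∃ R1, R1 = ∑ y' ∈ A.erase y, m x y' * dY y' := ⟨_, rfl⟩
  obtain ⟨R2, hR2⟩ : ∃ R2, R2 = ∑ x' ∈ Finset.univ.erase x, m x' y * dX x' := ⟨_, rfl⟩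
  rw [← hR1] at hS1
  rw [← hR2] at hS2
  have hμ : 1 ≤ m x y := Nat.one_le_iff_ne_zero.mpr hm
  have hpos : 0 < m x y * dY y := Nat.mul_pos hμ (hdY y)
  have n1 : cT * dX x = cG * (m x y * dY y + R1) := by
    rcases N1 x with h | h
    · rw [← hS1] at h
      omega
    · rw [← hS1] at h
      exact h
  have n2 : cG * dY y = cT * (m x y * dX x + R2) := by
    have := N2 y
    rw [← hS2] at this
    exact this
  obtain ⟨μ, hμdef⟩ : ∃ μ, μ = m x y := ⟨_, rfl⟩
  rw [← hμdef] at n1 n2 hμ ⊢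
  have key : cT * dX x = cT * μ * μ * dX x + cT * μ * R2 + cG * R1 := by
    have h : μ * (cG * dY y) = μ * (cT * (μ * dX x + R2)) := by rw [n2]
    nlinarith [h, n1]
  have h3 : 0 < cT * dX x := Nat.mul_pos hcT (hdX x)
  have hμ1 : μ = 1 := by
    by_contra hne
    have h2 : 2 ≤ μ := by omega
    have h4 : 4 ≤ μ * μ := by nlinarith
    have h5 : cT * dX x < cT * μ * μ * dX x := by
      calc cT * dX x < 4 * (cT * dX x) := by omega
        _ ≤ (μ * μ) * (cT * dX x) := Nat.mul_le_mul_right _ h4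
        _ = cT * μ * μ * dX x := by ring
    omega
  rw [hμ1] at key
  have hR : cT * R2 + cG * R1 = 0 := by
    simp only [mul_one] at key
    omega
  have hR2' : R2 = 0 := by
    rcases Nat.mul_eq_zero.mp (Nat.add_eq_zero_iff.mp hR).1 with h | h
    · omega
    · exact h
  have hR1' : R1 = 0 := by
    rcases Nat.mul_eq_zero.mp (Nat.add_eq_zero_iff.mp hR).2 with h | h
    · omega
    · exact h
  refine ⟨hμ1, ?_, ?_⟩
  · intro x' hx'
    rw [hR2'] at hR2
    have := (Finset.sum_eq_zero_iff.mp hR2.symm) x' (Finset.mem_erase.mpr ⟨hx', Finset.mem_univ _⟩)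
    rcases Nat.mul_eq_zero.mp this with h | h
    · exact h
    · exact absurd h (hdX x').ne'
  · intro y' hy' hne
    rw [hR1'] at hR1
    have := (Finset.sum_eq_zero_iff.mp hR1.symm) y' (Finset.mem_erase.mpr ⟨hne, hy'⟩)
    rcases Nat.mul_eq_zero.mp this with h | h
    · exact h
    · exact absurd h (hdY y').ne'

theorem fr_core [Fintype G] (hM : IsPModular p M) (N : Subgroup G) [hN : N.Normal] [Fintype N]
    {b : Set (IrrCharacter N)} (hb : IsPBlock M b) (T : Subgroup G) [Fintype T]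
    (hT : ∀ g : G, g ∈ T ↔ ∀ θ ∈ b, conjIrrEquiv N g θ ∈ b) (hNT : N ≤ T)
    (ψ : IrrCharacter T)
    (hψ : omega (fun t : T => extendByZero N (blockCoeff b) (t : G)) ψ ≠ 0)
    (χ : IrrCharacter G) (hχ : classInner (fun t : T => (χ : G → ℂ) t) (ψ : T → ℂ) ≠ 0) :
    indFun T (ψ : T → ℂ) = (χ : G → ℂ) ∧ omega (extendByZero N (blockCoeff b)) χ ≠ 0 ∧
      ∀ ψ' : IrrCharacter T,
        omega (fun t : T => extendByZero N (blockCoeff b) (t : G)) ψ' ≠ 0 →
        ψ' ≠ ψ → classInner (fun t : T => (χ : G → ℂ) t) (ψ' : T → ℂ) = 0 := by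
  classical
  have hTrick := fr_omegaT N b T hT hNT
  have hGrick := fr_omegaG hM N hb T hT
  have hSp := fr_spade N T hNT (blockCoeff b)
  obtain ⟨E, hE⟩ : ∃ E, E = extendByZero N (blockCoeff b) := ⟨_, rfl⟩
  rw [← hE] at hψ hTrick hGrick hSp ⊢
  choose m hm using fun (χ : IrrCharacter G) (ψ : IrrCharacter T) =>
    classInner_char_nat (isCharacter_restrict T (irr_isCharacter χ)) (irr_isCharacter ψ)
  obtain ⟨A, hA⟩ : ∃ A : Finset (IrrCharacter T),
      A = Finset.univ.filter (fun ψ => omega (fun t : T => E (t : G)) ψ = 1) := ⟨_, rfl⟩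
  have hmemA : ∀ ψ' : IrrCharacter T, omega (fun t : T => E (t : G)) ψ' ≠ 0 → ψ' ∈ A := by
    intro ψ' h
    rw [hA, Finset.mem_filter]
    refine ⟨Finset.mem_univ _, ?_⟩
    rcases hTrick ψ' with h' | h'
    · exact absurd h' h
    · exact h'
  have hsT : ∀ ψ' : IrrCharacter T, ∑ t : T, E (t : G) * (ψ' : T → ℂ) t
      = if ψ' ∈ A then (charDegree (ψ' : T → ℂ) : ℂ) else 0 := by
    intro ψ'
    have h1 : ∑ t : T, E (t : G) * (ψ' : T → ℂ) t
        = omega (fun t : T => E (t : G)) ψ' * (ψ' : T → ℂ) 1 := by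
      unfold omega
      field_simp [irr_one_ne_zero ψ']
    rw [h1]
    by_cases h : ψ' ∈ A
    · rw [if_pos h]
      rw [hA, Finset.mem_filter] at h
      rw [h.2, one_mul, irr_one_eq_degree]
    · rw [if_neg h]
      have h0 : omega (fun t : T => E (t : G)) ψ' = 0 := by
        by_contra h'
        exact h (hmemA ψ' h')
      rw [h0, zero_mul]
  have hsG : ∀ χ : IrrCharacter G, ∑ g : G, E g * (χ : G → ℂ) g
      = ((∑ ψ' ∈ A, m χ ψ' * charDegree (ψ' : T → ℂ) : ℕ) : ℂ) := by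
    intro χ
    rw [hSp]
    push_cast
    rw [← Finset.sum_subset (Finset.subset_univ A)]
    · apply Finset.sum_congr rfl
      intro ψ' hψ'
      rw [hm, hsT, if_pos hψ']
    · intro ψ' _ hψ'
      rw [hsT, if_neg hψ', mul_zero]
  have hom : ∀ χ : IrrCharacter G, omega E χ * (χ : G → ℂ) 1
      = ((∑ ψ' ∈ A, m χ ψ' * charDegree (ψ' : T → ℂ) : ℕ) : ℂ) := by
    intro χ
    rw [← hsG χ]
    unfold omega
    field_simp [irr_one_ne_zero χ]
  have hG0 : (Nat.card G : ℂ) ≠ 0 := natCard_ne_zero_complex G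
  have hT0 : (Nat.card T : ℂ) ≠ 0 := natCard_ne_zero_complex T
  have N1 : ∀ χ : IrrCharacter G, (∑ ψ' ∈ A, m χ ψ' * charDegree (ψ' : T → ℂ) = 0) ∨
      Nat.card T * charDegree (χ : G → ℂ)
        = Nat.card G * ∑ ψ' ∈ A, m χ ψ' * charDegree (ψ' : T → ℂ) := by
    intro χ
    have h1 := hom χ
    rcases hGrick χ with h | h
    · left
      rw [h, zero_mul] at h1
      exact_mod_cast h1.symm
    · right
      rw [h, irr_one_eq_degree] at h1
      have h2 : (Nat.card T : ℂ) * (charDegree (χ : G → ℂ) : ℂ) = (Nat.card G : ℂ) *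
          ((∑ ψ' ∈ A, m χ ψ' * charDegree (ψ' : T → ℂ) : ℕ) : ℂ) := by
        rw [← h1]
        field_simp
      exact_mod_cast h2
  have N2 : ∀ ψ' : IrrCharacter T, Nat.card G * charDegree (ψ' : T → ℂ)
      = Nat.card T * ∑ χ : IrrCharacter G, m χ ψ' * charDegree (χ : G → ℂ) := by
    intro ψ'
    have h1 := congrFun (fr_ind_decomp T ψ') 1
    rw [indFun_one] at h1
    simp only [Finset.sum_apply, Pi.smul_apply, smul_eq_mul] at h1
    have h3 : ∑ χ : IrrCharacter G, (m χ ψ' : ℂ) * (charDegree (χ : G → ℂ) : ℂ)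
        = (Nat.card T : ℂ)⁻¹ * ((Nat.card G : ℂ) * (ψ' : T → ℂ) 1) := by
      rw [h1]
      apply Finset.sum_congr rfl
      intro χ _
      rw [hm, irr_one_eq_degree]
    have h2 : (Nat.card G : ℂ) * (charDegree (ψ' : T → ℂ) : ℂ) = (Nat.card T : ℂ) *
        ((∑ χ : IrrCharacter G, m χ ψ' * charDegree (χ : G → ℂ) : ℕ) : ℂ) := by
      push_cast
      rw [h3, ← irr_one_eq_degree]
      field_simp
    exact_mod_cast h2
  have hmne : m χ ψ ≠ 0 := by
    intro h0
    apply hχ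
    rw [hm, h0]
    simp
  have hψA : ψ ∈ A := hmemA ψ hψ
  obtain ⟨h1, h2, h3⟩ := fr_numeric m (fun χ => charDegree (χ : G → ℂ))
    (fun ψ => charDegree (ψ : T → ℂ)) (fun χ => irr_degree_pos χ) (fun ψ => irr_degree_pos ψ)
    A (Nat.card G) (Nat.card T) Nat.card_pos Nat.card_pos N1 N2 ψ hψA χ hmne
  refine ⟨?_, ?_, ?_⟩
  · rw [fr_ind_decomp T ψ, Finset.sum_eq_single χ]
    · rw [hm, h1]
      simp
    · intro χ' _ hne
      rw [hm, h2 χ' hne]
      simp
    · intro h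
      exact absurd (Finset.mem_univ _) h
  · intro h0
    have h4 := hom χ
    rw [h0, zero_mul] at h4
    have h6 : ∑ ψ' ∈ A, m χ ψ' * charDegree (ψ' : T → ℂ) = 0 := by exact_mod_cast h4.symm
    have h7 := (Finset.sum_eq_zero_iff.mp h6) ψ hψA
    rcases Nat.mul_eq_zero.mp h7 with h | h
    · exact hmne h
    · exact (irr_degree_pos ψ).ne' h
  · intro ψ' hψ' hne
    rw [hm, h3 ψ' (hmemA ψ' hψ') hne]
    simp

/-- A character of the stabilizer lying over `b` induces irreducibly. -/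
theorem fr_ind_irr [Fintype G] (hM : IsPModular p M) (N : Subgroup G) [hN : N.Normal]
    [Fintype N] {b : Set (IrrCharacter N)} (hb : IsPBlock M b) (T : Subgroup G) [Fintype T]
    (hT : ∀ g : G, g ∈ T ↔ ∀ θ ∈ b, conjIrrEquiv N g θ ∈ b) (hNT : N ≤ T)
    (ψ : IrrCharacter T)
    (hψ : omega (fun t : T => extendByZero N (blockCoeff b) (t : G)) ψ ≠ 0) :
    ∃ χ : IrrCharacter G, indFun T (ψ : T → ℂ) = (χ : G → ℂ) ∧
      omega (extendByZero N (blockCoeff b)) χ ≠ 0 ∧
      ∀ ψ' : IrrCharacter T,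
        omega (fun t : T => extendByZero N (blockCoeff b) (t : G)) ψ' ≠ 0 →
        ψ' ≠ ψ → classInner (fun t : T => (χ : G → ℂ) t) (ψ' : T → ℂ) = 0 := by
  have h1 := congrFun (fr_ind_decomp T ψ) 1
  rw [indFun_one] at h1
  simp only [Finset.sum_apply, Pi.smul_apply, smul_eq_mul] at h1
  have hne : (Nat.card T : ℂ)⁻¹ * ((Nat.card G : ℂ) * (ψ : T → ℂ) 1) ≠ 0 :=
    mul_ne_zero (inv_ne_zero (natCard_ne_zero_complex T))
      (mul_ne_zero (natCard_ne_zero_complex G) (irr_one_ne_zero ψ))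
  rw [h1] at hne
  obtain ⟨χ, -, hχ⟩ := Finset.exists_ne_zero_of_sum_ne_zero hne
  have hχ' : classInner (fun t : T => (χ : G → ℂ) t) (ψ : T → ℂ) ≠ 0 := left_ne_zero_of_mul hχ
  obtain ⟨c1, c2, c3⟩ := fr_core hM N hb T hT hNT ψ hψ χ hχ'
  exact ⟨χ, c1, c2, c3⟩

theorem fr_ind_inj [Fintype G] (hM : IsPModular p M) (N : Subgroup G) [hN : N.Normal]
    [Fintype N] {b : Set (IrrCharacter N)} (hb : IsPBlock M b) (T : Subgroup G) [Fintype T]
    (hT : ∀ g : G, g ∈ T ↔ ∀ θ ∈ b, conjIrrEquiv N g θ ∈ b) (hNT : N ≤ T)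
    (ψ ψ' : IrrCharacter T)
    (hψ : omega (fun t : T => extendByZero N (blockCoeff b) (t : G)) ψ ≠ 0)
    (hψ' : omega (fun t : T => extendByZero N (blockCoeff b) (t : G)) ψ' ≠ 0)
    (h : indFun T (ψ : T → ℂ) = indFun T (ψ' : T → ℂ)) : ψ = ψ' := by
  obtain ⟨χ, c1, c2, c4⟩ := fr_ind_irr hM N hb T hT hNT ψ hψ
  by_contra hne
  have h1 := c4 ψ' hψ' (fun h' => hne h'.symm)
  have h2 : classInner (indFun T (ψ' : T → ℂ)) (χ : G → ℂ) = 1 := by
    rw [← h, c1, classInner_irr_irr, if_pos rfl]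
  rw [frobenius_reciprocity T (ψ' : T → ℂ) (χ : G → ℂ)
    (isClassFunction_of_isCharacter (irr_isCharacter χ))] at h2
  rw [classInner_conj_symm (fun t : T => (χ : G → ℂ) t) (ψ' : T → ℂ), h1] at h2
  simp at h2

theorem fr_ind_surj [Fintype G] (hM : IsPModular p M) (N : Subgroup G) [hN : N.Normal]
    [Fintype N] {b : Set (IrrCharacter N)} (hb : IsPBlock M b) (T : Subgroup G) [Fintype T]
    (hT : ∀ g : G, g ∈ T ↔ ∀ θ ∈ b, conjIrrEquiv N g θ ∈ b) (hNT : N ≤ T)
    (χ : IrrCharacter G) (hχ : omega (extendByZero N (blockCoeff b)) χ ≠ 0) :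
    ∃ ψ : IrrCharacter T, omega (fun t : T => extendByZero N (blockCoeff b) (t : G)) ψ ≠ 0 ∧
      indFun T (ψ : T → ℂ) = (χ : G → ℂ) := by
  have h1 : ∑ g : G, extendByZero N (blockCoeff b) g * (χ : G → ℂ) g ≠ 0 := by
    intro h0
    apply hχ
    unfold omega
    rw [h0, zero_div]
  rw [fr_spade N T hNT] at h1
  obtain ⟨ψ, -, hψ⟩ := Finset.exists_ne_zero_of_sum_ne_zero h1
  have hψ1 := left_ne_zero_of_mul hψ
  have hψ2 := right_ne_zero_of_mul hψ
  have hψ3 : omega (fun t : T => extendByZero N (blockCoeff b) (t : G)) ψ ≠ 0 := by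
    unfold omega
    exact div_ne_zero hψ2 (irr_one_ne_zero ψ)
  exact ⟨ψ, hψ3, (fr_core hM N hb T hT hNT ψ hψ3 χ hψ1).1⟩

theorem fr_coset_sum [Fintype G] (T : Subgroup G) (φ : G → ℂ)
    (hφ : ∀ x : G, ∀ t ∈ T, φ (x * t) = φ x) :
    ∑ x : G, φ x = (Nat.card T : ℂ) * ∑ᶠ q : G ⧸ T, φ (Quotient.out q) := by
  classical
  have : Fintype T := Fintype.ofFinite T
  have : Fintype (G ⧸ T) := Fintype.ofFinite _
  rw [finsum_eq_sum_of_fintype]
  have h1 : ∀ x : G, φ x = φ (Quotient.out (x : G ⧸ T)) := by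
    intro x
    have h2 : (Quotient.out (x : G ⧸ T))⁻¹ * x ∈ T := by
      rw [← QuotientGroup.eq]
      exact QuotientGroup.out_eq' _
    have := hφ (Quotient.out (x : G ⧸ T)) _ h2
    rw [mul_inv_cancel_left] at this
    exact this
  rw [← Equiv.sum_comp (Subgroup.groupEquivQuotientProdSubgroup (s := T)).symm φ]
  rw [Fintype.sum_prod_type, Finset.mul_sum]
  apply Finset.sum_congr rfl
  intro q _
  have h3 : ∀ t : T, φ ((Subgroup.groupEquivQuotientProdSubgroup (s := T)).symm (q, t))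
      = φ (Quotient.out q) := by
    intro t
    rw [h1]
    have h4 : (((Subgroup.groupEquivQuotientProdSubgroup (s := T)).symm (q, t) : G) : G ⧸ T)
        = q := by
      have h5 : ((Subgroup.groupEquivQuotientProdSubgroup (s := T))
          ((Subgroup.groupEquivQuotientProdSubgroup (s := T)).symm (q, t))).1
          = (((Subgroup.groupEquivQuotientProdSubgroup (s := T)).symm (q, t) : G) : G ⧸ T) := rfl
      rw [Equiv.apply_symm_apply] at h5
      exact h5.symm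
    rw [h4]
  rw [Finset.sum_congr rfl (fun t _ => h3 t), Finset.sum_const, Finset.card_univ, nsmul_eq_mul,
    Nat.card_eq_fintype_card]

/-- The average over `G` of a right-`T`-invariant function with local integer values is a
local integer. -/
theorem fr_lr_coset_avg [Fintype G] (hM : IsPModular p M) (T : Subgroup G) (φ : G → ℂ)
    (hφ : ∀ x : G, ∀ t ∈ T, φ (x * t) = φ x) (hlr : ∀ x, MemLocalRing M (φ x)) :
    MemLocalRing M ((Nat.card T : ℂ)⁻¹ * ∑ x : G, φ x) := by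
  classical
  have : Fintype (G ⧸ T) := Fintype.ofFinite _
  rw [fr_coset_sum T φ hφ, ← mul_assoc, inv_mul_cancel₀ (natCard_ne_zero_complex T), one_mul,
    finsum_eq_sum_of_fintype]
  exact lr_sum hM _ _ (fun q _ => hlr _)

theorem fr_fT_class (N : Subgroup G) [hN : N.Normal] [Finite N] (b : Set (IrrCharacter N))
    (T : Subgroup G) (hT : ∀ g : G, g ∈ T ↔ ∀ θ ∈ b, conjIrrEquiv N g θ ∈ b) (t x : T) :
    extendByZero N (blockCoeff b) ((x * t * x⁻¹ : T) : G)
      = extendByZero N (blockCoeff b) (t : G) := by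
  have : ((x * t * x⁻¹ : T) : G) = (x : G) * t * (x : G)⁻¹ := by simp
  rw [this]
  exact fr_E_conj N b T hT x.2 t

/-- If one member of a block of `T` lies over `b`, all do. -/
theorem fr_cov_block_T [Fintype G] (hM : IsPModular p M) (N : Subgroup G) [hN : N.Normal]
    [Fintype N] {b : Set (IrrCharacter N)} (hb : IsPBlock M b) (T : Subgroup G) [Fintype T]
    (hT : ∀ g : G, g ∈ T ↔ ∀ θ ∈ b, conjIrrEquiv N g θ ∈ b) (hNT : N ≤ T)
    {B' : Set (IrrCharacter T)} (hB' : IsPBlock M B') {ψ₀ : IrrCharacter T} (hψ₀ : ψ₀ ∈ B')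
    (h₀ : omega (fun t : T => extendByZero N (blockCoeff b) (t : G)) ψ₀ ≠ 0)
    (ψ : IrrCharacter T) (hψ : ψ ∈ B') :
    omega (fun t : T => extendByZero N (blockCoeff b) (t : G)) ψ ≠ 0 := by
  intro h0
  have h1 := omega_congr hM (fun t : T => extendByZero N (blockCoeff b) (t : G))
    (fun t x => fr_fT_class N b T hT t x)
    (fun t => lr_extendByZero hM N (fun k => blockCoeff_lr hM hb k) (t : G))
    (sameBlock_of_mem hM hB' hψ₀ hψ)
  rcases fr_omegaT N b T hT hNT ψ₀ with h | h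
  · exact h₀ h
  · rw [h, h0, sub_zero] at h1
    exact not_li_one hM h1

theorem fr_ext_blockCoeff (T : Subgroup G) [Finite T] (B' : Set (IrrCharacter T)) (h : G) :
    extendByZero T (blockCoeff B') h = (Nat.card T : ℂ)⁻¹ *
      ∑ ψ ∈ (Set.toFinite B').toFinset, (ψ : T → ℂ) 1 * extendByZero T (ψ : T → ℂ) h⁻¹ := by
  by_cases hh : h ∈ T
  · rw [extendByZero_of_mem _ _ hh, blockCoeff_eq_sum]
    congr 1
    apply Finset.sum_congr rfl
    intro ψ _
    rw [extendByZero_of_mem _ _ (T.inv_mem hh)]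
    rfl
  · have hh' : h⁻¹ ∉ T := fun h' => hh (by simpa using T.inv_mem h')
    rw [extendByZero_of_not_mem _ _ hh]
    symm
    rw [Finset.sum_eq_zero, mul_zero]
    intro ψ _
    rw [extendByZero_of_not_mem _ _ hh', mul_zero]

theorem fr_ext_class (T : Subgroup G) [Finite T] (B' : Set (IrrCharacter T)) {s : G}
    (hs : s ∈ T) (h : G) :
    extendByZero T (blockCoeff B') (s * h * s⁻¹) = extendByZero T (blockCoeff B') h := by
  by_cases hh : h ∈ T
  · rw [extendByZero_of_mem _ _ (T.mul_mem (T.mul_mem hs hh) (T.inv_mem hs)),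
      extendByZero_of_mem _ _ hh]
    exact blockCoeff_conj B' ⟨h, hh⟩ ⟨s, hs⟩
  · have hh' : s * h * s⁻¹ ∉ T := fun h' => hh (by
      have := T.mul_mem (T.mul_mem (T.inv_mem hs) h') hs
      simpa [mul_assoc] using this)
    rw [extendByZero_of_not_mem _ _ hh', extendByZero_of_not_mem _ _ hh]

/-- The idempotent of the set of characters induced (irreducibly and injectively) from a
set of characters of `T` is the `T`-average of the conjugates of the idempotent of that set. -/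
theorem fr_blockCoeff_ind [Fintype G] (T : Subgroup G) [Fintype T] (B' : Set (IrrCharacter T))
    (hirr : ∀ ψ ∈ B', IsIrrCharacter G (indFun T (ψ : T → ℂ)))
    (hinj : ∀ ψ ∈ B', ∀ ψ' ∈ B', indFun T (ψ : T → ℂ) = indFun T (ψ' : T → ℂ) → ψ = ψ')
    (g : G) :
    blockCoeff {χ : IrrCharacter G | ∃ ψ ∈ B', (χ : G → ℂ) = indFun T (ψ : T → ℂ)} g
      = (Nat.card T : ℂ)⁻¹ * ∑ x : G, extendByZero T (blockCoeff B') (x⁻¹ * g * x) := by
  classical
  rw [blockCoeff_eq_sum]
  have h1 : ∑ χ ∈ (Set.toFinite {χ : IrrCharacter G | ∃ ψ ∈ B',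
        (χ : G → ℂ) = indFun T (ψ : T → ℂ)}).toFinset, (χ : G → ℂ) 1 * (χ : G → ℂ) g⁻¹
      = ∑ ψ ∈ (Set.toFinite B').toFinset,
          indFun T (ψ : T → ℂ) 1 * indFun T (ψ : T → ℂ) g⁻¹ := by
    symm
    refine Finset.sum_bij (fun ψ hψ => (⟨indFun T (ψ : T → ℂ),
      hirr ψ ((Set.Finite.mem_toFinset _).mp hψ)⟩ : IrrCharacter G)) ?_ ?_ ?_ ?_
    · intro ψ hψ
      rw [Set.Finite.mem_toFinset]
      exact ⟨ψ, (Set.Finite.mem_toFinset _).mp hψ, rfl⟩
    · intro ψ hψ ψ' hψ' h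
      exact hinj ψ ((Set.Finite.mem_toFinset _).mp hψ) ψ' ((Set.Finite.mem_toFinset _).mp hψ')
        (congrArg Subtype.val h)
    · intro χ hχ
      rw [Set.Finite.mem_toFinset] at hχ
      obtain ⟨ψ, hψ, h⟩ := hχ
      exact ⟨ψ, (Set.Finite.mem_toFinset _).mpr hψ, Subtype.ext h.symm⟩
    · intro ψ hψ
      rfl
  rw [h1]
  have hG0 : (Nat.card G : ℂ) ≠ 0 := natCard_ne_zero_complex G
  have hL : ∀ ψ : IrrCharacter T, indFun T (ψ : T → ℂ) 1 * indFun T (ψ : T → ℂ) g⁻¹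
      = (Nat.card G : ℂ) * ((Nat.card T : ℂ)⁻¹ * (Nat.card T : ℂ)⁻¹) *
        ∑ x : G, (ψ : T → ℂ) 1 * extendByZero T (ψ : T → ℂ) (x⁻¹ * g⁻¹ * x) := by
    intro ψ
    rw [indFun_one, indFun_apply, ← Finset.mul_sum]
    ring
  have hR : ∀ x : G, extendByZero T (blockCoeff B') (x⁻¹ * g * x) = (Nat.card T : ℂ)⁻¹ *
      ∑ ψ ∈ (Set.toFinite B').toFinset,
        (ψ : T → ℂ) 1 * extendByZero T (ψ : T → ℂ) (x⁻¹ * g⁻¹ * x) := by
    intro x
    rw [fr_ext_blockCoeff]
    have : (x⁻¹ * g * x)⁻¹ = x⁻¹ * g⁻¹ * x := by group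
    rw [this]
  rw [Finset.sum_congr rfl (fun ψ _ => hL ψ), Finset.sum_congr rfl (fun x _ => hR x)]
  rw [← Finset.mul_sum, ← Finset.mul_sum, Finset.sum_comm]
  field_simp

/-- A set of irreducible characters whose idempotent has local integer coefficients is a
union of blocks. -/
theorem fr_union_of_lr [Fintype G] (hM : IsPModular p M) (S : Set (IrrCharacter G))
    (hlr : ∀ g, MemLocalRing M (blockCoeff S g)) {χ χ' : IrrCharacter G} (hχ : χ ∈ S)
    (h : SameBlock M (χ : G → ℂ) (χ' : G → ℂ)) : χ' ∈ S := by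
  classical
  by_contra hne
  have h1 := omega_congr hM (blockCoeff S) (fun g x => blockCoeff_conj S g x) hlr h
  rw [omega_blockCoeff, omega_blockCoeff, if_pos hχ, if_neg hne, sub_zero] at h1
  exact not_li_one hM h1

/-- Fong–Reynolds: the block of `G` containing the characters induced from a block `B'` of the
stabilizer lying over `b` consists exactly of the induced characters. -/
theorem fr_block_eq [Fintype G] (hM : IsPModular p M) (N : Subgroup G) [hN : N.Normal]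
    [Fintype N] {b : Set (IrrCharacter N)} (hb : IsPBlock M b) (T : Subgroup G) [Fintype T]
    (hT : ∀ g : G, g ∈ T ↔ ∀ θ ∈ b, conjIrrEquiv N g θ ∈ b) (hNT : N ≤ T)
    {B' : Set (IrrCharacter T)} (hB' : IsPBlock M B')
    (hcov : ∀ ψ ∈ B', omega (fun t : T => extendByZero N (blockCoeff b) (t : G)) ψ ≠ 0)
    (ψ₁ : IrrCharacter T) (hψ₁ : ψ₁ ∈ B') :
    blockOf M (indFun T (ψ₁ : T → ℂ))
      = {χ : IrrCharacter G | ∃ ψ ∈ B', (χ : G → ℂ) = indFun T (ψ : T → ℂ)} := by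
  have hirr : ∀ ψ ∈ B', IsIrrCharacter G (indFun T (ψ : T → ℂ)) := by
    intro ψ hψ
    obtain ⟨χ, c1, -, -⟩ := fr_ind_irr hM N hb T hT hNT ψ (hcov ψ hψ)
    rw [c1]
    exact χ.2
  have hinj : ∀ ψ ∈ B', ∀ ψ' ∈ B',
      indFun T (ψ : T → ℂ) = indFun T (ψ' : T → ℂ) → ψ = ψ' :=
    fun ψ hψ ψ' hψ' h => fr_ind_inj hM N hb T hT hNT ψ ψ' (hcov ψ hψ) (hcov ψ' hψ') h
  have hlr : ∀ g, MemLocalRing M (blockCoeff {χ : IrrCharacter G | ∃ ψ ∈ B',
      (χ : G → ℂ) = indFun T (ψ : T → ℂ)} g) := by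
    intro g
    rw [fr_blockCoeff_ind T B' hirr hinj g]
    apply fr_lr_coset_avg hM T
    · intro x t ht
      have e : (x * t)⁻¹ * g * (x * t) = t⁻¹ * (x⁻¹ * g * x) * t⁻¹⁻¹ := by group
      rw [e]
      exact fr_ext_class T B' (T.inv_mem ht) _
    · intro x
      exact lr_extendByZero hM T (fun k => blockCoeff_lr hM hB' k) _
  ext χ
  constructor
  · intro hχ
    have h1 : (⟨indFun T (ψ₁ : T → ℂ), hirr ψ₁ hψ₁⟩ : IrrCharacter G) ∈
        {χ : IrrCharacter G | ∃ ψ ∈ B', (χ : G → ℂ) = indFun T (ψ : T → ℂ)} := ⟨ψ₁, hψ₁, rfl⟩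
    exact fr_union_of_lr hM _ hlr h1 hχ
  · rintro ⟨ψ, hψ, h⟩
    have i1 := isInducedBlock_of_irr_ind hM T ψ (hirr ψ hψ)
    have i2 := isInducedBlock_of_irr_ind hM T ψ₁ (hirr ψ₁ hψ₁)
    rw [← eq_blockOf_of_mem hM hB' hψ] at i1
    rw [← eq_blockOf_of_mem hM hB' hψ₁] at i2
    have h3 := isInducedBlock_unique hM T i2 i1
    rw [h3]
    show SameBlock M (indFun T (ψ : T → ℂ)) (χ : G → ℂ)
    rw [← h]
    exact sameBlock_refl hM _

/-- The stabilizer hypothesis in the form used here. -/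
theorem fr_hT (N : Subgroup G) [hN : N.Normal] (b : Set (IrrCharacter N)) (T : Subgroup G)
    (hT : ∀ g : G, g ∈ T ↔ ∀ θ ∈ b, ∀ θ' : IrrCharacter N,
      (∀ n : N, (θ' : N → ℂ) n = (θ : N → ℂ) ⟨g * n * g⁻¹, hN.conj_mem n n.2 g⟩) → θ' ∈ b) :
    ∀ g : G, g ∈ T ↔ ∀ θ ∈ b, conjIrrEquiv N g θ ∈ b := by
  intro g
  rw [hT g]
  constructor
  · intro h θ hθ
    exact h θ hθ _ (fun n => rfl)
  · intro h θ hθ θ' hθ'
    have : θ' = conjIrrEquiv N g θ := Subtype.ext (funext hθ')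
    rw [this]
    exact h θ hθ

/-- Fong–Reynolds, first part: a block `B'` of the stabilizer `T` lying over `b` induces a
block of `G` lying over `b`, induction being an irreducibility-preserving bijection from `B'`
onto it. -/
theorem fr_main [Fintype G] (hM : IsPModular p M) (N : Subgroup G) [hN : N.Normal]
    [Fintype N] {b : Set (IrrCharacter N)} (hb : IsPBlock M b) (T : Subgroup G) [Fintype T]
    (hT : ∀ g : G, g ∈ T ↔ ∀ θ ∈ b, conjIrrEquiv N g θ ∈ b) (hNT : N ≤ T)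
    {B' : Set (IrrCharacter T)} (hB' : IsPBlock M B')
    (hcov : ∃ ψ ∈ B', ∃ θ ∈ b,
      classInner (fun n : N => (ψ : T → ℂ) ⟨(n : G), hNT n.2⟩) (θ : N → ℂ) ≠ 0) :
    ∃ B : Set (IrrCharacter G), IsInducedBlock M T B' B ∧
      (∃ χ ∈ B, ∃ θ ∈ b, classInner (fun n : N => (χ : G → ℂ) n) (θ : N → ℂ) ≠ 0) ∧
      (∀ ψ ∈ B', IsIrrCharacter G (indFun T (ψ : T → ℂ))) ∧
      (∀ χ : IrrCharacter G, χ ∈ B ↔ ∃ ψ ∈ B', (χ : G → ℂ) = indFun T (ψ : T → ℂ)) ∧
      (∀ ψ ∈ B', ∀ ψ' ∈ B', indFun T (ψ : T → ℂ) = indFun T (ψ' : T → ℂ) → ψ = ψ') := by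
  obtain ⟨ψ₀, hψ₀, hc⟩ := hcov
  have h₀ := (fr_covT_iff N T hNT b ψ₀).mpr hc
  have hall := fr_cov_block_T hM N hb T hT hNT hB' hψ₀ h₀
  obtain ⟨χ₀, c1, c2, -⟩ := fr_ind_irr hM N hb T hT hNT ψ₀ h₀
  have hirr : ∀ ψ ∈ B', IsIrrCharacter G (indFun T (ψ : T → ℂ)) := by
    intro ψ hψ
    obtain ⟨χ, d1, -, -⟩ := fr_ind_irr hM N hb T hT hNT ψ (hall ψ hψ)
    rw [d1]
    exact χ.2
  have hind := isInducedBlock_of_irr_ind hM T ψ₀ (hirr ψ₀ hψ₀)
  rw [← eq_blockOf_of_mem hM hB' hψ₀] at hind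
  have hS := fr_block_eq hM N hb T hT hNT hB' hall ψ₀ hψ₀
  refine ⟨blockOf M (indFun T (ψ₀ : T → ℂ)), hind, ⟨χ₀, ?_, (fr_covG_iff N b χ₀).mp c2⟩,
    hirr, ?_, ?_⟩
  · rw [c1]
    exact self_mem_blockOf hM χ₀
  · intro χ
    rw [hS]
    rfl
  · intro ψ hψ ψ' hψ' h
    exact fr_ind_inj hM N hb T hT hNT ψ ψ' (hall ψ hψ) (hall ψ' hψ') h

end Cfsg.Agent.Helper24
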