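import Mathlib
import Cfsg.Agent.Helper24.FS
import Cfsg.Agent.Helper1.CharEquiv

/-!
# Frobenius–Schur: indicator `1` iff realizable over `ℝ` (helper24)
-/

set_option autoImplicit false

namespace Cfsg.Agent.Helper24

open Cfsg Cfsg.Agent.Helper7
open scoped Matrix

universe u

variable {G : Type u} [Group G] [Fintype G] {n : ℕ}

/-- entrywise complex conjugate of a matrix. -/
noncomputable def cj (A : Matrix (Fin n) (Fin n) ℂ) : Matrix (Fin n) (Fin n) ℂ :=
  A.map (starRingEnd ℂ)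

theorem cj_apply (A : Matrix (Fin n) (Fin n) ℂ) (i j : Fin n) :
    cj A i j = (starRingEnd ℂ) (A i j) := rfl

theorem cj_mul (A B : Matrix (Fin n) (Fin n) ℂ) : cj (A * B) = cj A * cj B :=
  Matrix.map_mul

theorem cj_cj (A : Matrix (Fin n) (Fin n) ℂ) : cj (cj A) = A := by
  ext i j
  simp [cj]

theorem cj_one : cj (1 : Matrix (Fin n) (Fin n) ℂ) = 1 :=
  Matrix.map_one _ (map_zero _) (map_one _)

theorem cj_zero : cj (0 : Matrix (Fin n) (Fin n) ℂ) = 0 := by
  ext i j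
  simp [cj]

theorem cj_add (A B : Matrix (Fin n) (Fin n) ℂ) : cj (A + B) = cj A + cj B := by
  ext i j
  simp [cj]

theorem cj_sub (A B : Matrix (Fin n) (Fin n) ℂ) : cj (A - B) = cj A - cj B := by
  ext i j
  simp [cj]

theorem cj_smul (c : ℂ) (A : Matrix (Fin n) (Fin n) ℂ) :
    cj (c • A) = (starRingEnd ℂ) c • cj A := by
  ext i j
  simp [cj]

theorem cj_transpose (A : Matrix (Fin n) (Fin n) ℂ) : cj Aᵀ = (cj A)ᵀ := rfl

theorem cj_sum {ι : Type*} (s : Finset ι) (f : ι → Matrix (Fin n) (Fin n) ℂ) :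
    cj (∑ i ∈ s, f i) = ∑ i ∈ s, cj (f i) := by
  ext a b
  simp [cj, Matrix.sum_apply]

/-- squared Frobenius norm. -/
noncomputable def frob (A : Matrix (Fin n) (Fin n) ℂ) : ℝ :=
  ∑ i, ∑ j, Complex.normSq (A i j)

theorem frob_nonneg (A : Matrix (Fin n) (Fin n) ℂ) : 0 ≤ frob A :=
  Finset.sum_nonneg fun i _ => Finset.sum_nonneg fun j _ => Complex.normSq_nonneg _

theorem frob_eq_zero (A : Matrix (Fin n) (Fin n) ℂ) (h : frob A = 0) : A = 0 := by
  ext i j
  unfold frob at h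
  have h1 := (Finset.sum_eq_zero_iff_of_nonneg
    (fun i _ => Finset.sum_nonneg fun j _ => Complex.normSq_nonneg (A i j))).mp h i (Finset.mem_univ i)
  have h2 := (Finset.sum_eq_zero_iff_of_nonneg
    (fun j _ => Complex.normSq_nonneg (A i j))).mp h1 j (Finset.mem_univ j)
  exact Complex.normSq_eq_zero.mp h2

theorem frob_pos (A : Matrix (Fin n) (Fin n) ℂ) (h : A ≠ 0) : 0 < frob A :=
  lt_of_le_of_ne (frob_nonneg A) (fun h0 => h (frob_eq_zero A h0.symm))

theorem trace_cjT_mul (A : Matrix (Fin n) (Fin n) ℂ) :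
    ((cj A)ᵀ * A).trace = ((frob A : ℝ) : ℂ) := by
  unfold frob
  rw [Matrix.trace, Finset.sum_comm]
  push_cast
  apply Finset.sum_congr rfl; intro i _
  rw [Matrix.diag_apply, Matrix.mul_apply]
  apply Finset.sum_congr rfl; intro j _
  rw [Matrix.transpose_apply, cj_apply, Complex.normSq_eq_conj_mul_self]

/-- A symmetric invariant form yields a real structure `K` with `K K̄ = 1`. -/
theorem fs_real_structure (ρ : Representation ℂ G (Fin n → ℂ)) (hρ : ρ.IsIrreducible)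
    (S : Matrix (Fin n) (Fin n) ℂ) (hSinv : ∀ h, (repMat ρ h)ᵀ * S * repMat ρ h = S)
    (hS0 : S ≠ 0) (hSsym : Sᵀ = S) :
    ∃ K : Matrix (Fin n) (Fin n) ℂ,
      (∀ g, K * cj (repMat ρ g) = repMat ρ g * K) ∧ K * cj K = 1 := by
  classical
  have hn0 := repMat_n_ne_zero ρ hρ
  have hn0' : n ≠ 0 := by
    intro h; apply hn0; rw [h]; simp
  have hdet : S.det ≠ 0 := (repMat_form ρ hρ S hSinv).resolve_left hS0
  have hunit : IsUnit S.det := isUnit_iff_ne_zero.mpr hdet
  have hMmul : ∀ g h, repMat ρ (g * h) = repMat ρ g * repMat ρ h := fun g h => repMat_mul ρ g h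
  have hM1 : repMat ρ 1 = 1 := repMat_one ρ
  obtain ⟨Hb, hHbdef⟩ : ∃ Hb : Matrix (Fin n) (Fin n) ℂ,
      Hb = ∑ g : G, (repMat ρ g)ᵀ * cj (repMat ρ g) := ⟨_, rfl⟩
  have hHb : ∀ h, (repMat ρ h)ᵀ * Hb * cj (repMat ρ h) = Hb := by
    intro h
    rw [hHbdef, Finset.mul_sum, Finset.sum_mul,
      ← Equiv.sum_comp (Equiv.mulRight h) (fun g => (repMat ρ g)ᵀ * cj (repMat ρ g))]
    apply Finset.sum_congr rfl; intro g _
    simp only [Equiv.coe_mulRight]
    rw [hMmul, Matrix.transpose_mul, cj_mul]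
    simp only [Matrix.mul_assoc]
  have hHb' : ∀ h, Hb * cj (repMat ρ h) = (repMat ρ h⁻¹)ᵀ * Hb := by
    intro h
    calc Hb * cj (repMat ρ h)
        = (repMat ρ h⁻¹)ᵀ * ((repMat ρ h)ᵀ * Hb * cj (repMat ρ h)) := by
          rw [← Matrix.mul_assoc, ← Matrix.mul_assoc, ← Matrix.transpose_mul, ← hMmul,
            mul_inv_cancel, hM1, Matrix.transpose_one, Matrix.one_mul]
      _ = _ := by rw [hHb]
  have hSM : ∀ g, S * repMat ρ g = (repMat ρ g⁻¹)ᵀ * S :=
    fun g => repMat_form_comm ρ S g (hSinv g)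
  have hMS : ∀ g, repMat ρ g * S⁻¹ = S⁻¹ * (repMat ρ g⁻¹)ᵀ := by
    intro g
    calc repMat ρ g * S⁻¹ = S⁻¹ * (S * repMat ρ g) * S⁻¹ := by
          rw [← Matrix.mul_assoc, Matrix.nonsing_inv_mul _ hunit, Matrix.one_mul]
      _ = S⁻¹ * ((repMat ρ g⁻¹)ᵀ * S) * S⁻¹ := by rw [hSM]
      _ = S⁻¹ * (repMat ρ g⁻¹)ᵀ := by
          rw [Matrix.mul_assoc, Matrix.mul_assoc, Matrix.mul_nonsing_inv _ hunit, Matrix.mul_one]
  obtain ⟨K, hKdef⟩ : ∃ K : Matrix (Fin n) (Fin n) ℂ, K = S⁻¹ * Hb := ⟨_, rfl⟩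
  have hK1 : ∀ g, K * cj (repMat ρ g) = repMat ρ g * K := by
    intro g
    rw [hKdef, Matrix.mul_assoc, hHb', ← Matrix.mul_assoc, ← hMS, Matrix.mul_assoc]
  have hK1' : ∀ g, cj K * repMat ρ g = cj (repMat ρ g) * cj K := by
    intro g
    have := congrArg cj (hK1 g)
    rw [cj_mul, cj_mul, cj_cj] at this
    exact this
  have hcomm : ∀ g, (K * cj K) * repMat ρ g = repMat ρ g * (K * cj K) := by
    intro g
    rw [Matrix.mul_assoc, hK1', ← Matrix.mul_assoc, hK1, Matrix.mul_assoc]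
  obtain ⟨c, hc⟩ := repMat_schur ρ hρ _ hcomm
  have hSK : S * K = Hb := by
    rw [hKdef, ← Matrix.mul_assoc, Matrix.mul_nonsing_inv _ hunit, Matrix.one_mul]
  have hcjHb : cj Hb = ∑ g : G, (cj (repMat ρ g))ᵀ * repMat ρ g := by
    rw [hHbdef, cj_sum]
    apply Finset.sum_congr rfl; intro g _
    rw [cj_mul, cj_cj, cj_transpose]
  have hHbT : Hbᵀ = cj Hb := by
    rw [hcjHb, hHbdef, Matrix.transpose_sum]
    apply Finset.sum_congr rfl; intro g _
    rw [Matrix.transpose_mul, Matrix.transpose_transpose]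
  have hH : cj Hb = Kᵀ * S := by
    rw [← hHbT, ← hSK, Matrix.transpose_mul, hSsym]
  have hkey : (cj K)ᵀ * cj Hb * K = c • Hb := by
    calc (cj K)ᵀ * cj Hb * K = (K * cj K)ᵀ * (S * K) := by
          rw [hH, Matrix.transpose_mul]; simp only [Matrix.mul_assoc]
      _ = c • Hb := by
          rw [hc, hSK, Matrix.transpose_smul, Matrix.transpose_one, Matrix.smul_mul,
            Matrix.one_mul]
  have htr1 : (cj Hb).trace = ((∑ g : G, frob (repMat ρ g) : ℝ) : ℂ) := by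
    rw [hcjHb, Matrix.trace_sum, Complex.ofReal_sum]
    apply Finset.sum_congr rfl; intro g _
    exact trace_cjT_mul _
  have htr2 : ((cj K)ᵀ * cj Hb * K).trace = ((∑ g : G, frob (repMat ρ g * K) : ℝ) : ℂ) := by
    rw [hcjHb, Finset.mul_sum, Finset.sum_mul, Matrix.trace_sum, Complex.ofReal_sum]
    apply Finset.sum_congr rfl; intro g _
    rw [← trace_cjT_mul, cj_mul, Matrix.transpose_mul]
    simp only [Matrix.mul_assoc]
  have htr3 : Hb.trace = (cj Hb).trace := by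
    rw [← hHbT, Matrix.trace_transpose]
  have hone : (1 : Matrix (Fin n) (Fin n) ℂ) ≠ 0 := by
    intro h
    have := congrFun (congrFun h ⟨0, Nat.pos_of_ne_zero hn0'⟩) ⟨0, Nat.pos_of_ne_zero hn0'⟩
    simp at this
  have ht : 0 < ∑ g : G, frob (repMat ρ g) := by
    apply Finset.sum_pos' (fun g _ => frob_nonneg _)
    refine ⟨1, Finset.mem_univ _, ?_⟩
    rw [hM1]
    exact frob_pos _ hone
  have hKne : K ≠ 0 := by
    intro hK0
    have h1 : Hb = 0 := by rw [← hSK, hK0, Matrix.mul_zero]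
    have h2 : (cj Hb).trace = 0 := by rw [h1, cj_zero, Matrix.trace_zero]
    rw [htr1] at h2
    have h3 : (∑ g : G, frob (repMat ρ g)) = 0 := by exact_mod_cast h2
    exact absurd h3 (ne_of_gt ht)
  have hu : 0 < ∑ g : G, frob (repMat ρ g * K) := by
    apply Finset.sum_pos' (fun g _ => frob_nonneg _)
    refine ⟨1, Finset.mem_univ _, ?_⟩
    rw [hM1, Matrix.one_mul]
    exact frob_pos _ hKne
  set t : ℝ := ∑ g : G, frob (repMat ρ g) with htdef
  set u : ℝ := ∑ g : G, frob (repMat ρ g * K) with hudef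
  have hcu : (u : ℂ) = c * (t : ℂ) := by
    rw [← htr2, hkey, Matrix.trace_smul, htr3, htr1, smul_eq_mul]
  have htne : (t : ℂ) ≠ 0 := by exact_mod_cast (ne_of_gt ht)
  have hcval : c = ((u / t : ℝ) : ℂ) := by
    push_cast
    rw [hcu]
    field_simp
  obtain ⟨r, hrdef⟩ : ∃ r : ℝ, r = Real.sqrt (u / t) := ⟨_, rfl⟩
  have hut : 0 < u / t := div_pos hu ht
  have hr : 0 < r := by rw [hrdef]; exact Real.sqrt_pos.mpr hut
  have hr2 : r * r = u / t := by rw [hrdef]; exact Real.mul_self_sqrt (le_of_lt hut)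
  have hrr : (r⁻¹ * r⁻¹ * (u / t) : ℝ) = 1 := by
    rw [← hr2]
    field_simp
  have hrc : ((r⁻¹ : ℝ) : ℂ) * ((r⁻¹ : ℝ) : ℂ) * c = 1 := by
    rw [hcval]
    exact_mod_cast hrr
  refine ⟨((r⁻¹ : ℝ) : ℂ) • K, ?_, ?_⟩
  · intro g
    rw [Matrix.smul_mul, Matrix.mul_smul, hK1]
  · rw [cj_smul, Complex.conj_ofReal, Matrix.smul_mul, Matrix.mul_smul, smul_smul, hc, smul_smul,
      hrc, one_smul]

/-- Hilbert 90 for `K K̄ = 1`: `K = P⁻¹ P̄`. -/
theorem fs_hilbert90 (K : Matrix (Fin n) (Fin n) ℂ) (hK : K * cj K = 1) :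
    ∃ P Pi : Matrix (Fin n) (Fin n) ℂ, P * Pi = 1 ∧ Pi * P = 1 ∧ cj P = P * K := by
  classical
  have hLK : cj K * K = 1 := mul_eq_one_comm.mp hK
  have hdetL : (cj K).det ≠ 0 := by
    intro h
    have := congrArg Matrix.det hLK
    rw [Matrix.det_mul, h, zero_mul, Matrix.det_one] at this
    exact zero_ne_one this
  obtain ⟨A₀, hA₀⟩ : ∃ A₀ : Matrix (Fin n) (Fin n) ℂ, A₀ = 1 + cj K := ⟨_, rfl⟩
  obtain ⟨B₀, hB₀⟩ : ∃ B₀ : Matrix (Fin n) (Fin n) ℂ, B₀ = Complex.I • (cj K - 1) := ⟨_, rfl⟩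
  let q : Polynomial ℂ :=
    (A₀.map Polynomial.C + (Polynomial.X : Polynomial ℂ) • B₀.map Polynomial.C).det
  have heval : ∀ z : ℂ, Polynomial.eval z q = (A₀ + z • B₀).det := by
    intro z
    have h1 := RingHom.map_det (Polynomial.evalRingHom z)
      (A₀.map Polynomial.C + (Polynomial.X : Polynomial ℂ) • B₀.map Polynomial.C)
    rw [Polynomial.coe_evalRingHom] at h1
    show Polynomial.eval z (A₀.map Polynomial.C +
      (Polynomial.X : Polynomial ℂ) • B₀.map Polynomial.C).det = _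
    rw [h1]
    congr 1
    ext i j
    simp
    exact mul_comm _ _
  have hq : q ≠ 0 := by
    intro h0
    have h1 := heval (-Complex.I)
    rw [h0, Polynomial.eval_zero] at h1
    have h2 : A₀ + (-Complex.I) • B₀ = (2 : ℂ) • cj K := by
      rw [hA₀, hB₀, smul_smul]
      have : -Complex.I * Complex.I = 1 := by
        rw [neg_mul, Complex.I_mul_I, neg_neg]
      rw [this, one_smul, two_smul]
      abel
    rw [h2, Matrix.det_smul] at h1
    have : (2 : ℂ) ^ Fintype.card (Fin n) * (cj K).det ≠ 0 :=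
      mul_ne_zero (pow_ne_zero _ two_ne_zero) hdetL
    exact this h1.symm
  have hex : ∃ t : ℕ, Polynomial.eval (t : ℂ) q ≠ 0 := by
    by_contra hcon
    push Not at hcon
    apply hq
    apply Polynomial.eq_zero_of_infinite_isRoot
    apply Set.Infinite.mono (s := Set.range (Nat.cast : ℕ → ℂ))
    · rintro _ ⟨t, rfl⟩
      exact hcon t
    · exact Set.infinite_range_of_injective Nat.cast_injective
  obtain ⟨t, ht⟩ := hex
  rw [heval] at ht
  have hunit : IsUnit (A₀ + (t : ℂ) • B₀).det := isUnit_iff_ne_zero.mpr ht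
  refine ⟨A₀ + (t : ℂ) • B₀, (A₀ + (t : ℂ) • B₀)⁻¹, Matrix.mul_nonsing_inv _ hunit,
    Matrix.nonsing_inv_mul _ hunit, ?_⟩
  rw [hA₀, hB₀, cj_add, cj_add, cj_smul, cj_smul, cj_sub, cj_one, cj_cj, Matrix.add_mul,
    Matrix.add_mul, Matrix.smul_mul, Matrix.smul_mul, Matrix.sub_mul, Matrix.one_mul, hLK,
    Complex.conj_natCast, Complex.conj_I]
  rw [neg_smul, smul_sub, smul_sub, smul_neg, smul_sub, smul_sub]
  abel

/-- A real structure yields a real representation with the same character. -/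
theorem fs_real_rep (ρ : Representation ℂ G (Fin n → ℂ))
    (K : Matrix (Fin n) (Fin n) ℂ) (hK1 : ∀ g, K * cj (repMat ρ g) = repMat ρ g * K)
    (hK2 : K * cj K = 1) :
    ∃ ρ' : Representation ℝ G (Fin n → ℝ),
      ∀ g, ((LinearMap.trace ℝ (Fin n → ℝ) (ρ' g) : ℝ) : ℂ) = ρ.character g := by
  classical
  obtain ⟨P, Pi, hPPi, hPiP, hcjP⟩ := fs_hilbert90 K hK2
  have hK2' : cj K * K = 1 := mul_eq_one_comm.mp hK2
  have hcjPi : cj Pi = cj K * Pi := by
    have h1 : cj P * cj Pi = 1 := by rw [← cj_mul, hPPi, cj_one]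
    calc cj Pi = (cj K * K) * cj Pi := by rw [hK2', Matrix.one_mul]
      _ = cj K * (Pi * P) * K * cj Pi := by rw [hPiP, Matrix.mul_one]
      _ = cj K * Pi * (cj P * cj Pi) := by rw [hcjP]; simp only [Matrix.mul_assoc]
      _ = cj K * Pi := by rw [h1, Matrix.mul_one]
  obtain ⟨R, hRdef⟩ : ∃ R : G → Matrix (Fin n) (Fin n) ℂ,
      R = fun g => P * repMat ρ g * Pi := ⟨_, rfl⟩
  have hRreal : ∀ g, cj (R g) = R g := by
    intro g
    rw [hRdef]
    show cj (P * repMat ρ g * Pi) = P * repMat ρ g * Pi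
    rw [cj_mul, cj_mul, hcjP, hcjPi]
    calc P * K * cj (repMat ρ g) * (cj K * Pi)
        = P * (K * cj (repMat ρ g)) * cj K * Pi := by simp only [Matrix.mul_assoc]
      _ = P * repMat ρ g * (K * cj K) * Pi := by rw [hK1]; simp only [Matrix.mul_assoc]
      _ = _ := by rw [hK2, Matrix.mul_one]
  have hRmul : ∀ g h, R (g * h) = R g * R h := by
    intro g h
    rw [hRdef]
    show P * repMat ρ (g * h) * Pi = P * repMat ρ g * Pi * (P * repMat ρ h * Pi)
    rw [repMat_mul]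
    calc P * (repMat ρ g * repMat ρ h) * Pi
        = P * repMat ρ g * 1 * repMat ρ h * Pi := by
          rw [Matrix.mul_one]; simp only [Matrix.mul_assoc]
      _ = _ := by rw [← hPiP]; simp only [Matrix.mul_assoc]
  have hR1 : R 1 = 1 := by
    rw [hRdef]
    show P * repMat ρ 1 * Pi = 1
    rw [repMat_one, Matrix.mul_one, hPPi]
  obtain ⟨A, hAdef⟩ : ∃ A : G → Matrix (Fin n) (Fin n) ℝ,
      A = fun g => (R g).map Complex.re := ⟨_, rfl⟩
  have hA : ∀ g, (A g).map (Complex.ofRealHom) = R g := by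
    intro g
    ext i j
    have h1 := congrFun (congrFun (hRreal g) i) j
    rw [cj_apply] at h1
    rw [hAdef]
    simp only [Matrix.map_apply, Complex.ofRealHom_eq_coe]
    exact Complex.conj_eq_iff_re.mp h1
  have hinj : Function.Injective
      (fun X : Matrix (Fin n) (Fin n) ℝ => X.map (Complex.ofRealHom)) :=
    Matrix.map_injective Complex.ofRealHom.injective
  have hAmul : ∀ g h, A (g * h) = A g * A h := by
    intro g h
    apply hinj
    show (A (g * h)).map (Complex.ofRealHom) = (A g * A h).map (Complex.ofRealHom)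
    rw [hA, hRmul, ← hA g, ← hA h, Matrix.map_mul]
  have hA1 : A 1 = 1 := by
    apply hinj
    show (A 1).map (Complex.ofRealHom) = (1 : Matrix (Fin n) (Fin n) ℝ).map (Complex.ofRealHom)
    rw [hA, hR1, Matrix.map_one _ (map_zero _) (map_one _)]
  let ρ' : Representation ℝ G (Fin n → ℝ) :=
    { toFun := fun g => Matrix.toLin' (A g)
      map_one' := by
        show Matrix.toLin' (A 1) = 1
        rw [hA1, Matrix.toLin'_one]; rfl
      map_mul' := by
        intro g h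
        show Matrix.toLin' (A (g * h)) = Matrix.toLin' (A g) * Matrix.toLin' (A h)
        rw [hAmul, Matrix.toLin'_mul]; rfl }
  refine ⟨ρ', fun g => ?_⟩
  show ((LinearMap.trace ℝ (Fin n → ℝ) (Matrix.toLin' (A g)) : ℝ) : ℂ) = ρ.character g
  rw [Matrix.trace_toLin'_eq]
  have h1 : (((A g).trace : ℝ) : ℂ) = ((A g).map (Complex.ofRealHom)).trace := by
    simp [Matrix.trace]
  rw [h1, hA, hRdef]
  show (P * repMat ρ g * Pi).trace = ρ.character g
  rw [Matrix.trace_mul_comm, ← Matrix.mul_assoc, hPiP, Matrix.one_mul, repMat_trace]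

/-- A character afforded by a real representation has indicator `1`. -/
theorem fs_of_real_rep (ρ : Representation ℂ G (Fin n → ℂ)) (hρ : ρ.IsIrreducible) {m : ℕ}
    (ρ₀ : Representation ℝ G (Fin m → ℝ))
    (h : ∀ g, ((LinearMap.trace ℝ (Fin m → ℝ) (ρ₀ g) : ℝ) : ℂ) = ρ.character g) :
    ∑ s : G, ρ.character (s * s) = (Nat.card G : ℂ) := by
  classical
  have hn0 := repMat_n_ne_zero ρ hρ
  have hn0' : n ≠ 0 := by
    intro h; apply hn0; rw [h]; simp
  obtain ⟨A, hAdef⟩ : ∃ A : G → Matrix (Fin m) (Fin m) ℝ,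
      A = fun g => LinearMap.toMatrix' (ρ₀ g) := ⟨_, rfl⟩
  have hA1 : A 1 = 1 := by
    rw [hAdef]; show LinearMap.toMatrix' (ρ₀ 1) = 1
    rw [map_one]; exact LinearMap.toMatrix'_one
  have hAmul : ∀ g h, A (g * h) = A g * A h := by
    intro g h
    rw [hAdef]; show LinearMap.toMatrix' (ρ₀ (g * h)) = _
    rw [map_mul]; exact LinearMap.toMatrix'_mul _ _
  obtain ⟨B, hBdef⟩ : ∃ B : G → Matrix (Fin m) (Fin m) ℂ,
      B = fun g => (A g).map (Complex.ofRealHom) := ⟨_, rfl⟩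
  have hB1 : B 1 = 1 := by
    rw [hBdef]; show (A 1).map (Complex.ofRealHom) = 1
    rw [hA1]; exact Matrix.map_one _ (map_zero _) (map_one _)
  have hBmul : ∀ g h, B (g * h) = B g * B h := by
    intro g h
    rw [hBdef]; show (A (g * h)).map (Complex.ofRealHom) = _
    rw [hAmul]; exact Matrix.map_mul
  let σ : Representation ℂ G (Fin m → ℂ) :=
    { toFun := fun g => Matrix.toLin' (B g)
      map_one' := by
        show Matrix.toLin' (B 1) = 1
        rw [hB1, Matrix.toLin'_one]; rfl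
      map_mul' := by
        intro g h
        show Matrix.toLin' (B (g * h)) = Matrix.toLin' (B g) * Matrix.toLin' (B h)
        rw [hBmul, Matrix.toLin'_mul]; rfl }
  have hσ : ∀ g, repMat σ g = B g := fun g => LinearMap.toMatrix'_toLin' _
  have hchar : σ.character = ρ.character := by
    funext g
    rw [← repMat_trace, hσ, ← h g]
    have h1 : LinearMap.trace ℝ (Fin m → ℝ) (ρ₀ g) = (A g).trace := by
      rw [← Matrix.trace_toLin'_eq, hAdef]
      show _ = LinearMap.trace ℝ _ (Matrix.toLin' (LinearMap.toMatrix' (ρ₀ g)))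
      rw [Matrix.toLin'_toMatrix']
    rw [h1, hBdef]
    simp [Matrix.trace]
  obtain ⟨e⟩ := Cfsg.Agent.Helper1.nonempty_equiv_of_character_eq σ ρ hchar
  obtain ⟨T, hTdef⟩ : ∃ T : Matrix (Fin n) (Fin m) ℂ,
      T = LinearMap.toMatrix' (e.toLinearEquiv : (Fin m → ℂ) →ₗ[ℂ] (Fin n → ℂ)) := ⟨_, rfl⟩
  obtain ⟨T', hT'def⟩ : ∃ T' : Matrix (Fin m) (Fin n) ℂ,
      T' = LinearMap.toMatrix' (e.toLinearEquiv.symm : (Fin n → ℂ) →ₗ[ℂ] (Fin m → ℂ)) :=
    ⟨_, rfl⟩
  have hTT' : T * T' = 1 := by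
    have h1 : (e.toLinearEquiv : (Fin m → ℂ) →ₗ[ℂ] (Fin n → ℂ)) ∘ₗ
        (e.toLinearEquiv.symm : (Fin n → ℂ) →ₗ[ℂ] (Fin m → ℂ)) = LinearMap.id := by
      apply LinearMap.ext; intro w
      exact e.toLinearEquiv.apply_symm_apply w
    rw [hTdef, hT'def, ← LinearMap.toMatrix'_comp, h1, LinearMap.toMatrix'_id]
  have hT'T : T' * T = 1 := by
    have h1 : (e.toLinearEquiv.symm : (Fin n → ℂ) →ₗ[ℂ] (Fin m → ℂ)) ∘ₗ
        (e.toLinearEquiv : (Fin m → ℂ) →ₗ[ℂ] (Fin n → ℂ)) = LinearMap.id := by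
      apply LinearMap.ext; intro w
      exact e.toLinearEquiv.symm_apply_apply w
    rw [hTdef, hT'def, ← LinearMap.toMatrix'_comp, h1, LinearMap.toMatrix'_id]
  have hTB : ∀ g, T * B g = repMat ρ g * T := by
    intro g
    have h1 := e.isIntertwining' g
    have h2 : LinearMap.toMatrix' ((e.toLinearEquiv : (Fin m → ℂ) →ₗ[ℂ] (Fin n → ℂ)) ∘ₗ σ g)
        = LinearMap.toMatrix' (ρ g ∘ₗ (e.toLinearEquiv : (Fin m → ℂ) →ₗ[ℂ] (Fin n → ℂ))) :=
      congrArg _ h1
    rw [LinearMap.toMatrix'_comp, LinearMap.toMatrix'_comp] at h2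
    rw [hTdef, ← hσ]
    exact h2
  have hT'M : ∀ g, T' * repMat ρ g = B g * T' := by
    intro g
    calc T' * repMat ρ g = T' * (repMat ρ g * T) * T' := by
          rw [Matrix.mul_assoc, Matrix.mul_assoc, hTT', Matrix.mul_one]
      _ = (T' * T) * B g * T' := by rw [← hTB]; simp only [Matrix.mul_assoc]
      _ = B g * T' := by rw [hT'T, Matrix.one_mul]
  obtain ⟨S, hSdef⟩ : ∃ S : Matrix (Fin m) (Fin m) ℂ, S = ∑ g : G, (B g)ᵀ * B g := ⟨_, rfl⟩
  have hSB : ∀ h, (B h)ᵀ * S * B h = S := by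
    intro h
    rw [hSdef, Finset.mul_sum, Finset.sum_mul,
      ← Equiv.sum_comp (Equiv.mulRight h) (fun g => (B g)ᵀ * B g)]
    apply Finset.sum_congr rfl; intro g _
    simp only [Equiv.coe_mulRight]
    rw [hBmul, Matrix.transpose_mul]
    simp only [Matrix.mul_assoc]
  have hSsym : Sᵀ = S := by
    rw [hSdef, Matrix.transpose_sum]
    apply Finset.sum_congr rfl; intro g _
    rw [Matrix.transpose_mul, Matrix.transpose_transpose]
  have hinv : ∀ h, (repMat ρ h)ᵀ * (T'ᵀ * S * T') * repMat ρ h = T'ᵀ * S * T' := by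
    intro h
    calc (repMat ρ h)ᵀ * (T'ᵀ * S * T') * repMat ρ h
        = (T' * repMat ρ h)ᵀ * S * (T' * repMat ρ h) := by
          rw [Matrix.transpose_mul]; simp only [Matrix.mul_assoc]
      _ = T'ᵀ * ((B h)ᵀ * S * B h) * T' := by
          rw [hT'M, Matrix.transpose_mul]; simp only [Matrix.mul_assoc]
      _ = _ := by rw [hSB]
  have hsym' : (T'ᵀ * S * T')ᵀ = T'ᵀ * S * T' := by
    rw [Matrix.transpose_mul, Matrix.transpose_mul, Matrix.transpose_transpose, hSsym,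
      Matrix.mul_assoc]
  have hne : T'ᵀ * S * T' ≠ 0 := by
    intro h0
    have hS0 : S = 0 := by
      calc S = (T' * T)ᵀ * S * (T' * T) := by
            rw [hT'T, Matrix.transpose_one, Matrix.one_mul, Matrix.mul_one]
        _ = Tᵀ * (T'ᵀ * S * T') * T := by
            rw [Matrix.transpose_mul]; simp only [Matrix.mul_assoc]
        _ = 0 := by rw [h0, Matrix.mul_zero, Matrix.zero_mul]
    have hm : ∃ i : Fin m, True := by
      by_contra hcon
      push Not at hcon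
      haveI : IsEmpty (Fin m) := ⟨fun i => hcon i⟩
      have h1 := congrFun (congrFun hTT' ⟨0, Nat.pos_of_ne_zero hn0'⟩) ⟨0, Nat.pos_of_ne_zero hn0'⟩
      rw [Matrix.mul_apply, Finset.univ_eq_empty, Finset.sum_empty] at h1
      simp at h1
    obtain ⟨i, -⟩ := hm
    have h1 := congrFun (congrFun hS0 i) i
    rw [hSdef, Matrix.sum_apply, Matrix.zero_apply] at h1
    have h2 : ∀ g : G, ((B g)ᵀ * B g) i i = ((∑ k, A g k i * A g k i : ℝ) : ℂ) := by
      intro g
      rw [Matrix.mul_apply, hBdef]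
      push_cast
      apply Finset.sum_congr rfl; intro k _
      simp
    rw [Finset.sum_congr rfl (fun g _ => h2 g), ← Complex.ofReal_sum] at h1
    have h3 : (∑ g : G, ∑ k, A g k i * A g k i) = 0 := by exact_mod_cast h1
    have h4 := (Finset.sum_eq_zero_iff_of_nonneg
      (fun g _ => Finset.sum_nonneg fun k _ => mul_self_nonneg (A g k i))).mp h3 1
        (Finset.mem_univ _)
    have h5 := (Finset.sum_eq_zero_iff_of_nonneg
      (fun k _ => mul_self_nonneg (A 1 k i))).mp h4 i (Finset.mem_univ _)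
    rw [hA1] at h5
    simp at h5
  obtain ⟨ε, hε2, hST, hsum⟩ := fs_form_sign ρ hρ _ hinv hne
  have hε : ε = 1 := by
    rw [hsym'] at hST
    by_contra hε1
    apply hne
    have h' : (1 - ε) • (T'ᵀ * S * T') = 0 := by rw [sub_smul, one_smul, ← hST, sub_self]
    rcases smul_eq_zero.mp h' with h | h
    · exact absurd (sub_eq_zero.mp h).symm hε1
    · exact h
  rw [hsum, hε, one_mul]

end Cfsg.Agent.Helper24
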