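import Mathlib

set_option autoImplicit false

namespace Cfsg.Agent.Helper24

open scoped BigOperators

theorem h24fa_cop {A : Type*} [AddCommGroup A] {ℓ : ℕ} (hℓ : ℓ.Prime) (hA : ∀ a : A, ℓ • a = 0)
    {n : ℕ} (hn : ¬ ℓ ∣ n) (a : A) : ∃ m : ℕ, m • (n • a) = a := by
  have hc : Nat.Coprime n ℓ := ((Nat.Prime.coprime_iff_not_dvd hℓ).2 hn).symm
  obtain ⟨m, -, hm⟩ := Nat.exists_mul_mod_eq_one_of_coprime hc hℓ.one_lt
  refine ⟨m, ?_⟩
  have h1 : m * n = ℓ * (n * m / ℓ) + 1 := by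
    have := Nat.div_add_mod (n * m) ℓ
    rw [mul_comm m n]; omega
  rw [← mul_smul, h1, add_smul, mul_smul, one_smul, hA, zero_add]

theorem h24fa_cop0 {A : Type*} [AddCommGroup A] {ℓ : ℕ} (hℓ : ℓ.Prime) (hA : ∀ a : A, ℓ • a = 0)
    {n : ℕ} (hn : ¬ ℓ ∣ n) {a : A} (h : n • a = 0) : a = 0 := by
  obtain ⟨m, hm⟩ := h24fa_cop hℓ hA hn a
  rw [← hm, h, smul_zero]

variable {G : Type*} [Group G] {A : Type*} [AddCommGroup A]

theorem h24fa_K1 (ρ : G →* AddMonoid.End A) (Z : Subgroup G) [Fintype Z]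
    (hZn : ∀ g : G, ∀ z ∈ Z, g * z * g⁻¹ ∈ Z) (x : G)
    (hx : ∀ z ∈ Z, z * x = x * z → z = 1) :
    ∑ z : Z, ρ ((z:G) * x * (z:G)⁻¹) = (∑ z : Z, ρ (z:G)) * ρ x := by
  classical
  let φ : Z → Z := fun z =>
    ⟨(z:G) * (x * (z:G)⁻¹ * x⁻¹), Z.mul_mem z.2 (hZn x _ (Z.inv_mem z.2))⟩
  have hφinj : Function.Injective φ := by
    intro z z' h
    have h' : (z:G) * (x * (z:G)⁻¹ * x⁻¹) = (z':G) * (x * (z':G)⁻¹ * x⁻¹) :=
      congrArg Subtype.val h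
    have e1 : (z:G) * x * (z:G)⁻¹ = (z':G) * x * (z':G)⁻¹ := by
      have := congrArg (· * x) h'
      simpa [mul_assoc] using this
    have h2 : ((z':G)⁻¹ * z) * x = x * ((z':G)⁻¹ * z) := by
      calc (z':G)⁻¹ * z * x = (z':G)⁻¹ * ((z:G) * x * (z:G)⁻¹) * z := by group
        _ = (z':G)⁻¹ * ((z':G) * x * (z':G)⁻¹) * z := by rw [e1]
        _ = x * ((z':G)⁻¹ * z) := by group
    have h3 := hx _ (Z.mul_mem (Z.inv_mem z'.2) z.2) h2
    rw [inv_mul_eq_one] at h3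
    exact Subtype.ext h3.symm
  have hφbij : Function.Bijective φ := Finite.injective_iff_bijective.mp hφinj
  rw [Finset.sum_mul]
  rw [← Function.Bijective.sum_comp hφbij (fun z => ρ (z:G) * ρ x)]
  refine Finset.sum_congr rfl (fun z _ => ?_)
  rw [← map_mul]
  congr 1
  simp [φ, mul_assoc]

theorem h24fa_conj_sum (ρ : G →* AddMonoid.End A) (Z : Subgroup G) [Fintype Z]
    (hZn : ∀ g : G, ∀ z ∈ Z, g * z * g⁻¹ ∈ Z) (g : G) :
    ρ g * ∑ z : Z, ρ (z:G) = (∑ z : Z, ρ (z:G)) * ρ g := by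
  classical
  let φ : Z → Z := fun z => ⟨g * (z:G) * g⁻¹, hZn g _ z.2⟩
  have hφinj : Function.Injective φ := by
    intro z z' h
    have h' : g * (z:G) * g⁻¹ = g * (z':G) * g⁻¹ := congrArg Subtype.val h
    exact Subtype.ext (by simpa using h')
  have hφbij : Function.Bijective φ := Finite.injective_iff_bijective.mp hφinj
  rw [Finset.sum_mul, Finset.mul_sum]
  rw [← Function.Bijective.sum_comp hφbij (fun z => ρ (z:G) * ρ g)]
  refine Finset.sum_congr rfl (fun z _ => ?_)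
  rw [← map_mul, ← map_mul]
  congr 1
  simp [φ]

theorem h24fa_left_sum (ρ : G →* AddMonoid.End A) (Z : Subgroup G) [Fintype Z] (g : G)
    (hg : g ∈ Z) : ρ g * ∑ z : Z, ρ (z:G) = ∑ z : Z, ρ (z:G) := by
  classical
  rw [Finset.mul_sum]
  exact Fintype.sum_equiv (Equiv.mulLeft (⟨g, hg⟩ : Z)) _ _ (fun y => by simp [map_mul])

theorem h24fa_K2 (ρ : G →* AddMonoid.End A) (Z R : Subgroup G) [Fintype Z] [Fintype R]
    (hZn : ∀ g : G, ∀ z ∈ Z, g * z * g⁻¹ ∈ Z)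
    (hfpf : ∀ x ∈ R, x ≠ 1 → ∀ z ∈ Z, z * x = x * z → z = 1) :
    ∑ z : Z, ρ (z:G) * (∑ x : R, ρ (x:G)) * ρ ((z:G)⁻¹) =
      (Fintype.card Z : AddMonoid.End A) + (∑ z : Z, ρ (z:G)) * (∑ x : R, ρ (x:G))
        - ∑ z : Z, ρ (z:G) := by
  classical
  have h1 : ∀ z : Z, ρ (z:G) * (∑ x : R, ρ (x:G)) * ρ ((z:G)⁻¹) =
      ∑ x : R, ρ ((z:G) * x * (z:G)⁻¹) := by
    intro z
    rw [Finset.mul_sum, Finset.sum_mul]
    simp [map_mul]
  simp_rw [h1]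
  rw [Finset.sum_comm]
  have h2 : ∀ x : R, ∑ z : Z, ρ ((z:G) * x * (z:G)⁻¹) =
      if x = 1 then (Fintype.card Z : AddMonoid.End A) else (∑ z : Z, ρ (z:G)) * ρ (x:G) := by
    intro x
    split_ifs with hx
    · subst hx; simp
    · exact h24fa_K1 ρ Z hZn x (hfpf x x.2 (fun h => hx (Subtype.ext h)))
  simp_rw [h2]
  rw [Finset.mul_sum]
  rw [← Finset.add_sum_erase Finset.univ _ (Finset.mem_univ (1:R))]
  rw [← Finset.add_sum_erase Finset.univ (fun x : R => (∑ z : Z, ρ (z:G)) * ρ (x:G))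
    (Finset.mem_univ (1:R))]
  have h3 : ∑ x ∈ Finset.univ.erase (1:R), (if x = 1 then (Fintype.card Z : AddMonoid.End A)
      else (∑ z : Z, ρ (z:G)) * ρ (x:G)) =
      ∑ x ∈ Finset.univ.erase (1:R), (∑ z : Z, ρ (z:G)) * ρ (x:G) :=
    Finset.sum_congr rfl (fun x hx => by rw [if_neg (Finset.ne_of_mem_erase hx)])
  rw [h3]
  simp only [if_true, OneMemClass.coe_one, map_one, mul_one]
  abel

end Cfsg.Agent.Helper24
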