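import Cfsg.Agent.Helper24.FrobActA

set_option autoImplicit false

namespace Cfsg.Agent.Helper24

open scoped BigOperators

section
variable {A : Type*} [AddCommGroup A]

def h24fa_ev (a : A) : AddMonoid.End A →+ A where
  toFun f := f a
  map_zero' := rfl
  map_add' _ _ := rfl

theorem h24fa_sum_apply {ι : Type*} (s : Finset ι) (f : ι → AddMonoid.End A) (a : A) :
    (∑ i ∈ s, f i) a = ∑ i ∈ s, f i a := map_sum (h24fa_ev a) f s

theorem h24fa_add_apply (f g : AddMonoid.End A) (a : A) : (f + g) a = f a + g a := rfl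

theorem h24fa_sub_apply (f g : AddMonoid.End A) (a : A) : (f - g) a = f a - g a :=
  map_sub (h24fa_ev a) f g

theorem h24fa_mul_apply (f g : AddMonoid.End A) (a : A) : (f * g) a = f (g a) := rfl

end

set_option maxHeartbeats 1000000 in
theorem h24fa_MA {G : Type*} [Group G] [Finite G] {A : Type*} [AddCommGroup A]
    {ℓ : ℕ} (hℓ : ℓ.Prime) (hA : ∀ a : A, ℓ • a = 0) (hG : ¬ ℓ ∣ Nat.card G)
    (ρ : G →* AddMonoid.End A) (K R Z : Subgroup G)
    (hKn : ∀ g : G, ∀ k ∈ K, g * k * g⁻¹ ∈ K)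
    (hZn : ∀ g : G, ∀ z ∈ Z, g * z * g⁻¹ ∈ Z) (hZK : Z ≤ K)
    (hfpf : ∀ x ∈ R, x ≠ 1 → ∀ k ∈ K, k * x = x * k → k = 1)
    (v₀ : A) (hv₀ : ∀ x ∈ R, ρ x v₀ = v₀)
    (hfix : ∀ a : A, (∀ x ∈ R, ρ x a = a) → ∃ n : ℕ, a = n • v₀)
    (hZc : ∀ z ∈ Z, ∀ k ∈ K, ρ z * ρ k = ρ k * ρ z) :
    (∀ z ∈ Z, ρ z = 1) ∨ (∀ k ∈ K, ∀ k' ∈ K, ρ k * ρ k' = ρ k' * ρ k) := by
  classical
  haveI : Fintype Z := Fintype.ofFinite Z
  haveI : Fintype K := Fintype.ofFinite K
  haveI : Fintype R := Fintype.ofFinite R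
  have hcardZ : ¬ ℓ ∣ Fintype.card Z := fun h => hG (h.trans (by
    rw [← Nat.card_eq_fintype_card]; exact Subgroup.card_subgroup_dvd_card Z))
  have hcardK : ¬ ℓ ∣ Fintype.card K := fun h => hG (h.trans (by
    rw [← Nat.card_eq_fintype_card]; exact Subgroup.card_subgroup_dvd_card K))
  have hfpfZ : ∀ x ∈ R, x ≠ 1 → ∀ z ∈ Z, z * x = x * z → z = 1 :=
    fun x hx hx1 z hz h => hfpf x hx hx1 z (hZK hz) h
  have E2Z := h24fa_K2 ρ Z R hZn hfpfZ
  have E2K := h24fa_K2 ρ K R hKn hfpf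
  have ElZ := h24fa_left_sum ρ Z
  have ElK := h24fa_left_sum ρ K
  have ElR := h24fa_left_sum ρ R
  have EcZ := h24fa_conj_sum ρ Z hZn
  obtain ⟨σZ, hσZ⟩ : ∃ σ : AddMonoid.End A, σ = ∑ z : Z, ρ (z:G) := ⟨_, rfl⟩
  obtain ⟨σK, hσK⟩ : ∃ σ : AddMonoid.End A, σ = ∑ z : K, ρ (z:G) := ⟨_, rfl⟩
  obtain ⟨σR, hσR⟩ : ∃ σ : AddMonoid.End A, σ = ∑ z : R, ρ (z:G) := ⟨_, rfl⟩
  rw [← hσZ, ← hσR] at E2Z
  rw [← hσK, ← hσR] at E2K
  rw [← hσZ] at ElZ EcZ
  rw [← hσK] at ElK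
  rw [← hσR] at ElR
  have hσZapp : ∀ a : A, σZ a = ∑ z : Z, ρ (z:G) a := by
    intro a; rw [hσZ, h24fa_sum_apply]
  have hσRapp : ∀ a : A, σR a = ∑ z : R, ρ (z:G) a := by
    intro a; rw [hσR, h24fa_sum_apply]
  have hRfix : ∀ a : A, ∀ x ∈ R, ρ x (σR a) = σR a := by
    intro a x hx
    rw [← h24fa_mul_apply, ElR x hx]
  have hZfix : ∀ a : A, ∀ z ∈ Z, ρ z (σZ a) = σZ a := by
    intro a z hz
    rw [← h24fa_mul_apply, ElZ z hz]
  have hKfix : ∀ a : A, ∀ k ∈ K, ρ k (σK a) = σK a := by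
    intro a k hk
    rw [← h24fa_mul_apply, ElK k hk]
  have hσZcomm : ∀ (g : G) (a : A), ρ g (σZ a) = σZ (ρ g a) := by
    intro g a
    rw [← h24fa_mul_apply, ← h24fa_mul_apply, EcZ g]
  have hK2Z : ∀ a : A, ∑ z : Z, ρ (z:G) (σR (ρ ((z:G)⁻¹) a)) =
      Fintype.card Z • a + σZ (σR a) - σZ a := by
    intro a
    have := congrArg (fun e : AddMonoid.End A => e a) E2Z
    simp only [h24fa_sum_apply, h24fa_sub_apply, h24fa_add_apply, h24fa_mul_apply,
      AddMonoid.End.natCast_apply] at this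
    exact this
  have hK2K : ∀ a : A, ∑ k : K, ρ (k:G) (σR (ρ ((k:G)⁻¹) a)) =
      Fintype.card K • a + σK (σR a) - σK a := by
    intro a
    have := congrArg (fun e : AddMonoid.End A => e a) E2K
    simp only [h24fa_sum_apply, h24fa_sub_apply, h24fa_add_apply, h24fa_mul_apply,
      AddMonoid.End.natCast_apply] at this
    exact this
  have hchoose : ∀ a : A, ∃ n : ℕ, σR a = n • v₀ := fun a => hfix _ (hRfix a)
  have hwfix : ∀ x ∈ R, ρ x (σZ v₀) = σZ v₀ := by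
    intro x hx
    rw [hσZcomm, hv₀ x hx]
  obtain ⟨n, hn⟩ := hfix _ hwfix
  by_cases hw : σZ v₀ = 0
  · right
    have hstep1 : ∀ c : A, (∀ z ∈ Z, ρ z c = c) → (∀ x ∈ R, ρ x c = c) → c = 0 := by
      intro c hc hcR
      obtain ⟨m, hm⟩ := hfix c hcR
      have e1 : σZ c = Fintype.card Z • c := by
        rw [hσZapp, Finset.sum_congr rfl (fun (z : Z) _ => hc (z:G) z.2)]
        simp
      have e2 : σZ c = 0 := by rw [hm, map_nsmul, hw, smul_zero]
      rw [e1] at e2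
      exact h24fa_cop0 hℓ hA hcardZ e2
    have hCK : ∀ c : A, (∀ z ∈ Z, ρ z c = c) → ∀ k ∈ K, ∀ z ∈ Z, ρ z (ρ k c) = ρ k c := by
      intro c hc k hk z hz
      rw [← h24fa_mul_apply, hZc z hz k hk, h24fa_mul_apply, hc z hz]
    have hCR : ∀ c : A, (∀ z ∈ Z, ρ z c = c) → ∀ x : G, ∀ z ∈ Z, ρ z (ρ x c) = ρ x c := by
      intro c hc x z hz
      have e : z * x = x * (x⁻¹ * z * x⁻¹⁻¹) := by group
      rw [← h24fa_mul_apply, ← map_mul, e, map_mul, h24fa_mul_apply, hc _ (hZn x⁻¹ z hz)]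
    have hCσR : ∀ c : A, (∀ z ∈ Z, ρ z c = c) → ∀ z ∈ Z, ρ z (σR c) = σR c := by
      intro c hc z hz
      rw [hσRapp, map_sum]
      exact Finset.sum_congr rfl (fun x _ => hCR c hc x z hz)
    have hstep2 : ∀ c : A, (∀ z ∈ Z, ρ z c = c) → ∀ k ∈ K, ρ k c = c := by
      intro c hc k hk
      have h0 : ∀ k' : K, ρ (k':G) (σR (ρ ((k':G)⁻¹) c)) = 0 := by
        intro k'
        have : σR (ρ ((k':G)⁻¹) c) = 0 :=
          hstep1 _ (hCσR _ (hCK c hc _ (K.inv_mem k'.2))) (hRfix _)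
        rw [this, map_zero]
      have h1 := hK2K c
      rw [Finset.sum_congr rfl (fun k' _ => h0 k'), Finset.sum_const_zero] at h1
      have h2 : Fintype.card K • c = σK c - σK (σR c) := by
        have h1' := h1.symm
        rw [sub_eq_zero] at h1'
        rw [← h1']; abel
      have h3 : ρ k (Fintype.card K • c) = Fintype.card K • c := by
        rw [h2, map_sub, hKfix _ k hk, hKfix _ k hk]
      have h4 : Fintype.card K • (ρ k c - c) = 0 := by
        rw [smul_sub, ← map_nsmul, h3, sub_self]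
      exact sub_eq_zero.mp (h24fa_cop0 hℓ hA hcardK h4)
    let D : AddSubgroup A :=
      { carrier := {a | ∀ k ∈ K, ∀ k' ∈ K, ρ k (ρ k' a) = ρ k' (ρ k a)}
        add_mem' := by
          intro a b ha hb k hk k' hk'
          simp only [map_add]
          rw [ha k hk k' hk', hb k hk k' hk']
        zero_mem' := by
          intro k hk k' hk'
          simp only [map_zero]
        neg_mem' := by
          intro a ha k hk k' hk'
          simp only [map_neg]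
          rw [ha k hk k' hk'] }
    have hDK : ∀ a ∈ D, ∀ g ∈ K, ρ g a ∈ D := by
      intro a ha g hg k hk k' hk'
      have e1 : ρ k (ρ k' (ρ g a)) = ρ k (ρ (k' * g) a) := by rw [map_mul]; rfl
      have e2 : ρ k (ρ (k' * g) a) = ρ (k' * g) (ρ k a) := ha k hk (k' * g) (K.mul_mem hk' hg)
      have e3 : ρ (k' * g) (ρ k a) = ρ k' (ρ g (ρ k a)) := by rw [map_mul]; rfl
      have e4 : ρ g (ρ k a) = ρ k (ρ g a) := ha g hg k hk
      rw [e1, e2, e3, e4]
    have hDC : ∀ c : A, (∀ z ∈ Z, ρ z c = c) → c ∈ D := by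
      intro c hc k hk k' hk'
      rw [hstep2 c hc k' hk', hstep2 c hc k hk, hstep2 c hc k' hk']
    have hstep3 : ∀ k ∈ K, ∃ α : AddMonoid.End A, (∀ k' ∈ K, Commute α (ρ k')) ∧
        (∀ β : AddMonoid.End A, (∀ z ∈ Z, Commute (ρ z) β) → Commute α β) ∧
        Fintype.card Z • ρ k v₀ = α v₀ := by
      intro k hk
      choose nz hnz using fun z : Z => hchoose (ρ ((z:G)⁻¹) (ρ k v₀))
      refine ⟨∑ z : Z, (nz z : AddMonoid.End A) * ρ (z:G), ?_, ?_, ?_⟩
      · intro k' hk'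
        exact Commute.sum_left _ _ _
          (fun z _ => (Nat.cast_commute _ _).mul_left (hZc z z.2 k' hk'))
      · intro β hβ
        exact Commute.sum_left _ _ _ (fun z _ => (Nat.cast_commute _ _).mul_left (hβ z z.2))
      · have h1 := hK2Z (ρ k v₀)
        obtain ⟨m, hm⟩ := hchoose (ρ k v₀)
        have e1 : σZ (σR (ρ k v₀)) = 0 := by rw [hm, map_nsmul, hw, smul_zero]
        have e2 : σZ (ρ k v₀) = 0 := by rw [← hσZcomm, hw, map_zero]
        rw [e1, e2, add_zero, sub_zero] at h1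
        rw [← h1, h24fa_sum_apply]
        refine Finset.sum_congr rfl (fun z _ => ?_)
        rw [hnz z, h24fa_mul_apply, AddMonoid.End.natCast_apply, map_nsmul]
    have hv₀D : v₀ ∈ D := by
      intro k hk k' hk'
      obtain ⟨α, hα1, hα2, hα3⟩ := hstep3 k hk
      obtain ⟨α', hα'1, hα'2, hα'3⟩ := hstep3 k' hk'
      have hcomm : Commute α α' := hα2 α' (fun z hz => (hα'1 z (hZK hz)).symm)
      have e1 : Fintype.card Z • Fintype.card Z • ρ k (ρ k' v₀) = α' (α v₀) := by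
        rw [← map_nsmul (ρ k), hα'3, ← h24fa_mul_apply, ← (hα'1 k hk).eq, h24fa_mul_apply,
          ← map_nsmul α', hα3]
      have e2 : Fintype.card Z • Fintype.card Z • ρ k' (ρ k v₀) = α (α' v₀) := by
        rw [← map_nsmul (ρ k'), hα3, ← h24fa_mul_apply, ← (hα1 k' hk').eq, h24fa_mul_apply,
          ← map_nsmul α, hα'3]
      have e3 : α (α' v₀) = α' (α v₀) := by
        rw [← h24fa_mul_apply, hcomm.eq, h24fa_mul_apply]
      have e4 : Fintype.card Z • Fintype.card Z • (ρ k (ρ k' v₀) - ρ k' (ρ k v₀)) = 0 := by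
        rw [smul_sub, smul_sub, e1, e2, e3, sub_self]
      exact sub_eq_zero.mp (h24fa_cop0 hℓ hA hcardZ (h24fa_cop0 hℓ hA hcardZ e4))
    have hall : ∀ a : A, a ∈ D := by
      intro a
      have h1 := hK2Z a
      have hL : ∑ z : Z, ρ (z:G) (σR (ρ ((z:G)⁻¹) a)) ∈ D := by
        refine D.sum_mem (fun z _ => ?_)
        obtain ⟨m, hm⟩ := hchoose (ρ ((z:G)⁻¹) a)
        rw [hm, map_nsmul]
        exact D.nsmul_mem (hDK _ hv₀D _ (hZK z.2)) m
      have h2 : Fintype.card Z • a =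
          ∑ z : Z, ρ (z:G) (σR (ρ ((z:G)⁻¹) a)) - σZ (σR a) + σZ a := by
        rw [h1]; abel
      have h3 : Fintype.card Z • a ∈ D := by
        rw [h2]
        exact D.add_mem (D.sub_mem hL (hDC _ (hZfix _))) (hDC _ (hZfix _))
      obtain ⟨m, hm⟩ := h24fa_cop hℓ hA hcardZ a
      rw [← hm]
      exact D.nsmul_mem h3 m
    intro k hk k' hk'
    ext a
    exact hall a k hk k' hk'
  · left
    have hndvd : ¬ ℓ ∣ n := by
      intro h
      obtain ⟨q, rfl⟩ := h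
      apply hw
      rw [hn, mul_smul, hA]
    obtain ⟨m, hm⟩ := h24fa_cop hℓ hA hndvd v₀
    have hv₀Z : ∀ z ∈ Z, ρ z v₀ = v₀ := by
      intro z hz
      have e : v₀ = σZ (m • v₀) := by rw [map_nsmul, hn, hm]
      rw [e, hZfix _ z hz]
    have hfixall : ∀ a : A, ∀ z ∈ Z, ρ z a = a := by
      intro a z hz
      have h1 := hK2Z a
      have hL : ρ z (∑ z' : Z, ρ (z':G) (σR (ρ ((z':G)⁻¹) a))) =
          ∑ z' : Z, ρ (z':G) (σR (ρ ((z':G)⁻¹) a)) := by
        rw [map_sum]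
        refine Finset.sum_congr rfl (fun z' _ => ?_)
        obtain ⟨m', hm'⟩ := hchoose (ρ ((z':G)⁻¹) a)
        rw [hm', map_nsmul, map_nsmul, hv₀Z _ z'.2, hv₀Z z hz]
      have h2 : Fintype.card Z • a =
          ∑ z' : Z, ρ (z':G) (σR (ρ ((z':G)⁻¹) a)) - σZ (σR a) + σZ a := by
        rw [h1]; abel
      have h3 : ρ z (Fintype.card Z • a) = Fintype.card Z • a := by
        rw [h2, map_add, map_sub, hL, hZfix _ z hz, hZfix _ z hz]
      have h4 : Fintype.card Z • (ρ z a - a) = 0 := by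
        rw [smul_sub, ← map_nsmul, h3, sub_self]
      exact sub_eq_zero.mp (h24fa_cop0 hℓ hA hcardZ h4)
    intro z hz
    ext a
    exact hfixall a z hz

end Cfsg.Agent.Helper24
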