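import Cfsg.Agent.Helper24.FrobActB

set_option autoImplicit false

namespace Cfsg.Agent.Helper24

theorem h24fa_main {G : Type*} [Group G] [Finite G] {A : Type*} [AddCommGroup A]
    {ℓ : ℕ} (hℓ : ℓ.Prime) (hA : ∀ a : A, ℓ • a = 0) (hG : ¬ ℓ ∣ Nat.card G)
    (ρ : G →* AddMonoid.End A) (K R : Subgroup G) [hKn : K.Normal]
    (hKnil : Group.IsNilpotent K)
    (hfpf : ∀ x ∈ R, x ≠ 1 → ∀ k ∈ K, k * x = x * k → k = 1)
    (v₀ : A) (hv₀ : ∀ x ∈ R, ρ x v₀ = v₀)
    (hfix : ∀ a : A, (∀ x ∈ R, ρ x a = a) → ∃ n : ℕ, a = n • v₀) :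
    ∀ k ∈ K, ∀ k' ∈ K, ρ k * ρ k' = ρ k' * ρ k := by
  by_contra hcon
  have hKn' : ∀ g : G, ∀ k ∈ K, g * k * g⁻¹ ∈ K := fun g k hk => hKn.conj_mem k hk g
  have key : ∀ i : ℕ, ∀ z : K, z ∈ Subgroup.upperCentralSeries K i → ρ (z:G) = 1 := by
    intro i
    induction i with
    | zero =>
      intro z hz
      rw [Subgroup.upperCentralSeries_zero, Subgroup.mem_bot] at hz
      subst hz; simp
    | succ i ih =>
      have hZn : ∀ g : G, ∀ z ∈ (Subgroup.upperCentralSeries K (i+1)).map K.subtype,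
          g * z * g⁻¹ ∈ (Subgroup.upperCentralSeries K (i+1)).map K.subtype := by
        rintro g _ ⟨z, hz, rfl⟩
        refine ⟨MulAut.conjNormal g z, ?_, ?_⟩
        · have hchar := (inferInstance :
            (Subgroup.upperCentralSeries K (i+1)).Characteristic).fixed (MulAut.conjNormal g)
          have : z ∈ (Subgroup.upperCentralSeries K (i+1)).comap
              (MulAut.conjNormal g).toMonoidHom := by rw [hchar]; exact hz
          exact this
        · simp
      have hZK : (Subgroup.upperCentralSeries K (i+1)).map K.subtype ≤ K := by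
        rintro _ ⟨z, -, rfl⟩; exact z.2
      have hZc : ∀ z ∈ (Subgroup.upperCentralSeries K (i+1)).map K.subtype, ∀ k ∈ K,
          ρ z * ρ k = ρ k * ρ z := by
        rintro _ ⟨z, hz, rfl⟩ k hk
        have h1 := (Subgroup.mem_upperCentralSeries_succ_iff.mp hz) ⟨k, hk⟩
        have h2 := ih _ h1
        have e : ((z:G) * k) = ((z:G) * k * (z:G)⁻¹ * k⁻¹) * (k * z) := by group
        have h2' : ρ ((z:G) * k * (z:G)⁻¹ * k⁻¹) = 1 := h2
        show ρ (z:G) * ρ k = ρ k * ρ (z:G)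
        rw [← map_mul, e, map_mul, h2', one_mul, map_mul]
      rcases h24fa_MA hℓ hA hG ρ K R _ hKn' hZn hZK hfpf v₀ hv₀ hfix hZc with h | h
      · intro z hz; exact h z ⟨z, hz, rfl⟩
      · exact absurd h hcon
  obtain ⟨n, hn⟩ := hKnil.nilpotent
  apply hcon
  intro k hk k' hk'
  rw [key n ⟨k, hk⟩ (by rw [hn]; trivial), key n ⟨k', hk'⟩ (by rw [hn]; trivial)]

end Cfsg.Agent.Helper24
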