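import Cfsg.Agent.Helper24.FrobActC

set_option autoImplicit false

namespace Cfsg.Agent.Helper24

theorem h24fa_conj {X : Type*} [Group X] [Finite X] (G V : Subgroup X) {ℓ : ℕ} (hℓ : ℓ.Prime)
    (hVc : ∀ a ∈ V, ∀ b ∈ V, a * b = b * a) (hVℓ : ∀ a ∈ V, a ^ ℓ = 1)
    (hℓG : ¬ ℓ ∣ Nat.card G) (hGV : ∀ g ∈ G, ∀ v ∈ V, g * v * g⁻¹ ∈ V)
    (K R : Subgroup ↥G) [K.Normal] (hKnil : Group.IsNilpotent K)
    (hfpf : ∀ x ∈ R, x ≠ 1 → ∀ k ∈ K, k * x = x * k → k = 1)
    (v₀ : X) (hv₀V : v₀ ∈ V) (hv₀ : ∀ x ∈ R, (x:X) * v₀ * (x:X)⁻¹ = v₀)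
    (hfix : ∀ a ∈ V, (∀ x ∈ R, (x:X) * a * (x:X)⁻¹ = a) → ∃ n : ℕ, a = v₀ ^ n) :
    ∀ k ∈ K, ∀ k' ∈ K, ∀ v ∈ V,
      (k:X) * ((k':X) * v * (k':X)⁻¹) * (k:X)⁻¹ = (k':X) * ((k:X) * v * (k:X)⁻¹) * (k':X)⁻¹ := by
  classical
  letI : CommGroup ↥V :=
    { (inferInstance : Group ↥V) with mul_comm := fun a b => Subtype.ext (hVc a a.2 b b.2) }
  let ρ : ↥G →* AddMonoid.End (Additive ↥V) :=
    { toFun := fun g =>
        { toFun := fun a => Additive.ofMul (⟨(g:X) * ((Additive.toMul a : ↥V) : X) * (g:X)⁻¹,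
            hGV g g.2 _ (Additive.toMul a).2⟩ : ↥V)
          map_zero' := by
            apply congrArg Additive.ofMul
            apply Subtype.ext
            simp
          map_add' := by
            intro a b
            apply congrArg Additive.ofMul
            apply Subtype.ext
            simp [mul_assoc] }
      map_one' := by
        refine AddMonoidHom.ext (fun a => ?_)
        apply congrArg Additive.ofMul
        apply Subtype.ext
        simp
        rfl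
      map_mul' := by
        intro g h
        refine AddMonoidHom.ext (fun a => ?_)
        apply congrArg Additive.ofMul
        apply Subtype.ext
        simp [mul_assoc]
        rfl }
  have hA : ∀ a : Additive ↥V, ℓ • a = 0 := by
    intro a
    apply congrArg Additive.ofMul
    apply Subtype.ext
    simpa using hVℓ _ (Additive.toMul a).2
  have hv₀' : ∀ x ∈ R, ρ x (Additive.ofMul (⟨v₀, hv₀V⟩ : ↥V)) = Additive.ofMul (⟨v₀, hv₀V⟩ : ↥V) :=
    fun x hx => congrArg Additive.ofMul (Subtype.ext (hv₀ x hx))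
  have hfix' : ∀ a : Additive ↥V, (∀ x ∈ R, ρ x a = a) →
      ∃ n : ℕ, a = n • Additive.ofMul (⟨v₀, hv₀V⟩ : ↥V) := by
    intro a ha
    have h1 : ∀ x ∈ R, (x:X) * ((Additive.toMul a : ↥V) : X) * (x:X)⁻¹ = ((Additive.toMul a : ↥V) : X) :=
      fun x hx => congrArg (fun t : Additive ↥V => ((Additive.toMul t : ↥V) : X)) (ha x hx)
    obtain ⟨n, hn⟩ := hfix _ (Additive.toMul a).2 h1
    refine ⟨n, ?_⟩
    apply Additive.toMul.injective
    apply Subtype.ext
    simpa using hn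
  have main := h24fa_main hℓ hA hℓG ρ K R hKnil hfpf _ hv₀' hfix'
  intro k hk k' hk' v hv
  exact congrArg (fun e : AddMonoid.End (Additive ↥V) =>
    ((Additive.toMul (e (Additive.ofMul (⟨v, hv⟩ : ↥V))) : ↥V) : X)) (main k hk k' hk')

end Cfsg.Agent.Helper24
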