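import Mathlib
import Cfsg.Agent.Helper24.ExtraFpf
import Cfsg.Agent.Helper7.DetChar
import Cfsg.Agent.Helper2.CharExtra

/-!
# A Gallagher–Parseval lemma (helper24)

* `fr_sum_subgroup`: a sum over a group of a function vanishing off a subgroup.
* `fr_gallagher`: `K ⊴ C` with `C/K` abelian of order `h`, `θh ∈ Irr(C)` restricting irreducibly
  to `K`, `ψ₀` a character of `C` with `ψ₀|_K = e θh|_K` and `∑_C |ψ₀|² = |K| (e² + h - 1)`:
  then `h ∣ e + 1` or `h ∣ e - 1`.
-/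

set_option autoImplicit false

namespace Cfsg.Agent.Helper24

open Cfsg Cfsg.Agent.Helper26
open scoped ComplexConjugate

universe u

theorem fr_sum_subgroup {X : Type u} [Group X] [Fintype X] (K : Subgroup X) [Fintype K]
    (F : X → ℂ) (hF : ∀ x, x ∉ K → F x = 0) : ∑ x : X, F x = ∑ k : K, F k := by
  classical
  rw [← Finset.sum_subset (Finset.subset_univ (Finset.univ.filter (fun x : X => x ∈ K)))
    (fun x _ hx => hF x (by simpa using hx))]
  exact Finset.sum_subtype (Finset.univ.filter (· ∈ K)) (p := (· ∈ K)) (by simp) F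

theorem fr_gallagher {C : Type u} [Group C] [Fintype C] (K : Subgroup C) [hK : K.Normal]
    [Fintype K] (hab : ∀ a b : C ⧸ K, a * b = b * a)
    (θh : IrrCharacter C) (hirr : IsIrrCharacter K (fun k : K => (θh : C → ℂ) k))
    (ψ₀ : C → ℂ) (hψ₀ : IsCharacter C ψ₀) (e : ℕ) (he : ∀ k : K, ψ₀ k = e * (θh : C → ℂ) k)
    (h : ℕ) (hidx : K.index = h)
    (hnorm : ∑ c : C, ψ₀ c * conj (ψ₀ c) = (Nat.card K : ℂ) * ((e : ℂ) ^ 2 + h - 1)) :
    h ∣ e + 1 ∨ h ∣ e - 1 := by
  classical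
  have hcardhom := Helper2.card_hom_of_comm hab
  haveI : Finite ((C ⧸ K) →* ℂˣ) :=
    Nat.finite_of_card_ne_zero (by rw [hcardhom]; exact Nat.card_pos.ne')
  letI : Fintype ((C ⧸ K) →* ℂˣ) := Fintype.ofFinite _
  have hC0 : (Nat.card C : ℂ) ≠ 0 := Nat.cast_ne_zero.mpr Nat.card_pos.ne'
  have hK0 : (Nat.card K : ℂ) ≠ 0 := Nat.cast_ne_zero.mpr Nat.card_pos.ne'
  have hQcard : Nat.card (C ⧸ K) = h := by rw [← hidx]; rfl
  have hcardC : (Nat.card C : ℂ) = (h : ℂ) * (Nat.card K : ℂ) := by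
    rw [← hidx]
    exact_mod_cast (Subgroup.index_mul_card K).symm
  have hh : 0 < h := by rw [← hQcard]; exact Nat.card_pos
  have hh0 : (h : ℂ) ≠ 0 := Nat.cast_ne_zero.mpr hh.ne'
  obtain ⟨T, hT⟩ : ∃ T : ((C ⧸ K) →* ℂˣ) → IrrCharacter C, ∀ μ c,
      (T μ : C → ℂ) c = ((μ (QuotientGroup.mk' K c) : ℂˣ) : ℂ) * (θh : C → ℂ) c :=
    ⟨fun μ => ⟨_, Helper7.isIrrCharacter_hom_mul (μ.comp (QuotientGroup.mk' K))
      (θh : C → ℂ) θh.2⟩, fun μ c => rfl⟩
  have hstep : ∀ φ : C → ℂ, ∑ μ : (C ⧸ K) →* ℂˣ, classInner φ (T μ : C → ℂ)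
      = classInner (fun k : K => φ k) (fun k : K => (θh : C → ℂ) k) := by
    intro φ
    unfold classInner
    rw [← Finset.mul_sum, Finset.sum_comm]
    have h1 : ∀ c : C, ∑ μ : (C ⧸ K) →* ℂˣ, φ c * conj ((T μ : C → ℂ) c)
        = if c ∈ K then (h : ℂ) * (φ c * conj ((θh : C → ℂ) c)) else 0 := by
      intro c
      have h2 : ∀ μ : (C ⧸ K) →* ℂˣ, φ c * conj ((T μ : C → ℂ) c)
          = φ c * conj ((θh : C → ℂ) c) * conj (((μ (QuotientGroup.mk' K c) : ℂˣ) : ℂ)) := by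
        intro μ
        rw [hT, map_mul]
        ring
      rw [Finset.sum_congr rfl (fun μ _ => h2 μ), ← Finset.mul_sum, ← map_sum, cy_hom_sum hab]
      have hiff : (QuotientGroup.mk' K) c = 1 ↔ c ∈ K := QuotientGroup.eq_one_iff c
      by_cases hc : c ∈ K
      · rw [if_pos hc, if_pos (hiff.mpr hc), hQcard, Complex.conj_natCast]
        ring
      · rw [if_neg hc, if_neg (fun h0 => hc (hiff.mp h0)), map_zero, mul_zero]
    rw [Finset.sum_congr rfl (fun c _ => h1 c),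
      fr_sum_subgroup K (fun c => if c ∈ K then (h : ℂ) * (φ c * conj ((θh : C → ℂ) c)) else 0)
        (fun x hx => if_neg hx),
      Finset.sum_congr rfl (fun k _ => if_pos k.2), ← Finset.mul_sum, hcardC]
    field_simp
  have hKK : classInner (fun k : K => (θh : C → ℂ) k) (fun k : K => (θh : C → ℂ) k) = 1 := by
    have := Helper25.irr_classInner (⟨_, hirr⟩ : IrrCharacter K) ⟨_, hirr⟩
    rw [if_pos rfl] at this
    exact this
  have hTK : ∀ (μ : (C ⧸ K) →* ℂˣ) (k : K), (T μ : C → ℂ) k = (θh : C → ℂ) k := by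
    intro μ k
    rw [hT, show (QuotientGroup.mk' K (k : C)) = 1 from (QuotientGroup.eq_one_iff _).mpr k.2,
      map_one, Units.val_one, one_mul]
  have hinj : Function.Injective T := by
    intro ν μ hνμ
    have h1 := hstep (T ν : C → ℂ)
    rw [show (fun k : K => (T ν : C → ℂ) k) = (fun k : K => (θh : C → ℂ) k) from funext (hTK ν),
      hKK, Finset.sum_congr rfl (fun μ' _ => Helper25.irr_classInner (T ν) (T μ')),
      Finset.sum_boole] at h1
    have h2 : (Finset.univ.filter (fun μ' => T ν = T μ')).card = 1 := by exact_mod_cast h1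
    obtain ⟨a, ha⟩ := Finset.card_eq_one.mp h2
    have h3 : ν ∈ Finset.univ.filter (fun μ' => T ν = T μ') := by simp
    have h4 : μ ∈ Finset.univ.filter (fun μ' => T ν = T μ') := by simp [hνμ]
    rw [ha, Finset.mem_singleton] at h3 h4
    rw [h3, h4]
  have hcl : IsClassFunction C ψ₀ := Helper2.isClassFunction_of_isCharacter hψ₀
  have hnat : ∀ ψ : IrrCharacter C, ∃ k : ℕ, classInner ψ₀ (ψ : C → ℂ) = k :=
    fun ψ => Helper2.classInner_char_nat hψ₀ (Helper2.isCharacter_of_isIrrCharacter ψ.2)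
  choose b hb using hnat
  have hsum1 : ∑ μ : (C ⧸ K) →* ℂˣ, b (T μ) = e := by
    have h1 := hstep ψ₀
    have h2 : classInner (fun k : K => ψ₀ k) (fun k : K => (θh : C → ℂ) k) = e := by
      have h3 := Helper2.classInner_smul_left (e : ℂ) (fun k : K => (θh : C → ℂ) k)
        (fun k : K => (θh : C → ℂ) k)
      rw [hKK, mul_one] at h3
      rw [← h3]
      congr 1
      funext k
      rw [he k]
      rfl
    rw [h2, Finset.sum_congr rfl (fun μ _ => hb (T μ))] at h1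
    exact_mod_cast h1
  have hdegT : ∀ μ : (C ⧸ K) →* ℂˣ, charDegree (T μ : C → ℂ) = charDegree (θh : C → ℂ) := by
    intro μ
    have h3 := Helper25.irr_one_eq_degree (T μ)
    rw [hT, map_one, map_one, Units.val_one, one_mul, Helper25.irr_one_eq_degree θh] at h3
    exact_mod_cast h3.symm
  have hoff : ∀ ψ : IrrCharacter C, ψ ∉ Finset.univ.image T → b ψ = 0 := by
    have h1 := congrFun (Helper2.classFun_eq_sum_classInner hcl) 1
    rw [Finset.sum_apply] at h1
    simp only [Pi.smul_apply, smul_eq_mul] at h1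
    rw [Finset.sum_congr rfl (fun ψ _ => by rw [hb ψ, Helper25.irr_one_eq_degree ψ])] at h1
    have h2 : ψ₀ 1 = e * (charDegree (θh : C → ℂ) : ℂ) := by
      have := he 1
      rw [Subgroup.coe_one] at this
      rw [this, Helper25.irr_one_eq_degree θh]
    have h4 : ∑ ψ ∈ Finset.univ.image T, b ψ * charDegree (ψ : C → ℂ)
        = e * charDegree (θh : C → ℂ) := by
      rw [Finset.sum_image (fun x _ y _ hxy => hinj hxy),
        Finset.sum_congr rfl (fun μ _ => by rw [hdegT μ]), ← Finset.sum_mul, hsum1]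
    have h5 : ∑ ψ : IrrCharacter C, b ψ * charDegree (ψ : C → ℂ)
        = e * charDegree (θh : C → ℂ) := by
      rw [h2] at h1
      exact_mod_cast h1.symm
    rw [← Finset.sum_sdiff (Finset.subset_univ (Finset.univ.image T)), h4] at h5
    have h6 : ∑ ψ ∈ Finset.univ \ Finset.univ.image T, b ψ * charDegree (ψ : C → ℂ) = 0 := by
      omega
    intro ψ hψ
    have h7 := (Finset.sum_eq_zero_iff.mp h6) ψ (Finset.mem_sdiff.mpr ⟨Finset.mem_univ _, hψ⟩)
    rcases Nat.mul_eq_zero.mp h7 with h8 | h8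
    · exact h8
    · exact absurd h8 (Helper25.irr_degree_pos ψ).ne'
  have hpars : classInner ψ₀ ψ₀ = ∑ μ : (C ⧸ K) →* ℂˣ, ((b (T μ) : ℂ)) ^ 2 := by
    rw [Helper2.classInner_eq_sum_mul hcl ψ₀,
      Finset.sum_congr rfl (fun ψ _ => by rw [hb ψ, Complex.conj_natCast]),
      ← Finset.sum_subset (Finset.subset_univ (Finset.univ.image T))
        (fun ψ _ hψ => by rw [hoff ψ hψ]; simp),
      Finset.sum_image (fun x _ y _ hxy => hinj hxy)]
    apply Finset.sum_congr rfl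
    intro μ _
    ring
  have hsum2 : h * ∑ μ : (C ⧸ K) →* ℂˣ, (b (T μ)) ^ 2 = e ^ 2 + h - 1 := by
    have h1 : classInner ψ₀ ψ₀
        = (Nat.card C : ℂ)⁻¹ * ((Nat.card K : ℂ) * ((e : ℂ) ^ 2 + h - 1)) := by
      unfold classInner
      rw [hnorm]
    rw [hpars, hcardC] at h1
    have h2 : (h : ℂ) * ∑ μ : (C ⧸ K) →* ℂˣ, ((b (T μ) : ℂ)) ^ 2 = (e : ℂ) ^ 2 + h - 1 := by
      rw [h1]
      field_simp
    have h3 : ((h * ∑ μ : (C ⧸ K) →* ℂˣ, (b (T μ)) ^ 2 + 1 : ℕ) : ℂ) = ((e ^ 2 + h : ℕ) : ℂ) := by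
      push_cast
      rw [h2]
      ring
    have h4 : h * ∑ μ : (C ⧸ K) →* ℂˣ, (b (T μ)) ^ 2 + 1 = e ^ 2 + h := by exact_mod_cast h3
    omega
  exact fp_arith h e hh (fun μ => b (T μ))
    (by rw [← Nat.card_eq_fintype_card, hcardhom, hQcard]) hsum1 hsum2

end Cfsg.Agent.Helper24
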