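import Mathlib
import Cfsg.Agent.Helper24.BlockDeg2
import Cfsg.Agent.Helper7.IndBlock

/-!
# Induced blocks: comparing sums over a subgroup with sums over the group (helper24)

* `li_sum_sub_of_induced`: if the block `b` of `H` induces `B`, `ξ ∈ b`, `χ₀ ∈ B` and `a` is a
  class function of `G` with local-integer values, then
  `∑_{h ∈ H} a(h) ξ(h)/ξ(1) ≡ ∑_{g ∈ G} a(g) χ₀(g)/χ₀(1)` modulo the local ideal.
* `blockPart_apply`: the `B`-part of a function as a finite sum.
-/

set_option autoImplicit false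

namespace Cfsg.Agent.Helper24

open Cfsg Cfsg.Agent.Helper25
open scoped ComplexConjugate

universe u

variable {G : Type u} [Group G] {p : ℕ} {M : Ideal AlgInt}

theorem inducedCentralChar_conj' (H : Subgroup G) [Fintype H] (ξ : H → ℂ) (g x : G) :
    inducedCentralChar H ξ (x * g * x⁻¹) = inducedCentralChar H ξ g := by
  classical
  rw [Cfsg.Agent.Helper7.inducedCentralChar_eq_sum, Cfsg.Agent.Helper7.inducedCentralChar_eq_sum]
  apply Finset.sum_congr rfl
  intro h _
  have h3 : IsConj (x * g * x⁻¹) (h : G) ↔ IsConj g (h : G) := by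
    constructor
    · intro hh
      exact (isConj_iff.mpr ⟨x, rfl⟩ : IsConj g (x * g * x⁻¹)).trans hh
    · intro hh
      exact (isConj_iff.mpr ⟨x⁻¹, by group⟩ : IsConj (x * g * x⁻¹) g).trans hh
  by_cases hc : IsConj g (h : G)
  · rw [if_pos (h3.mpr hc), if_pos hc]
  · rw [if_neg (fun hh => hc (h3.mp hh)), if_neg hc]

theorem li_sum_sub_of_induced [Fintype G] (hM : IsPModular p M) (H : Subgroup G) [Fintype H]
    {b : Set (IrrCharacter H)} {B : Set (IrrCharacter G)} (hind : IsInducedBlock M H b B)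
    (ξ : IrrCharacter H) (hξ : ξ ∈ b) (χ₀ : IrrCharacter G) (hχ₀ : χ₀ ∈ B)
    (a : G → ℂ) (ha : ∀ g x : G, a (x * g * x⁻¹) = a g) (halr : ∀ g, MemLocalRing M (a g)) :
    MemLocalIdeal M (∑ h : H, a (h : G) * ((ξ : H → ℂ) h / (ξ : H → ℂ) 1) -
      ∑ g : G, a g * ((χ₀ : G → ℂ) g / (χ₀ : G → ℂ) 1)) := by
  classical
  obtain ⟨-, -, hcong⟩ := hind
  rw [Cfsg.Agent.Helper7.sum_subgroup_eq_sum_class H a ha, ← Finset.sum_sub_distrib]
  apply li_sum_classFun hM
  · intro g x
    rw [ha, irr_conj, index_centralizer_conj, inducedCentralChar_conj']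
  · intro g
    have h3 : ((Subgroup.centralizer ({g} : Set G)).index : ℂ) ≠ 0 := by
      have : (Subgroup.centralizer ({g} : Set G)).index ≠ 0 := Subgroup.index_ne_zero_of_finite
      exact_mod_cast this
    have e : ((Subgroup.centralizer ({g} : Set G)).index : ℂ) *
        (a g * (inducedCentralChar H (ξ : H → ℂ) g /
            ((Subgroup.centralizer ({g} : Set G)).index : ℂ)) -
          a g * ((χ₀ : G → ℂ) g / (χ₀ : G → ℂ) 1))
        = a g * (inducedCentralChar H (ξ : H → ℂ) g - centralChar (χ₀ : G → ℂ) g) := by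
      unfold centralChar
      field_simp
    rw [e]
    exact lr_mul_li hM (halr g) (hcong ξ hξ χ₀ hχ₀ g)

theorem classInner_inst (i₁ i₂ : Fintype G) (φ ψ : G → ℂ) :
    @classInner G _ i₁ φ ψ = @classInner G _ i₂ φ ψ := by
  have h : i₁ = i₂ := Subsingleton.elim _ _
  subst h
  rfl

theorem blockPart_apply [Fintype G] (B : Set (IrrCharacter G)) (ϑ : G → ℂ) (g : G) :
    blockPart B ϑ g =
      ∑ χ ∈ (Set.toFinite B).toFinset, classInner ϑ (χ : G → ℂ) * (χ : G → ℂ) g := by
  unfold blockPart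
  rw [finsum_mem_eq_finite_toFinset_sum _ (Set.toFinite B)]
  apply Finset.sum_congr rfl
  intro χ _
  rw [classInner_inst]

end Cfsg.Agent.Helper24
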