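import Mathlib
import Cfsg.Agent.Helper24.IndBlk
import Cfsg.Agent.Helper2.CharExtra
import Cfsg.Agent.Helper2.Ind

/-!
# Height zero characters and induced blocks (helper24)

* `hz_congr`: if the block `b` of `H` induces `B`, `ξ ∈ b`, `χ₀ ∈ B` and `χ` is any irreducible
  character of `G`, then `|H| ⟨(χ_H)⁰, ξ⟩ / ξ(1) ≡ |G| ⟨χ⁰, χ₀⟩ / χ₀(1)` modulo the local ideal.
* `hz_gram_decomp`: the `p`-regular inner product of a restricted character, by constituents.
-/

set_option autoImplicit false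

namespace Cfsg.Agent.Helper24

open Cfsg Cfsg.Agent.Helper25 Cfsg.Agent.Helper2
open scoped ComplexConjugate

universe u

variable {G : Type u} [Group G] {p : ℕ} {M : Ideal AlgInt}

theorem hz_pRegularPart_coe (H : Subgroup G) (φ : G → ℂ) (h : H) :
    pRegularPart p φ (h : G) = pRegularPart p (fun k : H => φ k) h := by
  by_cases hs : p ∣ orderOf h
  · rw [pRegularPart_of_sing hs, pRegularPart_of_sing (by rwa [Subgroup.orderOf_coe])]
  · rw [pRegularPart_of_reg hs, pRegularPart_of_reg (by rwa [Subgroup.orderOf_coe])]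

theorem hz_sum_inv {K : Type*} [Group K] [Fintype K] (F : K → ℂ) :
    ∑ g : K, F g⁻¹ = ∑ g : K, F g :=
  Equiv.sum_comp (Equiv.inv K) F

theorem hz_congr [Fintype G] (hM : IsPModular p M) (H : Subgroup G) [Fintype H]
    {b : Set (IrrCharacter H)} {B : Set (IrrCharacter G)} (hind : IsInducedBlock M H b B)
    (ξ : IrrCharacter H) (hξ : ξ ∈ b) (χ₀ : IrrCharacter G) (hχ₀ : χ₀ ∈ B)
    (χ : IrrCharacter G) :
    MemLocalIdeal M ((Nat.card H : ℂ) * gram p (fun h : H => (χ : G → ℂ) h) (ξ : H → ℂ)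
        / (ξ : H → ℂ) 1
      - (Nat.card G : ℂ) * gram p (χ : G → ℂ) (χ₀ : G → ℂ) / (χ₀ : G → ℂ) 1) := by
  have key := li_sum_sub_of_induced hM H hind ξ hξ χ₀ hχ₀
    (fun g => pRegularPart p (χ : G → ℂ) g⁻¹)
    (fun g x => by
      have : (x * g * x⁻¹)⁻¹ = x * g⁻¹ * x⁻¹ := by group
      show pRegularPart p (χ : G → ℂ) (x * g * x⁻¹)⁻¹ = pRegularPart p (χ : G → ℂ) g⁻¹
      rw [this, pRegularPart_conj (irr_conj χ)])
    (fun g => lr_pRegularPart hM χ g⁻¹)
  beta_reduce at key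
  have e1 : ∑ h : H, pRegularPart p (χ : G → ℂ) (h : G)⁻¹ * ((ξ : H → ℂ) h / (ξ : H → ℂ) 1)
      = (Nat.card H : ℂ) * gram p (fun h : H => (χ : G → ℂ) h) (ξ : H → ℂ)
        / (ξ : H → ℂ) 1 := by
    rw [gram_eq, ← mul_assoc, mul_inv_cancel₀ (natCard_ne_zero_complex H), one_mul,
      Finset.sum_div]
    rw [← hz_sum_inv (fun h : H => pRegularPart p (fun h : H => (χ : G → ℂ) h) h *
      (ξ : H → ℂ) h⁻¹ / (ξ : H → ℂ) 1)]
    apply Finset.sum_congr rfl
    intro h _
    rw [inv_inv, ← hz_pRegularPart_coe]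
    simp only [Subgroup.coe_inv]
    ring
  have e2 : ∑ g : G, pRegularPart p (χ : G → ℂ) g⁻¹ * ((χ₀ : G → ℂ) g / (χ₀ : G → ℂ) 1)
      = (Nat.card G : ℂ) * gram p (χ : G → ℂ) (χ₀ : G → ℂ) / (χ₀ : G → ℂ) 1 := by
    rw [gram_eq, ← mul_assoc, mul_inv_cancel₀ (natCard_ne_zero_complex G), one_mul,
      Finset.sum_div]
    rw [← hz_sum_inv (fun g : G => pRegularPart p (χ : G → ℂ) g * (χ₀ : G → ℂ) g⁻¹ /
      (χ₀ : G → ℂ) 1)]
    apply Finset.sum_congr rfl
    intro g _
    rw [inv_inv]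
    ring
  rw [e1, e2] at key
  exact key

theorem hz_gram_decomp [Fintype G] (H : Subgroup G) [Fintype H] (χ : IrrCharacter G)
    (ξ₀ : IrrCharacter H) :
    gram p (fun h : H => (χ : G → ℂ) h) (ξ₀ : H → ℂ)
      = ∑ ξ : IrrCharacter H, classInner (fun h : H => (χ : G → ℂ) h) (ξ : H → ℂ) *
          gram p (ξ : H → ℂ) (ξ₀ : H → ℂ) := by
  have hdec := classFun_eq_sum_classInner
    (isClassFunction_of_isCharacter (isCharacter_restrict H (irr_isCharacter χ)))
  have hval : ∀ h : H, pRegularPart p (fun h : H => (χ : G → ℂ) h) h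
      = ∑ ξ : IrrCharacter H, classInner (fun h : H => (χ : G → ℂ) h) (ξ : H → ℂ) *
          pRegularPart p (ξ : H → ℂ) h := by
    intro h
    by_cases hs : p ∣ orderOf h
    · rw [pRegularPart_of_sing hs]
      symm
      apply Finset.sum_eq_zero
      intro ξ _
      rw [pRegularPart_of_sing hs, mul_zero]
    · rw [pRegularPart_of_reg hs]
      have := congrFun hdec h
      simp only [Finset.sum_apply, Pi.smul_apply, smul_eq_mul] at this
      refine this.trans ?_
      apply Finset.sum_congr rfl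
      intro ξ _
      rw [pRegularPart_of_reg hs]
  have h1 : ∑ h : H, pRegularPart p (fun h : H => (χ : G → ℂ) h) h * (ξ₀ : H → ℂ) h⁻¹
      = ∑ h : H, ∑ ξ : IrrCharacter H,
          classInner (fun h : H => (χ : G → ℂ) h) (ξ : H → ℂ) *
            pRegularPart p (ξ : H → ℂ) h * (ξ₀ : H → ℂ) h⁻¹ :=
    Finset.sum_congr rfl (fun h _ => by rw [hval h, Finset.sum_mul])
  rw [gram_eq, h1, Finset.sum_comm, Finset.mul_sum]
  apply Finset.sum_congr rfl
  intro ξ _
  rw [gram_eq, Finset.mul_sum, Finset.mul_sum, Finset.mul_sum]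
  apply Finset.sum_congr rfl
  intro h _
  ring

end Cfsg.Agent.Helper24
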