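import Mathlib
import Cfsg.Agent.Helper7.SectionSum
import Cfsg.Agent.Helper7.SecondMain
import Cfsg.Agent.Helper7.ThirdMain
import Cfsg.Agent.Helper25.BlockRank
import Cfsg.Agent.Helper25.BlockBrauerMap

/-!
# Brauer's count of characters in a block by subsections (helper24)

* `secA`: for a block `b` of `C_G(z)` (`z` a `p`-element) and `p`-regular `y ∈ C_G(z)`,
  `∑_ζ (b-part of ζ(z ·))(y) conj ζ(z y) = ∑_{χ ∈ b} |χ(y)|²` (adapted from helper7's
  `section_sum_eq`).
* `secB`: `∑_{ζ ∈ B} |ζ(z y)|² = ∑_{b, b^G = B} ∑_{χ ∈ b} |χ(y)|²`.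
* `sum_sections`: decomposition of a sum of a class function over `G` along `p`-sections.
-/

set_option autoImplicit false

namespace Cfsg.Agent.Helper24

open Cfsg Cfsg.Agent.Helper25 Cfsg.Agent.Helper7 Cfsg.Agent.Helper2

universe u

variable {G : Type u} [Group G] {p : ℕ} {M : Ideal AlgInt}

theorem secA [Finite G] [Fact p.Prime] (hM : IsPModular p M) (z : G) (k : ℕ)
    (hk : orderOf z = p ^ k) (b : Set (IrrCharacter (Subgroup.centralizer ({z} : Set G))))
    (hb : IsPBlock M b) (y : Subgroup.centralizer ({z} : Set G)) (hy : ¬ p ∣ orderOf y) :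
    ∑ ζ : IrrCharacter G,
        blockPart b (fun c : Subgroup.centralizer ({z} : Set G) => (ζ : G → ℂ) (z * (c : G))) y
          * starRingEnd ℂ ((ζ : G → ℂ) (z * (y : G)))
      = ∑ χ ∈ (Set.toFinite b).toFinset,
        (χ : Subgroup.centralizer ({z} : Set G) → ℂ) y *
          starRingEnd ℂ ((χ : Subgroup.centralizer ({z} : Set G) → ℂ) y) := by
  classical
  have hp := hM.1
  haveI := Fintype.ofFinite G
  haveI := Fintype.ofFinite (Subgroup.centralizer ({z} : Set G))
  have hcomm : ∀ c : Subgroup.centralizer ({z} : Set G), z * (c : G) = (c : G) * z :=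
    fun c => Subgroup.mem_centralizer_iff.mp c.2 z (Set.mem_singleton z)
  have hyG : ¬ p ∣ orderOf (y : G) := by rwa [Subgroup.orderOf_coe]
  obtain ⟨Kb, hKb⟩ : ∃ Kb : Subgroup.centralizer ({z} : Set G) → ℂ, Kb = fun c =>
      ∑ χ ∈ (Set.toFinite (b)).toFinset,
        (χ : Subgroup.centralizer ({z} : Set G) → ℂ) y *
          (χ : Subgroup.centralizer ({z} : Set G) → ℂ) c⁻¹ := ⟨_, rfl⟩
  have hKby : Kb y
      = ∑ χ ∈ (Set.toFinite (b)).toFinset,
        (χ : Subgroup.centralizer ({z} : Set G) → ℂ) y *
          starRingEnd ℂ ((χ : Subgroup.centralizer ({z} : Set G) → ℂ) y) := by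
    rw [hKb]
    apply Finset.sum_congr rfl
    intro χ _
    rw [irr_inv]
  rw [← hKby]
  have claim2 : ∀ ϑ : Subgroup.centralizer ({z} : Set G) → ℂ,
      blockPart (b) ϑ y
        = (Nat.card (Subgroup.centralizer ({z} : Set G)) : ℂ)⁻¹ *
          ∑ c : Subgroup.centralizer ({z} : Set G), ϑ c * Kb c := by
    intro ϑ
    rw [blockPart_eq_sum', finsum_eq_sum_of_fintype, hKb]
  have claim4 : ∀ c : Subgroup.centralizer ({z} : Set G),
      Kb c * (if IsConj (z * (c : G)) (z * (y : G))
        then (Nat.card (Subgroup.centralizer ({z * (y : G)} : Set G)) : ℂ) else 0)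
      = if IsConj y c then Kb y *
          (Nat.card (Subgroup.centralizer ({y} : Set (Subgroup.centralizer ({z} : Set G)))) : ℂ)
        else 0 := by
    intro c
    by_cases hc : p ∣ orderOf c
    · have h0 : Kb c = 0 := by
        rw [hKb]
        exact weak_block_orth hM hb y c hy hc
      have hnc : ¬ IsConj y c := by
        intro h
        obtain ⟨t, ht⟩ := isConj_iff.mp h
        apply hy
        rw [← ht, orderOf_conj_eq] at hc
        exact hc
      rw [h0, zero_mul, if_neg hnc]
    · have hcG : ¬ p ∣ orderOf (c : G) := by rwa [Subgroup.orderOf_coe]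
      have hiff : IsConj (z * (c : G)) (z * (y : G)) ↔ IsConj y c := by
        constructor
        · intro h
          obtain ⟨s, hs⟩ := isConj_iff.mp h
          obtain ⟨h1, h2⟩ := conj_eq_of_conj_section hp hk (hcomm c) (hcomm y) hcG hyG hs
          have hsH : s ∈ Subgroup.centralizer ({z} : Set G) := by
            rw [Subgroup.mem_centralizer_iff]
            intro w hw
            rw [Set.mem_singleton_iff.mp hw]
            calc z * s = s * z * s⁻¹ * s := by rw [h1]
              _ = s * z := by group
          have h3 : IsConj c y := isConj_iff.mpr ⟨⟨s, hsH⟩, Subtype.ext h2⟩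
          exact h3.symm
        · intro h
          obtain ⟨t, ht⟩ := isConj_iff.mp h.symm
          have ht' : (t : G) * (c : G) * (t : G)⁻¹ = (y : G) :=
            congrArg (Subtype.val : Subgroup.centralizer ({z} : Set G) → G) ht
          refine isConj_iff.mpr ⟨(t : G), ?_⟩
          rw [← ht']
          have e : (t : G) * (z * (c : G)) * (t : G)⁻¹
              = (t : G) * z * ((c : G) * (t : G)⁻¹) := by group
          rw [e, ← hcomm t]
          group
      by_cases hyc : IsConj y c
      · rw [if_pos (hiff.mpr hyc), if_pos hyc]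
        have e1 : Kb c = Kb y := by
          obtain ⟨t, ht⟩ := isConj_iff.mp hyc
          rw [hKb]
          beta_reduce
          apply Finset.sum_congr rfl
          intro χ _
          have e9 : c⁻¹ = t * y⁻¹ * t⁻¹ := by rw [← ht]; group
          rw [e9, irr_conj]
        have e2 : Nat.card (Subgroup.centralizer ({z * (y : G)} : Set G))
            = Nat.card (Subgroup.centralizer ({y} : Set (Subgroup.centralizer ({z} : Set G)))) := by
          have e3 : (Subgroup.centralizer ({y} : Set (Subgroup.centralizer ({z} : Set G)))).map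
              (Subgroup.centralizer ({z} : Set G)).subtype
              = Subgroup.centralizer ({z * (y : G)} : Set G) := by
            ext g
            constructor
            · intro hg
              obtain ⟨g', hg', rfl⟩ := Subgroup.mem_map.mp hg
              rw [Subgroup.mem_centralizer_iff]
              intro w hw
              rw [Set.mem_singleton_iff.mp hw]
              have h1 := Subgroup.mem_centralizer_iff.mp hg' y rfl
              have h2 : (y : G) * (g' : G) = (g' : G) * (y : G) :=
                congrArg (Subtype.val : Subgroup.centralizer ({z} : Set G) → G) h1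
              show z * (y : G) * (g' : G) = (g' : G) * (z * (y : G))
              rw [mul_assoc, h2, ← mul_assoc, hcomm g', mul_assoc]
            · intro hg
              have h1 := Subgroup.mem_centralizer_iff.mp hg (z * (y : G)) rfl
              have h2 : g * (z * (y : G)) * g⁻¹ = z * (y : G) := by
                rw [← h1, mul_inv_cancel_right]
              obtain ⟨h3, h4⟩ := conj_eq_of_conj_section hp hk (hcomm y) (hcomm y) hyG hyG h2
              have hgH : g ∈ Subgroup.centralizer ({z} : Set G) := by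
                rw [Subgroup.mem_centralizer_iff]
                intro w hw
                rw [Set.mem_singleton_iff.mp hw]
                calc z * g = g * z * g⁻¹ * g := by rw [h3]
                  _ = g * z := by group
              refine Subgroup.mem_map.mpr ⟨⟨g, hgH⟩, ?_, rfl⟩
              rw [Subgroup.mem_centralizer_iff]
              intro w hw
              rw [Set.mem_singleton_iff.mp hw]
              apply Subtype.ext
              show (y : G) * g = g * (y : G)
              calc (y : G) * g = g * (y : G) * g⁻¹ * g := by rw [h4]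
                _ = g * (y : G) := by group
          rw [← e3]
          exact Subgroup.card_map_of_injective (Subgroup.subtype_injective _)
        rw [e1, e2]
      · rw [if_neg (fun h => hyc (hiff.mp h)), if_neg hyc, mul_zero]
  have e2 : ∀ ζ : IrrCharacter G,
      blockPart (b)
          (fun c : Subgroup.centralizer ({z} : Set G) => (ζ : G → ℂ) (z * (c : G))) y
          * starRingEnd ℂ ((ζ : G → ℂ) (z * (y : G)))
        = ∑ c : Subgroup.centralizer ({z} : Set G),
          (Nat.card (Subgroup.centralizer ({z} : Set G)) : ℂ)⁻¹ * (Kb c *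
            ((ζ : G → ℂ) (z * (c : G)) * (ζ : G → ℂ) (z * (y : G))⁻¹)) := by
    intro ζ
    rw [claim2, Finset.mul_sum, Finset.sum_mul]
    apply Finset.sum_congr rfl
    intro c _
    rw [irr_inv]
    ring
  rw [Finset.sum_congr rfl (fun ζ _ => e2 ζ), Finset.sum_comm]
  have e3 : ∀ c : Subgroup.centralizer ({z} : Set G),
      ∑ ζ : IrrCharacter G, (Nat.card (Subgroup.centralizer ({z} : Set G)) : ℂ)⁻¹ * (Kb c *
            ((ζ : G → ℂ) (z * (c : G)) * (ζ : G → ℂ) (z * (y : G))⁻¹))
        = (Nat.card (Subgroup.centralizer ({z} : Set G)) : ℂ)⁻¹ *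
          (if IsConj y c then Kb y *
          (Nat.card (Subgroup.centralizer ({y} : Set (Subgroup.centralizer ({z} : Set G)))) : ℂ)
          else 0) := by
    intro c
    rw [← Finset.mul_sum, ← Finset.mul_sum, second_orthogonality]
    congr 1
    rw [← claim4 c]
  rw [Finset.sum_congr rfl (fun c _ => e3 c), ← Finset.mul_sum, ← Finset.sum_filter,
    Finset.sum_const, nsmul_eq_mul]
  have hcard : ((Finset.univ.filter (fun c : Subgroup.centralizer ({z} : Set G) =>
      IsConj y c)).card : ℂ) *
      (Nat.card (Subgroup.centralizer ({y} : Set (Subgroup.centralizer ({z} : Set G)))) : ℂ)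
      = (Nat.card (Subgroup.centralizer ({z} : Set G)) : ℂ) := by
    have h1 : (Finset.univ.filter (fun c : Subgroup.centralizer ({z} : Set G) =>
        IsConj y c)).card = Nat.card {x : Subgroup.centralizer ({z} : Set G) // IsConj y x} := by
      rw [Nat.card_eq_fintype_card, Fintype.card_subtype]
    rw [h1, ← Nat.cast_mul, card_class_mul_card_centralizer]
  have hne : (Nat.card (Subgroup.centralizer ({z} : Set G)) : ℂ) ≠ 0 :=
    Nat.cast_ne_zero.mpr Nat.card_pos.ne'
  calc (Nat.card (Subgroup.centralizer ({z} : Set G)) : ℂ)⁻¹ *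
        (((Finset.univ.filter (fun c : Subgroup.centralizer ({z} : Set G) =>
          IsConj y c)).card : ℂ) * (Kb y *
          (Nat.card (Subgroup.centralizer ({y} : Set (Subgroup.centralizer ({z} : Set G)))) : ℂ)))
      = (Nat.card (Subgroup.centralizer ({z} : Set G)) : ℂ)⁻¹ *
        ((((Finset.univ.filter (fun c : Subgroup.centralizer ({z} : Set G) =>
          IsConj y c)).card : ℂ) *
          (Nat.card (Subgroup.centralizer ({y} : Set (Subgroup.centralizer ({z} : Set G)))) : ℂ))
          * Kb y) := by ring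
    _ = Kb y := by rw [hcard, ← mul_assoc, inv_mul_cancel₀ hne, one_mul]


/-- The block parts of a class function add up to the function. -/
theorem sum_allBlocks_blockPart [Finite G] (hM : IsPModular p M) (ϑ : G → ℂ)
    (hϑcl : ∀ g t : G, ϑ (t * g * t⁻¹) = ϑ g) (y : G) :
    ∑ b ∈ allBlocks M G, blockPart b ϑ y = ϑ y := by
  classical
  haveI := Fintype.ofFinite G
  have h2 : ∀ b ∈ allBlocks M G, blockPart b ϑ y = ∑ c : G, blockCoeff b c * ϑ (c * y) := by
    intro b _
    rw [blockPart_eq_sum_blockCoeff b ϑ hϑcl, finsum_eq_sum_of_fintype]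
  have h3 : ∀ c : G, ∑ b ∈ allBlocks M G, blockCoeff b c * ϑ (c * y) =
      if c = 1 then ϑ y else 0 := by
    intro c
    rw [← Finset.sum_mul, sum_allBlocks_blockCoeff hM]
    by_cases hc : c = 1
    · rw [if_pos hc, if_pos hc, one_mul, hc, one_mul]
    · rw [if_neg hc, if_neg hc, zero_mul]
  rw [Finset.sum_congr rfl h2, Finset.sum_comm, Finset.sum_congr rfl (fun c _ => h3 c),
    Finset.sum_eq_single 1]
  · rw [if_pos rfl]
  · intro c _ hc
    rw [if_neg hc]
  · intro h
    exact absurd (Finset.mem_univ _) h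

open Classical in
/-- Block-wise column orthogonality on a `p`-section:
`∑_{ζ ∈ B} |ζ(z y)|² = ∑_{b, b^G = B} ∑_{χ ∈ b} |χ(y)|²`. -/
theorem secB [Finite G] [Fact p.Prime] (hM : IsPModular p M) (z : G) (k : ℕ)
    (hk : orderOf z = p ^ k) (B : Set (IrrCharacter G)) (hB : IsPBlock M B)
    (y : Subgroup.centralizer ({z} : Set G)) (hy : ¬ p ∣ orderOf y) :
    ∑ ζ ∈ (Set.toFinite B).toFinset,
        (ζ : G → ℂ) (z * (y : G)) * starRingEnd ℂ ((ζ : G → ℂ) (z * (y : G)))
      = ∑ b ∈ (allBlocks M (Subgroup.centralizer ({z} : Set G))).filter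
          (fun b => IsInducedBlock M (Subgroup.centralizer ({z} : Set G)) b B),
          ∑ χ ∈ (Set.toFinite b).toFinset,
            (χ : Subgroup.centralizer ({z} : Set G) → ℂ) y *
              starRingEnd ℂ ((χ : Subgroup.centralizer ({z} : Set G) → ℂ) y) := by
  haveI := Fintype.ofFinite G
  haveI := Fintype.ofFinite (Subgroup.centralizer ({z} : Set G))
  have hcomm : ∀ c : Subgroup.centralizer ({z} : Set G), z * (c : G) = (c : G) * z :=
    fun c => Subgroup.mem_centralizer_iff.mp c.2 z (Set.mem_singleton z)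
  have hϑcl : ∀ (ζ : IrrCharacter G) (g t : Subgroup.centralizer ({z} : Set G)),
      (ζ : G → ℂ) (z * ((t * g * t⁻¹ : Subgroup.centralizer ({z} : Set G)) : G)) =
        (ζ : G → ℂ) (z * (g : G)) := by
    intro ζ g t
    show (ζ : G → ℂ) (z * ((t : G) * (g : G) * (t : G)⁻¹)) = (ζ : G → ℂ) (z * (g : G))
    have e : z * ((t : G) * (g : G) * (t : G)⁻¹) = (t : G) * (z * (g : G)) * (t : G)⁻¹ := by
      rw [← mul_assoc, ← mul_assoc, hcomm t]
      group
    rw [e, irr_conj]
  have hall : ∀ ζ : IrrCharacter G,
      ∑ b ∈ allBlocks M (Subgroup.centralizer ({z} : Set G)),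
        blockPart b (fun c : Subgroup.centralizer ({z} : Set G) => (ζ : G → ℂ) (z * (c : G))) y
        = (ζ : G → ℂ) (z * (y : G)) := fun ζ =>
    sum_allBlocks_blockPart hM
      (fun c : Subgroup.centralizer ({z} : Set G) => (ζ : G → ℂ) (z * (c : G))) (hϑcl ζ) y
  have hfilt : ∀ ζ ∈ B, (ζ : G → ℂ) (z * (y : G)) =
      ∑ b ∈ (allBlocks M (Subgroup.centralizer ({z} : Set G))).filter
          (fun b => IsInducedBlock M (Subgroup.centralizer ({z} : Set G)) b B),
        blockPart b (fun c : Subgroup.centralizer ({z} : Set G) => (ζ : G → ℂ) (z * (c : G))) y := by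
    intro ζ hζ
    rw [← hall ζ, Finset.sum_filter]
    refine Finset.sum_congr rfl (fun b hb => ?_)
    split_ifs with h
    · rfl
    · exact blockPart_section_eq_zero hM z k hk hB hζ (mem_allBlocks.mp hb) h y hy
  have hout : ∀ b, IsInducedBlock M (Subgroup.centralizer ({z} : Set G)) b B →
      ∀ ζ : IrrCharacter G, ζ ∉ B →
      blockPart b (fun c : Subgroup.centralizer ({z} : Set G) => (ζ : G → ℂ) (z * (c : G))) y
        = 0 := by
    intro b hb ζ hζ
    apply blockPart_section_eq_zero hM z k hk (isPBlock_blockOf ζ) (self_mem_blockOf hM ζ) hb.1 _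
      y hy
    intro hind
    have := isInducedBlock_unique hM _ hb hind
    exact hζ (this ▸ self_mem_blockOf hM ζ)
  calc ∑ ζ ∈ (Set.toFinite B).toFinset,
        (ζ : G → ℂ) (z * (y : G)) * starRingEnd ℂ ((ζ : G → ℂ) (z * (y : G)))
      = ∑ ζ ∈ (Set.toFinite B).toFinset,
          ∑ b ∈ (allBlocks M (Subgroup.centralizer ({z} : Set G))).filter
            (fun b => IsInducedBlock M (Subgroup.centralizer ({z} : Set G)) b B),
          blockPart b (fun c : Subgroup.centralizer ({z} : Set G) => (ζ : G → ℂ) (z * (c : G))) y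
            * starRingEnd ℂ ((ζ : G → ℂ) (z * (y : G))) := by
        refine Finset.sum_congr rfl (fun ζ hζ => ?_)
        rw [← Finset.sum_mul, ← hfilt ζ ((Set.Finite.mem_toFinset _).mp hζ)]
    _ = ∑ b ∈ (allBlocks M (Subgroup.centralizer ({z} : Set G))).filter
            (fun b => IsInducedBlock M (Subgroup.centralizer ({z} : Set G)) b B),
          ∑ ζ ∈ (Set.toFinite B).toFinset,
          blockPart b (fun c : Subgroup.centralizer ({z} : Set G) => (ζ : G → ℂ) (z * (c : G))) y
            * starRingEnd ℂ ((ζ : G → ℂ) (z * (y : G))) := Finset.sum_comm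
    _ = ∑ b ∈ (allBlocks M (Subgroup.centralizer ({z} : Set G))).filter
            (fun b => IsInducedBlock M (Subgroup.centralizer ({z} : Set G)) b B),
          ∑ ζ : IrrCharacter G,
          blockPart b (fun c : Subgroup.centralizer ({z} : Set G) => (ζ : G → ℂ) (z * (c : G))) y
            * starRingEnd ℂ ((ζ : G → ℂ) (z * (y : G))) := by
        refine Finset.sum_congr rfl (fun b hb => ?_)
        apply Finset.sum_subset (Finset.subset_univ _)
        intro ζ _ hζ
        rw [hout b (Finset.mem_filter.mp hb).2 ζ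
          (fun h => hζ ((Set.Finite.mem_toFinset _).mpr h)), zero_mul]
    _ = _ := by
        refine Finset.sum_congr rfl (fun b hb => ?_)
        exact secA hM z k hk b (mem_allBlocks.mp (Finset.mem_filter.mp hb).1) y hy

open Classical in
/-- The elements with `p`-part `x` are the `x y` with `y ∈ C_G(x)` `p`-regular. -/
theorem sum_isPPart_eq [Fintype G] (x : G) (k : ℕ) (hk : orderOf x = p ^ k) (F : G → ℂ) :
    ∑ g : G, (if IsPPart p g x then F g else 0) =
      ∑ᶠ y : Subgroup.centralizer ({x} : Set G),
        regInd p (Subgroup.centralizer ({x} : Set G)) y * F (x * (y : G)) := by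
  haveI := Fintype.ofFinite (Subgroup.centralizer ({x} : Set G))
  rw [finsum_eq_sum_of_fintype, ← Finset.sum_filter]
  have hR : ∑ y : Subgroup.centralizer ({x} : Set G),
      regInd p (Subgroup.centralizer ({x} : Set G)) y * F (x * (y : G)) =
      ∑ y ∈ Finset.univ.filter (fun y : Subgroup.centralizer ({x} : Set G) => ¬ p ∣ orderOf y),
        F (x * (y : G)) := by
    rw [Finset.sum_filter]
    refine Finset.sum_congr rfl (fun y _ => ?_)
    by_cases h : p ∣ orderOf y
    · rw [regInd_sing h, if_neg (not_not.mpr h), zero_mul]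
    · rw [regInd_reg h, if_pos h, one_mul]
  rw [hR]
  symm
  refine Finset.sum_bij (fun y _ => x * (y : G)) ?_ ?_ ?_ ?_
  · intro y hy
    simp only [Finset.mem_filter, Finset.mem_univ, true_and] at hy ⊢
    exact ⟨(y : G), rfl, (Subgroup.mem_centralizer_singleton_iff.mp y.2).symm, ⟨k, hk⟩,
      by rwa [Subgroup.orderOf_coe]⟩
  · intro a _ b _ h
    exact Subtype.ext (mul_left_cancel h)
  · intro g hg
    simp only [Finset.mem_filter, Finset.mem_univ, true_and] at hg
    obtain ⟨y₁, h1, h2, -, h4⟩ := hg
    refine ⟨⟨y₁, Subgroup.mem_centralizer_singleton_iff.mpr h2.eq.symm⟩, ?_, h1⟩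
    simp only [Finset.mem_filter, Finset.mem_univ, true_and]
    rw [← Subgroup.orderOf_coe]
    exact h4
  · intro y _
    rfl

open Classical in
theorem card_conj_to [Fintype G] (x π : G) :
    ((Finset.univ.filter (fun t : G => t * x * t⁻¹ = π)).card : ℂ) =
      if IsConj π x then (Nat.card (Subgroup.centralizer ({x} : Set G)) : ℂ) else 0 := by
  split_ifs with h
  · obtain ⟨c, hc⟩ := isConj_iff.mp h
    have e : {t : G // t * x * t⁻¹ = π} ≃ Subgroup.centralizer ({x} : Set G) :=
      { toFun := fun t => ⟨c * t.1, by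
          rw [Subgroup.mem_centralizer_singleton_iff]
          have h1 : c * t.1 * x * (c * t.1)⁻¹ = x := by
            calc c * t.1 * x * (c * t.1)⁻¹ = c * (t.1 * x * t.1⁻¹) * c⁻¹ := by group
              _ = x := by rw [t.2, hc]
          calc c * t.1 * x = c * t.1 * x * (c * t.1)⁻¹ * (c * t.1) := by group
            _ = x * (c * t.1) := by rw [h1]⟩
        invFun := fun s => ⟨c⁻¹ * s.1, by
          have h1 : s.1 * x = x * s.1 := Subgroup.mem_centralizer_singleton_iff.mp s.2
          calc c⁻¹ * s.1 * x * (c⁻¹ * s.1)⁻¹ = c⁻¹ * (s.1 * x) * s.1⁻¹ * c := by group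
            _ = c⁻¹ * (x * s.1) * s.1⁻¹ * c := by rw [h1]
            _ = c⁻¹ * x * c := by group
            _ = π := by rw [← hc]; group⟩
        left_inv := fun t => Subtype.ext (by simp)
        right_inv := fun s => Subtype.ext (by simp) }
    rw [← Nat.card_congr e, Nat.card_eq_fintype_card, Fintype.card_subtype]
  · have : Finset.univ.filter (fun t : G => t * x * t⁻¹ = π) = ∅ := by
      apply Finset.filter_eq_empty_iff.mpr
      intro t _ ht
      exact h (isConj_iff.mpr ⟨t⁻¹, by rw [← ht]; group⟩)
    rw [this, Finset.card_empty, Nat.cast_zero]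

open Classical in
/-- Decomposition of the sum of a class function along the `p`-sections. -/
theorem sum_sections [Fintype G] [hp : Fact p.Prime] (X : Finset G)
    (hX : ∀ x ∈ X, ∃ k : ℕ, orderOf x = p ^ k)
    (hXrep : ∀ g : G, (∃ k : ℕ, orderOf g = p ^ k) → ∃! x, x ∈ X ∧ IsConj g x)
    (F : G → ℂ) (hF : ∀ g t : G, F (t * g * t⁻¹) = F g) :
    ∑ g : G, F g = ∑ x ∈ X, (Nat.card G : ℂ) *
      (Nat.card (Subgroup.centralizer ({x} : Set G)) : ℂ)⁻¹ *
      ∑ᶠ y : Subgroup.centralizer ({x} : Set G),
        regInd p (Subgroup.centralizer ({x} : Set G)) y * F (x * (y : G)) := by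
  have hw : ∀ g : G, ∑ x ∈ X, (Nat.card (Subgroup.centralizer ({x} : Set G)) : ℂ)⁻¹ *
      ∑ t : G, (if IsPPart p (t⁻¹ * g * t) x then (1 : ℂ) else 0) = 1 := by
    intro g
    obtain ⟨π, hπ⟩ := exists_isPPart hp.out g
    have hπp : ∃ k, orderOf π = p ^ k := by
      obtain ⟨y₁, -, -, h3, -⟩ := hπ
      exact h3
    obtain ⟨x₀, ⟨hx₀X, hx₀c⟩, hx₀u⟩ := hXrep π hπp
    have hiff : ∀ (x t : G), IsPPart p (t⁻¹ * g * t) x ↔ t * x * t⁻¹ = π := by
      intro x t
      constructor
      · intro h
        have h1 := isPPart_conj h t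
        have e : t * (t⁻¹ * g * t) * t⁻¹ = g := by group
        rw [e] at h1
        exact isPPart_unique hp.out h1 hπ
      · intro h
        have h1 := isPPart_conj hπ t⁻¹
        rw [← h] at h1
        have e : t⁻¹ * (t * x * t⁻¹) * t⁻¹⁻¹ = x := by group
        rw [e, inv_inv] at h1
        exact h1
    have hcount : ∀ x : G, ∑ t : G, (if IsPPart p (t⁻¹ * g * t) x then (1 : ℂ) else 0) =
        if IsConj π x then (Nat.card (Subgroup.centralizer ({x} : Set G)) : ℂ) else 0 := by
      intro x
      rw [Finset.sum_boole, ← card_conj_to x π]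
      congr 2
      ext t
      simp only [Finset.mem_filter, Finset.mem_univ, true_and]
      exact hiff x t
    rw [Finset.sum_eq_single x₀]
    · rw [hcount, if_pos hx₀c, inv_mul_cancel₀]
      exact Nat.cast_ne_zero.mpr Nat.card_pos.ne'
    · intro x hx hne
      rw [hcount, if_neg, mul_zero]
      intro hc
      exact hne (hx₀u x ⟨hx, hc⟩)
    · intro h
      exact absurd hx₀X h
  have hA : ∀ (x t : G), ∑ g : G, (if IsPPart p (t⁻¹ * g * t) x then F g else 0) =
      ∑ g : G, (if IsPPart p g x then F g else 0) := by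
    intro x t
    rw [← Equiv.sum_comp (MulAut.conj t).toEquiv
      (fun g => if IsPPart p (t⁻¹ * g * t) x then F g else 0)]
    refine Finset.sum_congr rfl (fun g _ => ?_)
    show (if IsPPart p (t⁻¹ * (t * g * t⁻¹) * t) x then F (t * g * t⁻¹) else 0) = _
    have e : t⁻¹ * (t * g * t⁻¹) * t = g := by group
    rw [e, hF]
  have hswap : ∀ x : G, (Nat.card (Subgroup.centralizer ({x} : Set G)) : ℂ)⁻¹ *
      ∑ t : G, ∑ g : G, (if IsPPart p (t⁻¹ * g * t) x then F g else 0) =
      ∑ g : G, F g * ((Nat.card (Subgroup.centralizer ({x} : Set G)) : ℂ)⁻¹ *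
        ∑ t : G, (if IsPPart p (t⁻¹ * g * t) x then (1 : ℂ) else 0)) := by
    intro x
    rw [Finset.sum_comm, Finset.mul_sum]
    refine Finset.sum_congr rfl (fun g _ => ?_)
    have : ∀ t : G, (if IsPPart p (t⁻¹ * g * t) x then F g else 0) =
        F g * (if IsPPart p (t⁻¹ * g * t) x then (1 : ℂ) else 0) := by
      intro t
      split_ifs <;> simp
    rw [Finset.sum_congr rfl (fun t _ => this t), ← Finset.mul_sum]
    ring
  calc ∑ g : G, F g
      = ∑ g : G, ∑ x ∈ X, F g * ((Nat.card (Subgroup.centralizer ({x} : Set G)) : ℂ)⁻¹ *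
          ∑ t : G, (if IsPPart p (t⁻¹ * g * t) x then (1 : ℂ) else 0)) := by
        refine Finset.sum_congr rfl (fun g _ => ?_)
        rw [← Finset.mul_sum, hw g, mul_one]
    _ = ∑ x ∈ X, ∑ g : G, F g * ((Nat.card (Subgroup.centralizer ({x} : Set G)) : ℂ)⁻¹ *
          ∑ t : G, (if IsPPart p (t⁻¹ * g * t) x then (1 : ℂ) else 0)) := Finset.sum_comm
    _ = _ := by
        refine Finset.sum_congr rfl (fun x hx => ?_)
        obtain ⟨k, hk⟩ := hX x hx
        have hcG : (Fintype.card G : ℂ) = (Nat.card G : ℂ) := by rw [Nat.card_eq_fintype_card]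
        rw [← hswap x, Finset.sum_congr rfl (fun t _ => hA x t), Finset.sum_const,
          Finset.card_univ, nsmul_eq_mul, sum_isPPart_eq x k hk F, hcG]
        ring

end Cfsg.Agent.Helper24
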