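import Mathlib
import Cfsg.Agent.Helper24.FullyRam
import Cfsg.Agent.Helper2.CosetAvg
import Cfsg.Agent.Helper25.CharMore

/-!
# Coset averages and a conjugate-counting inequality (helper24)

* `tc_sum_subgroup`: a sum over a group of a function vanishing off a subgroup (any target).
* `tc_cosetAvg_mul_left`: the coset average is constant on left cosets.
* `tc_cosetB`: for a character `Φ` of `M`, `K ⊴ M` not in its kernel:
  `∑ |Φ - cosetAvg K Φ|² = t |M|` with `t ≥ 1`.
* `tc_count`: if `D g` and `D (x⁻¹ g x)` force `x ∈ N`, then `|G| ∑_D f ≤ |N| ∑_{G∖Z} f` for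
  nonnegative class functions `f`.
* `tc_abel_norm`: for a character `B` of degree `n` of an abelian group `Q`,
  `∑ |B|² = |Q| s` with `n ≤ s`.
-/

set_option autoImplicit false

namespace Cfsg.Agent.Helper24

open Cfsg Cfsg.Agent.Helper26
open scoped ComplexConjugate

universe u

theorem tc_sum_subgroup {X : Type u} [Group X] [Fintype X] (K : Subgroup X) [Fintype K]
    {A : Type*} [AddCommMonoid A] (F : X → A) (hF : ∀ x, x ∉ K → F x = 0) :
    ∑ x : X, F x = ∑ k : K, F k := by
  classical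
  rw [← Finset.sum_subset (Finset.subset_univ (Finset.univ.filter (fun x : X => x ∈ K)))
    (fun x _ hx => hF x (by simpa using hx))]
  exact Finset.sum_subtype (Finset.univ.filter (· ∈ K)) (p := (· ∈ K)) (by simp) F

theorem tc_cosetAvg_mul_left {X : Type u} [Group X] [Fintype X] (K : Subgroup X) (Φ : X → ℂ)
    {k : X} (hk : k ∈ K) (g : X) :
    Helper2.cosetAvg K Φ (k * g) = Helper2.cosetAvg K Φ g := by
  classical
  rw [Helper2.cosetAvg_apply, Helper2.cosetAvg_apply]
  congr 1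
  symm
  refine Fintype.sum_equiv (Equiv.mulRight k⁻¹) _ _ (fun x => ?_)
  show (if x ∈ K then Φ (x * g) else 0) = if x * k⁻¹ ∈ K then Φ (x * k⁻¹ * (k * g)) else 0
  have hiff : x * k⁻¹ ∈ K ↔ x ∈ K :=
    ⟨fun h => by simpa using K.mul_mem h hk, fun h => K.mul_mem h (K.inv_mem hk)⟩
  by_cases hx : x ∈ K
  · rw [if_pos hx, if_pos (hiff.mpr hx)]
    congr 1
    group
  · rw [if_neg hx, if_neg (fun h => hx (hiff.mp h))]

theorem tc_cosetB {M : Type u} [Group M] [Fintype M] (K : Subgroup M) [K.Normal] (Φ : M → ℂ)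
    (hΦ : IsCharacter M Φ) (hk : ∃ k ∈ K, Φ k ≠ Φ 1) :
    ∃ t : ℕ, 1 ≤ t ∧ ∑ m : M, (Φ m - Helper2.cosetAvg K Φ m) *
      conj (Φ m - Helper2.cosetAvg K Φ m) = (t : ℂ) * (Nat.card M : ℂ) := by
  classical
  have hM0 : (Nat.card M : ℂ) ≠ 0 := Nat.cast_ne_zero.mpr Nat.card_pos.ne'
  choose a ha using fun φ : IrrCharacter M =>
    Helper2.classInner_char_nat hΦ (Helper25.irr_isCharacter φ)
  have hexp := Helper2.classFun_eq_sum_classInner (Helper2.isClassFunction_of_isCharacter hΦ)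
  have hexp' : ∀ m : M, Φ m = ∑ φ : IrrCharacter M, (a φ : ℂ) * (φ : M → ℂ) m := by
    intro m
    have h3 := congrFun hexp m
    simp only [Finset.sum_apply, Pi.smul_apply, smul_eq_mul] at h3
    rw [h3]
    exact Finset.sum_congr rfl (fun φ _ => by rw [ha φ])
  have h1 : ∀ m : M, Helper2.cosetAvg K Φ m = ∑ φ : IrrCharacter M,
      ((if K ≤ Helper25.irrKer φ then a φ else 0 : ℕ) : ℂ) * (φ : M → ℂ) m := by
    intro m
    rw [Helper2.cosetAvg_apply]
    have h2 : ∀ x : M, (if x ∈ K then Φ (x * m) else 0)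
        = ∑ φ : IrrCharacter M, (a φ : ℂ) * (if x ∈ K then (φ : M → ℂ) (x * m) else 0) := by
      intro x
      by_cases hx : x ∈ K
      · simp only [if_pos hx]
        exact hexp' (x * m)
      · simp only [if_neg hx, mul_zero, Finset.sum_const_zero]
    rw [Finset.sum_congr rfl (fun x _ => h2 x), Finset.sum_comm, Finset.mul_sum]
    apply Finset.sum_congr rfl
    intro φ _
    rw [← Finset.mul_sum]
    have h4 := congrFun (Helper2.cosetAvg_irr φ K) m
    rw [Helper2.cosetAvg_apply] at h4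
    by_cases hφ : K ≤ Helper25.irrKer φ
    · rw [if_pos hφ] at h4
      rw [if_pos hφ, mul_left_comm, h4]
    · rw [if_neg hφ] at h4
      rw [if_neg hφ, mul_left_comm, h4]
      simp
  obtain ⟨b, hb⟩ : ∃ b : IrrCharacter M → ℕ, ∀ φ, b φ = if K ≤ Helper25.irrKer φ then 0 else a φ :=
    ⟨_, fun _ => rfl⟩
  obtain ⟨η, hη⟩ : ∃ η : M → ℂ, η = fun m => Φ m - Helper2.cosetAvg K Φ m := ⟨_, rfl⟩
  have h2 : η = ∑ φ : IrrCharacter M, (b φ : ℂ) • (φ : M → ℂ) := by
    funext m
    rw [hη]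
    simp only [Finset.sum_apply, Pi.smul_apply, smul_eq_mul]
    rw [hexp' m, h1 m, ← Finset.sum_sub_distrib]
    apply Finset.sum_congr rfl
    intro φ _
    rw [hb φ]
    by_cases hφ : K ≤ Helper25.irrKer φ
    · rw [if_pos hφ, if_pos hφ]
      simp
    · rw [if_neg hφ, if_neg hφ]
      simp
  have h3 : ∀ φ' : IrrCharacter M, classInner η (φ' : M → ℂ) = b φ' := by
    intro φ'
    rw [h2, Helper2.classInner_sum_left,
      Finset.sum_congr rfl (fun φ _ => by
        rw [Helper2.classInner_smul_left, Helper25.irr_classInner φ φ']),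
      Finset.sum_eq_single φ']
    · rw [if_pos rfl, mul_one]
    · intro φ _ hne
      rw [if_neg hne, mul_zero]
    · intro h0
      exact absurd (Finset.mem_univ _) h0
  have h4 : classInner η η = ∑ φ : IrrCharacter M, ((b φ : ℂ)) ^ 2 := by
    have h5 : classInner η η
        = classInner (∑ φ : IrrCharacter M, (b φ : ℂ) • (φ : M → ℂ)) η := by rw [← h2]
    rw [h5, Helper2.classInner_sum_left]
    apply Finset.sum_congr rfl
    intro φ _
    rw [Helper2.classInner_smul_left, Helper2.classInner_conj_symm η (φ : M → ℂ), h3 φ,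
      Complex.conj_natCast]
    ring
  have h6 : ∃ φ, b φ ≠ 0 := by
    by_contra hcon
    push Not at hcon
    have h7 : η = 0 := by
      rw [h2]
      apply Finset.sum_eq_zero
      intro φ _
      rw [hcon φ]
      simp
    obtain ⟨k, hkK, hne⟩ := hk
    have e1 : Φ k = Helper2.cosetAvg K Φ k := by
      have := congrFun h7 k
      rw [hη] at this
      exact sub_eq_zero.mp this
    have e2 : Φ 1 = Helper2.cosetAvg K Φ 1 := by
      have := congrFun h7 1
      rw [hη] at this
      exact sub_eq_zero.mp this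
    have e3 : Helper2.cosetAvg K Φ k = Helper2.cosetAvg K Φ 1 := by
      have := tc_cosetAvg_mul_left K Φ hkK 1
      rw [mul_one] at this
      exact this
    exact hne (by rw [e1, e3, ← e2])
  obtain ⟨φ₀, hφ₀⟩ := h6
  refine ⟨∑ φ : IrrCharacter M, (b φ) ^ 2, ?_, ?_⟩
  · have h8 : (b φ₀) ^ 2 ≤ ∑ φ : IrrCharacter M, (b φ) ^ 2 :=
      Finset.single_le_sum (f := fun φ => (b φ) ^ 2) (fun _ _ => Nat.zero_le _)
        (Finset.mem_univ φ₀)
    have h9 : 1 ≤ (b φ₀) ^ 2 := Nat.one_le_pow _ _ (Nat.pos_of_ne_zero hφ₀)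
    omega
  · have h10 : classInner η η = (Nat.card M : ℂ)⁻¹ * ∑ m : M, η m * conj (η m) := rfl
    rw [h4] at h10
    have h11 : ∑ m : M, η m * conj (η m)
        = (Nat.card M : ℂ) * ∑ φ : IrrCharacter M, ((b φ : ℂ)) ^ 2 := by
      rw [h10, ← mul_assoc, mul_inv_cancel₀ hM0, one_mul]
    rw [hη] at h11
    rw [h11]
    push_cast
    ring

theorem tc_count {G : Type u} [Group G] [Fintype G] (N : Subgroup G) (D : G → Prop)
    [DecidablePred D] (f : G → ℝ) (hf0 : ∀ g, 0 ≤ f g) (hfc : ∀ x g : G, f (x * g * x⁻¹) = f g)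
    (hDZ : ∀ g, D g → g ∉ Subgroup.center G)
    (hDD : ∀ g x : G, D g → D (x⁻¹ * g * x) → x ∈ N) [DecidablePred (· ∈ Subgroup.center G)] :
    (Nat.card G : ℝ) * ∑ g : G, (if D g then f g else 0)
      ≤ (Nat.card N : ℝ) * ∑ g : G, (if g ∈ Subgroup.center G then 0 else f g) := by
  classical
  have h1 : ∀ x : G, ∑ g : G, (if D (x⁻¹ * g * x) then f g else 0)
      = ∑ g : G, (if D g then f g else 0) := by
    intro x
    symm
    refine Fintype.sum_equiv (MulAut.conj x).toEquiv _ _ (fun g => ?_)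
    show (if D g then f g else 0) = if D (x⁻¹ * (x * g * x⁻¹) * x) then f (x * g * x⁻¹) else 0
    rw [show x⁻¹ * (x * g * x⁻¹) * x = g by group, hfc]
  have h2 : ∑ x : G, ∑ g : G, (if D (x⁻¹ * g * x) then f g else 0)
      = (Nat.card G : ℝ) * ∑ g : G, (if D g then f g else 0) := by
    rw [Finset.sum_congr rfl (fun x _ => h1 x), Finset.sum_const, Finset.card_univ,
      nsmul_eq_mul, Nat.card_eq_fintype_card]
  rw [← h2, Finset.sum_comm, Finset.mul_sum]
  apply Finset.sum_le_sum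
  intro g _
  have hcardN : (Finset.univ.filter (fun x : G => x ∈ N)).card = Nat.card N := by
    rw [Nat.card_eq_fintype_card, Fintype.card_subtype]
  have h3 : ∑ x : G, (if D (x⁻¹ * g * x) then f g else 0)
      = ((Finset.univ.filter (fun x : G => D (x⁻¹ * g * x))).card : ℝ) * f g := by
    rw [← Finset.sum_filter, Finset.sum_const, nsmul_eq_mul]
  rw [h3]
  by_cases hg : g ∈ Subgroup.center G
  · rw [if_pos hg, mul_zero]
    have h4 : Finset.univ.filter (fun x : G => D (x⁻¹ * g * x)) = ∅ := by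
      rw [Finset.filter_eq_empty_iff]
      intro x _ hD
      apply hDZ _ hD
      have h5 : x⁻¹ * g * x = g := by
        rw [mul_assoc, ← Subgroup.mem_center_iff.mp hg x, inv_mul_cancel_left]
      rw [h5]
      exact hg
    rw [h4, Finset.card_empty, Nat.cast_zero, zero_mul]
  · rw [if_neg hg]
    apply mul_le_mul_of_nonneg_right _ (hf0 g)
    rcases (Finset.univ.filter (fun x : G => D (x⁻¹ * g * x))).eq_empty_or_nonempty with he | hne
    · rw [he, Finset.card_empty, Nat.cast_zero]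
      exact Nat.cast_nonneg _
    · obtain ⟨x₀, hx₀⟩ := hne
      have hx₀D : D (x₀⁻¹ * g * x₀) := (Finset.mem_filter.mp hx₀).2
      have h6 : (Finset.univ.filter (fun x : G => D (x⁻¹ * g * x))).card
          ≤ (Finset.univ.filter (fun x : G => x ∈ N)).card := by
        apply Finset.card_le_card_of_injOn (fun x => x₀⁻¹ * x)
        · intro x hx
          have hxD : D (x⁻¹ * g * x) := (Finset.mem_filter.mp (Finset.mem_coe.mp hx)).2
          rw [Finset.mem_coe, Finset.mem_filter]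
          refine ⟨Finset.mem_univ _, hDD (x₀⁻¹ * g * x₀) (x₀⁻¹ * x) hx₀D ?_⟩
          have h7 : (x₀⁻¹ * x)⁻¹ * (x₀⁻¹ * g * x₀) * (x₀⁻¹ * x) = x⁻¹ * g * x := by group
          rw [h7]
          exact hxD
        · intro x _ y _ hxy
          exact mul_left_cancel hxy
      rw [hcardN] at h6
      exact_mod_cast h6

theorem tc_abel_norm {Q : Type u} [Group Q] [Fintype Q] (hab : ∀ a b : Q, a * b = b * a)
    (B : Q → ℂ) (hB : IsCharacter Q B) (n : ℕ) (hn : B 1 = n) :
    ∃ s : ℕ, n ≤ s ∧ ∑ t : Q, B t * conj (B t) = (Nat.card Q : ℂ) * s := by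
  classical
  have hcardhom := Helper2.card_hom_of_comm hab
  haveI : Finite (Q →* ℂˣ) := Nat.finite_of_card_ne_zero (by rw [hcardhom]; exact Nat.card_pos.ne')
  letI : Fintype (Q →* ℂˣ) := Fintype.ofFinite _
  have hn0 : (Nat.card Q : ℂ) ≠ 0 := Nat.cast_ne_zero.mpr Nat.card_pos.ne'
  have hnat : ∀ μ : Q →* ℂˣ, ∃ k : ℕ, classInner B (fun u => ((μ u : ℂˣ) : ℂ)) = k :=
    fun μ => Helper2.classInner_char_nat hB (Helper7.isCharacter_of_hom μ)
  choose m hm using hnat
  have hsum1 : ∑ μ : Q →* ℂˣ, m μ = n := by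
    have h := cz_inversion hab B 1
    rw [hn, Finset.sum_congr rfl (fun μ _ => by rw [hm μ, map_one, Units.val_one, mul_one])] at h
    have h' : ((∑ μ : Q →* ℂˣ, m μ : ℕ) : ℂ) = (n : ℂ) := by push_cast; exact h.symm
    exact_mod_cast h'
  have hinner : ∀ μ : Q →* ℂˣ, ∑ t : Q, B t * conj ((μ t : ℂˣ) : ℂ) = (Nat.card Q : ℂ) * m μ := by
    intro μ
    have h := hm μ
    unfold classInner at h
    rw [← h, ← mul_assoc, mul_inv_cancel₀ hn0, one_mul]
  have hpars : ∑ t : Q, B t * conj (B t) = (Nat.card Q : ℂ) * ∑ μ : Q →* ℂˣ, ((m μ : ℂ)) ^ 2 := by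
    have h3 : ∀ t : Q, B t * conj (B t)
        = ∑ μ : Q →* ℂˣ, (m μ : ℂ) * (((μ t : ℂˣ) : ℂ) * conj (B t)) := by
      intro t
      have h0 := cz_inversion hab B t
      have h00 : B t * conj (B t)
          = (∑ μ : Q →* ℂˣ, classInner B (fun u => ((μ u : ℂˣ) : ℂ)) * ((μ t : ℂˣ) : ℂ)) * conj (B t) := by
        rw [← h0]
      rw [h00, Finset.sum_mul]
      apply Finset.sum_congr rfl
      intro μ _
      rw [hm μ]
      ring
    rw [Finset.sum_congr rfl (fun t _ => h3 t), Finset.sum_comm, Finset.mul_sum]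
    apply Finset.sum_congr rfl
    intro μ _
    rw [← Finset.mul_sum]
    have h4 : ∑ t : Q, ((μ t : ℂˣ) : ℂ) * conj (B t) = conj (∑ t : Q, B t * conj ((μ t : ℂˣ) : ℂ)) := by
      rw [map_sum]
      apply Finset.sum_congr rfl
      intro t _
      rw [map_mul, Complex.conj_conj, mul_comm]
    rw [h4, hinner μ, map_mul, Complex.conj_natCast, Complex.conj_natCast]
    ring
  refine ⟨∑ μ : Q →* ℂˣ, (m μ) ^ 2, ?_, ?_⟩
  · rw [← hsum1]
    apply Finset.sum_le_sum
    intro μ _
    exact Nat.le_self_pow (by norm_num) _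
  · rw [hpars]
    push_cast
    rfl

end Cfsg.Agent.Helper24
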