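import Mathlib
import Cfsg.Agent.Helper2.CharExtra
import Cfsg.Agent.Helper25.CharKer
import Cfsg.Agent.Helper25.CharMore
import Cfsg.Agent.Helper26.CycGlaub
import Cfsg.Agent.S0898

/-!
# Normal Sylow subgroups from small faithful characters (helper24)

Prefix `ns_`.  Element-wise formulation of "the Sylow `p`-subgroup is normal"
(`ns_NS`: products of `p`-elements are `p`-elements), the subgroup of `p`-elements `ns_T`,
and character-theoretic lemmas for faithful characters of small degree.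
-/

set_option autoImplicit false

namespace Cfsg.Agent.Helper24

open Cfsg

universe u

section NS

variable {G : Type u} [Group G]

/-- `x` is a `p`-element. -/
def ns_pel (p : ℕ) (x : G) : Prop := ∃ k : ℕ, orderOf x = p ^ k

/-- Products of `p`-elements of `K` are `p`-elements. -/
def ns_NS (p : ℕ) (K : Subgroup G) : Prop :=
  ∀ x ∈ K, ∀ y ∈ K, ns_pel p x → ns_pel p y → ns_pel p (x * y)

/-- The subgroup of `p`-elements of `K`. -/
def ns_T (p : ℕ) (K : Subgroup G) (h : ns_NS p K) : Subgroup G where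
  carrier := {x | x ∈ K ∧ ns_pel p x}
  one_mem' := ⟨K.one_mem, 0, by simp⟩
  mul_mem' := fun ⟨ha, hpa⟩ ⟨hb, hpb⟩ => ⟨K.mul_mem ha hb, h _ ha _ hb hpa hpb⟩
  inv_mem' := fun ⟨ha, k, hk⟩ => ⟨K.inv_mem ha, k, by rw [orderOf_inv, hk]⟩

theorem ns_mem_T (p : ℕ) (K : Subgroup G) (h : ns_NS p K) (x : G) :
    x ∈ ns_T p K h ↔ x ∈ K ∧ ns_pel p x := Iff.rfl

theorem ns_T_le (p : ℕ) (K : Subgroup G) (h : ns_NS p K) : ns_T p K h ≤ K := fun _ hx => hx.1

theorem ns_T_pgroup (p : ℕ) [Fact p.Prime] (K : Subgroup G) (h : ns_NS p K) :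
    IsPGroup p (ns_T p K h) := by
  rw [IsPGroup.iff_orderOf]
  rintro ⟨x, hx⟩
  obtain ⟨k, hk⟩ := hx.2
  refine ⟨k, ?_⟩
  rw [← hk]
  exact (Subgroup.orderOf_coe (⟨x, hx⟩ : ns_T p K h)).symm

theorem ns_pel_of_pgroup (p : ℕ) [Fact p.Prime] {Q : Subgroup G} (hQ : IsPGroup p Q) {x : G}
    (hx : x ∈ Q) : ns_pel p x := by
  obtain ⟨k, hk⟩ := (IsPGroup.iff_orderOf.mp hQ) ⟨x, hx⟩
  refine ⟨k, ?_⟩
  rw [← hk]
  exact Subgroup.orderOf_coe (⟨x, hx⟩ : Q)

theorem ns_le_T (p : ℕ) [Fact p.Prime] (K : Subgroup G) (h : ns_NS p K) {Q : Subgroup G}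
    (hQ : IsPGroup p Q) (hQK : Q ≤ K) : Q ≤ ns_T p K h :=
  fun _ hx => ⟨hQK hx, ns_pel_of_pgroup p hQ hx⟩

theorem ns_T_eq_sylow (p : ℕ) [Fact p.Prime] (K : Subgroup G) (h : ns_NS p K) (P : Sylow p G)
    (hPK : (P : Subgroup G) ≤ K) : ns_T p K h = P :=
  P.is_maximal' (ns_T_pgroup p K h) (ns_le_T p K h P.isPGroup' hPK)

theorem ns_pel_conj (p : ℕ) (g x : G) (hx : ns_pel p x) : ns_pel p (g * x * g⁻¹) := by
  obtain ⟨k, hk⟩ := hx
  refine ⟨k, ?_⟩
  rw [← hk]
  exact (MulAut.conj g).orderOf_eq x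

theorem ns_T_normal (p : ℕ) (K : Subgroup G) (h : ns_NS p K) (hK : K.Normal) :
    (ns_T p K h).Normal :=
  ⟨fun n hn g => ⟨hK.conj_mem n hn.1 g, ns_pel_conj p g n hn.2⟩⟩

/-- A subgroup with a normal Sylow `p`-subgroup satisfies `ns_NS`. -/
theorem ns_of_normal_sylow (p : ℕ) [Fact p.Prime] (K : Subgroup G) (Q : Sylow p K)
    (hQ : (Q : Subgroup K).Normal) : ns_NS p K := by
  have key : ∀ x : K, ns_pel p (x : G) → x ∈ (Q : Subgroup K) := by
    intro x ⟨k, hk⟩
    have h1 : IsPGroup p (Subgroup.zpowers x) := by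
      apply IsPGroup.of_card (n := k)
      rw [Nat.card_zpowers, ← hk, Subgroup.orderOf_coe]
    have h2 := Q.is_maximal' (h1.to_sup_of_normal_right Q.isPGroup') le_sup_right
    rw [← h2]
    exact Subgroup.mem_sup_left (Subgroup.mem_zpowers x)
  intro x hx y hy hpx hpy
  have h1 := key ⟨x, hx⟩ hpx
  have h2 := key ⟨y, hy⟩ hpy
  have h3 : (⟨x, hx⟩ * ⟨y, hy⟩ : K) ∈ (Q : Subgroup K) := Subgroup.mul_mem _ h1 h2
  obtain ⟨k, hk⟩ := ns_pel_of_pgroup p Q.isPGroup' h3
  refine ⟨k, ?_⟩
  rw [← hk]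
  exact Subgroup.orderOf_coe (⟨x, hx⟩ * ⟨y, hy⟩ : K)

/-- `ns_NS p ⊤` means the Sylow `p`-subgroups are normal. -/
theorem ns_normal_of_top (p : ℕ) [Fact p.Prime] (h : ns_NS p (⊤ : Subgroup G)) (P : Sylow p G) :
    (P : Subgroup G).Normal := by
  rw [← ns_T_eq_sylow p ⊤ h P le_top]
  exact ns_T_normal p ⊤ h inferInstance

theorem ns_top_of_normal (p : ℕ) [Fact p.Prime] (P : Sylow p G) (hP : (P : Subgroup G).Normal) :
    ns_NS p (⊤ : Subgroup G) := by
  have key : ∀ x : G, ns_pel p x → x ∈ (P : Subgroup G) := by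
    intro x ⟨k, hk⟩
    have h1 : IsPGroup p (Subgroup.zpowers x) := by
      apply IsPGroup.of_card (n := k)
      rw [Nat.card_zpowers, ← hk]
    have h2 := P.is_maximal' (h1.to_sup_of_normal_right P.isPGroup') le_sup_right
    rw [← h2]
    exact Subgroup.mem_sup_left (Subgroup.mem_zpowers x)
  intro x _ y _ hpx hpy
  exact ns_pel_of_pgroup p P.isPGroup' (Subgroup.mul_mem _ (key x hpx) (key y hpy))

end NS

section Chars

variable {G : Type u} [Group G] [Fintype G]

/-- Kernel lemma: an element in the kernel of all constituents is in the kernel. -/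
theorem ns_char_ker {ψ : G → ℂ} (hψ : IsCharacter G ψ) (g : G)
    (h : ∀ χ : IrrCharacter G, classInner ψ (χ : G → ℂ) ≠ 0 →
      (χ : G → ℂ) g = (χ : G → ℂ) 1) : ψ g = ψ 1 := by
  have hd := Helper2.classFun_eq_sum_classInner (Helper2.isClassFunction_of_isCharacter hψ)
  have e1 := congrFun hd g
  have e2 := congrFun hd 1
  rw [Finset.sum_apply] at e1 e2
  rw [e1, e2]
  apply Finset.sum_congr rfl
  intro χ _
  simp only [Pi.smul_apply, smul_eq_mul]
  by_cases h0 : classInner ψ (χ : G → ℂ) = 0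
  · rw [h0, zero_mul, zero_mul]
  · rw [h χ h0]

/-- Decomposition of the degree. -/
theorem ns_decomp {ψ : G → ℂ} (hψ : IsCharacter G ψ) (n : ℕ) (hn : ψ 1 = n) :
    ∃ m : IrrCharacter G → ℕ, (∀ χ : IrrCharacter G, classInner ψ (χ : G → ℂ) = m χ) ∧
      n = ∑ χ : IrrCharacter G, m χ * charDegree (χ : G → ℂ) := by
  classical
  have hm : ∀ χ : IrrCharacter G, ∃ m : ℕ, classInner ψ (χ : G → ℂ) = (m : ℂ) :=
    fun χ => Helper2.classInner_char_nat hψ (Helper2.isCharacter_of_isIrrCharacter χ.2)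
  choose m hm using hm
  refine ⟨m, hm, ?_⟩
  have hd := Helper2.classFun_eq_sum_classInner (Helper2.isClassFunction_of_isCharacter hψ)
  have e2 := congrFun hd 1
  rw [Finset.sum_apply] at e2
  rw [hn] at e2
  have e3 : (n : ℂ) = ((∑ χ : IrrCharacter G, m χ * charDegree (χ : G → ℂ) : ℕ) : ℂ) := by
    rw [e2, Nat.cast_sum]
    apply Finset.sum_congr rfl
    intro χ _
    simp only [Pi.smul_apply, smul_eq_mul]
    rw [hm χ, Helper25.irr_one_eq_degree, Nat.cast_mul]
  exact_mod_cast e3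

theorem ns_deg_le {ψ : G → ℂ} (hψ : IsCharacter G ψ) (n : ℕ) (hn : ψ 1 = n)
    (χ : IrrCharacter G) (h : classInner ψ (χ : G → ℂ) ≠ 0) : charDegree (χ : G → ℂ) ≤ n := by
  classical
  obtain ⟨m, hm, hsum⟩ := ns_decomp hψ n hn
  have h1 : m χ ≠ 0 := by
    intro h0
    apply h
    rw [hm χ, h0, Nat.cast_zero]
  have h2 : m χ * charDegree (χ : G → ℂ) ≤ ∑ χ : IrrCharacter G, m χ * charDegree (χ : G → ℂ) :=
    Finset.single_le_sum (f := fun χ : IrrCharacter G => m χ * charDegree (χ : G → ℂ))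
      (fun _ _ => Nat.zero_le _) (Finset.mem_univ χ)
  rw [← hsum] at h2
  calc charDegree (χ : G → ℂ) = 1 * charDegree (χ : G → ℂ) := (one_mul _).symm
    _ ≤ m χ * charDegree (χ : G → ℂ) := Nat.mul_le_mul_right _ (Nat.pos_of_ne_zero h1)
    _ ≤ n := h2

end Chars

/-- A `p`-subgroup of a group with a faithful character of degree `< p` is abelian. -/
theorem ns_abelian {G : Type u} [Group G] [Finite G] (p : ℕ) [hp : Fact p.Prime] {ψ : G → ℂ}
    (hψ : IsCharacter G ψ) (n : ℕ) (hn : ψ 1 = n) (hfaith : ∀ x : G, ψ x = ψ 1 → x = 1)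
    (hnp : n < p) (Q : Subgroup G) (hQ : IsPGroup p Q) :
    ∀ x ∈ Q, ∀ y ∈ Q, x * y = y * x := by
  classical
  letI : Fintype Q := Fintype.ofFinite _
  intro x hx y hy
  have hψQ := Helper2.isCharacter_restrict Q hψ
  have hn' : (fun q : Q => ψ q) 1 = n := by simpa using hn
  have key := ns_char_ker hψQ (⟨x, hx⟩ * ⟨y, hy⟩ * ⟨x, hx⟩⁻¹ * ⟨y, hy⟩⁻¹ : Q) ?_
  · have h1 : ψ (x * y * x⁻¹ * y⁻¹) = ψ 1 := by simpa using key
    have h2 := hfaith _ h1
    calc x * y = (x * y * x⁻¹ * y⁻¹) * (y * x) := by group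
      _ = y * x := by rw [h2, one_mul]
  · intro χ h0
    have hd := ns_deg_le hψQ n hn' χ h0
    have hdvd := Helper25.irr_degree_dvd_card χ
    obtain ⟨k, hk⟩ := IsPGroup.iff_card.mp hQ
    rw [hk] at hdvd
    obtain ⟨j, -, hj⟩ := (Nat.dvd_prime_pow hp.out).mp hdvd
    have hj0 : j = 0 := by
      by_contra hne
      have h3 : p ≤ p ^ j := Nat.le_self_pow hne p
      omega
    have hd1 : charDegree (χ : Q → ℂ) = 1 := by rw [hj, hj0, pow_zero]
    have hχ1 : (χ : Q → ℂ) 1 = 1 := by rw [Helper25.irr_one_eq_degree, hd1, Nat.cast_one]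
    have hmul := Helper25.irr_linear_mul χ hχ1
    have hinv : ∀ a : Q, (χ : Q → ℂ) a * (χ : Q → ℂ) a⁻¹ = 1 := by
      intro a
      rw [← hmul, mul_inv_cancel, hχ1]
    rw [hmul, hmul, hmul, hχ1]
    calc (χ : Q → ℂ) ⟨x, hx⟩ * (χ : Q → ℂ) ⟨y, hy⟩ * (χ : Q → ℂ) (⟨x, hx⟩ : Q)⁻¹ *
          (χ : Q → ℂ) (⟨y, hy⟩ : Q)⁻¹
        = ((χ : Q → ℂ) ⟨x, hx⟩ * (χ : Q → ℂ) (⟨x, hx⟩ : Q)⁻¹) *
          ((χ : Q → ℂ) ⟨y, hy⟩ * (χ : Q → ℂ) (⟨y, hy⟩ : Q)⁻¹) := by ring
      _ = 1 := by rw [hinv, hinv, mul_one]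

theorem ns_periodic_sum (f : ℕ → ℂ) (p : ℕ) (hf : ∀ a, f (a + p) = f a) (q : ℕ) :
    ∑ a ∈ Finset.range (p * q), f a = q * ∑ i ∈ Finset.range p, f i := by
  have hf' : ∀ j a, f (p * j + a) = f a := by
    intro j
    induction j with
    | zero => intro a; simp
    | succ j ih =>
      intro a
      have h1 : p * (j + 1) + a = (p * j + a) + p := by ring
      rw [h1, hf, ih]
  induction q with
  | zero => simp
  | succ q ih =>
    rw [Nat.mul_succ, Finset.sum_range_add, ih]
    have h1 : ∑ x ∈ Finset.range p, f (p * q + x) = ∑ x ∈ Finset.range p, f x :=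
      Finset.sum_congr rfl (fun x _ => hf' q x)
    rw [h1]
    push_cast
    ring

/-- The value computation: an irreducible character taking the constant value `±e` on the
generators of a cyclic `p`-group `⟨s⟩` with `s ^ p` central, of degree `< p - 1`, has `s` in
its kernel. -/
theorem ns_val {G : Type u} [Group G] [Fintype G] (p : ℕ) [hp : Fact p.Prime]
    (χ : IrrCharacter G) (s : G) (k : ℕ) (hk : orderOf s = p ^ (k + 1))
    (hz : s ^ p ∈ Subgroup.center G) (d : ℕ) (hd : charDegree (χ : G → ℂ) = d)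
    (hdp : d + 1 < p) (e : ℕ) (he : e ≠ 0) (ε : ℤ) (hε : ε = 1 ∨ ε = -1)
    (hval : ∀ i : ℕ, i.Coprime p → (χ : G → ℂ) (s ^ i) = (ε : ℂ) * (e : ℂ)) :
    (χ : G → ℂ) s = (χ : G → ℂ) 1 := by
  classical
  have hp' := hp.out
  have hχ1 : (χ : G → ℂ) 1 = d := by rw [Helper25.irr_one_eq_degree, hd]
  have hχ1ne : (χ : G → ℂ) 1 ≠ 0 := Helper25.irr_one_ne_zero χ
  have hG0 : (Nat.card G : ℂ) ≠ 0 := Nat.cast_ne_zero.mpr Nat.card_pos.ne'
  have he0 : (e : ℂ) ≠ 0 := Nat.cast_ne_zero.mpr he
  have hb0 : (ε : ℂ) * (e : ℂ) ≠ 0 := by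
    rcases hε with h | h
    · rw [h]; simpa using he0
    · rw [h]; simpa using he0
  have hcz : ∀ g : G, (χ : G → ℂ) (g * s ^ p) * (χ : G → ℂ) 1 =
      (χ : G → ℂ) g * (χ : G → ℂ) (s ^ p) := by
    intro g
    have h1 := Helper25.irr_sum_conj_mul χ g (s ^ p)
    have h2 : ∀ y : G, y * s ^ p * y⁻¹ = s ^ p := by
      intro y
      rw [Subgroup.mem_center_iff.mp hz y, mul_inv_cancel_right]
    simp only [h2] at h1
    rw [Finset.sum_const, Finset.card_univ, nsmul_eq_mul, ← Nat.card_eq_fintype_card] at h1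
    have h3 : (Nat.card G : ℂ) * ((χ : G → ℂ) (g * s ^ p) * (χ : G → ℂ) 1) =
        (Nat.card G : ℂ) * ((χ : G → ℂ) g * (χ : G → ℂ) (s ^ p)) := by
      rw [← mul_assoc, h1]
      field_simp
    exact mul_left_cancel₀ hG0 h3
  have hs1 : (χ : G → ℂ) s = (ε : ℂ) * (e : ℂ) := by
    have := hval 1 (Nat.coprime_one_left p)
    rwa [pow_one] at this
  have hs2 : (χ : G → ℂ) (s * s ^ p) = (ε : ℂ) * (e : ℂ) := by
    have := hval (1 + p) (by simp)
    rwa [pow_add, pow_one] at this
  have hz1 : (χ : G → ℂ) (s ^ p) = (χ : G → ℂ) 1 := by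
    have h1 := hcz s
    rw [hs1, hs2] at h1
    exact (mul_left_cancel₀ hb0 h1).symm
  have hper : ∀ g : G, (χ : G → ℂ) (g * s ^ p) = (χ : G → ℂ) g := by
    intro g
    have h1 := hcz g
    rw [hz1] at h1
    exact mul_right_cancel₀ hχ1ne h1
  obtain ⟨p', hp'eq⟩ : ∃ p', p = p' + 1 := ⟨p - 1, by have := hp'.pos; omega⟩
  have hsum1 : ∑ i ∈ Finset.range p, (χ : G → ℂ) (s ^ i) =
      (p' : ℂ) * ((ε : ℂ) * (e : ℂ)) + d := by
    rw [hp'eq, Finset.sum_range_succ', pow_zero, hχ1]
    have h1 : ∀ i ∈ Finset.range p', (χ : G → ℂ) (s ^ (i + 1)) = (ε : ℂ) * (e : ℂ) := by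
      intro i hi
      apply hval
      rw [Finset.mem_range] at hi
      exact Nat.Coprime.symm ((Nat.Prime.coprime_iff_not_dvd hp').mpr
        (Nat.not_dvd_of_pos_of_lt (Nat.succ_pos i) (by omega)))
    rw [Finset.sum_congr rfl h1, Finset.sum_const, Finset.card_range, nsmul_eq_mul]
  have hf : ∀ a : ℕ, (fun a : ℕ => (χ : G → ℂ) (s ^ a)) (a + p) =
      (fun a : ℕ => (χ : G → ℂ) (s ^ a)) a := by
    intro a
    show (χ : G → ℂ) (s ^ (a + p)) = (χ : G → ℂ) (s ^ a)
    rw [pow_add, hper]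
  have hsum2 := ns_periodic_sum (fun a : ℕ => (χ : G → ℂ) (s ^ a)) p hf (p ^ k)
  rw [hsum1] at hsum2
  letI : Fintype (Subgroup.zpowers s) := Fintype.ofFinite _
  have hfin : IsOfFinOrder s := isOfFinOrder_of_finite s
  have hsum3 : ∑ t : Subgroup.zpowers s, (χ : G → ℂ) t =
      ∑ a ∈ Finset.range (p * p ^ k), (χ : G → ℂ) (s ^ a) := by
    rw [← Equiv.sum_comp (finEquivZPowers hfin)]
    simp only [finEquivZPowers_apply]
    rw [Fin.sum_univ_eq_sum_range (fun a => (χ : G → ℂ) (s ^ a)) (orderOf s), hk, pow_succ,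
      mul_comm]
  obtain ⟨m₀, hm₀⟩ := Helper2.classInner_char_nat
    (Helper2.isCharacter_restrict (Subgroup.zpowers s) (Helper25.irr_isCharacter χ))
    (Helper2.isCharacter_one (G := Subgroup.zpowers s))
  have hcardS : (Nat.card (Subgroup.zpowers s) : ℂ) = (p : ℂ) * (p : ℂ) ^ k := by
    rw [Nat.card_zpowers, hk, pow_succ, mul_comm]
    push_cast
    ring
  have hp0 : (p : ℂ) ≠ 0 := Nat.cast_ne_zero.mpr hp'.pos.ne'
  have hpk0 : (p : ℂ) ^ k ≠ 0 := pow_ne_zero _ hp0
  have hmain : (m₀ : ℂ) * (p : ℂ) = (p' : ℂ) * ((ε : ℂ) * (e : ℂ)) + d := by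
    unfold classInner at hm₀
    simp only [map_one, mul_one] at hm₀
    rw [hsum3, hsum2, hcardS] at hm₀
    have h1 : (p : ℂ) ^ k * ((m₀ : ℂ) * (p : ℂ)) =
        (p : ℂ) ^ k * ((p' : ℂ) * ((ε : ℂ) * (e : ℂ)) + d) := by
      rw [← hm₀]
      push_cast
      field_simp
    exact mul_left_cancel₀ hpk0 h1
  have hle : e ≤ d := by
    have h1 := Helper25.irr_norm_le χ s
    rw [hs1, hχ1, norm_mul, Complex.norm_natCast, Complex.norm_natCast] at h1
    have h2 : ‖(ε : ℂ)‖ = 1 := by
      rcases hε with h | h <;> rw [h] <;> simp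
    rw [h2, one_mul] at h1
    exact_mod_cast h1
  have hpZ : (p : ℤ) = p' + 1 := by exact_mod_cast hp'eq
  have he1 : 1 ≤ e := Nat.pos_of_ne_zero he
  rcases hε with h | h
  · have hZ : (m₀ : ℤ) * (p : ℤ) = (p' : ℤ) * (e : ℤ) + d := by
      rw [h] at hmain
      have : ((m₀ * p : ℕ) : ℂ) = ((p' * e + d : ℕ) : ℂ) := by
        push_cast
        rw [hmain]
        push_cast
        ring
      exact_mod_cast this
    have h1 : ((m₀ : ℤ) - e) * (p : ℤ) = (d : ℤ) - e := by
      linear_combination hZ - (e : ℤ) * hpZ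
    have h2 : (d : ℤ) - e = 0 := by
      apply Int.eq_zero_of_abs_lt_dvd (m := (p : ℤ)) (Dvd.intro_left _ h1)
      rw [abs_lt]
      constructor <;> omega
    have h3 : e = d := by omega
    rw [hs1, h, hχ1, h3]
    push_cast
    ring
  · exfalso
    have hZ : (m₀ : ℤ) * (p : ℤ) = (d : ℤ) - (p' : ℤ) * (e : ℤ) := by
      rw [h] at hmain
      have : (((m₀ : ℤ) * (p : ℤ) : ℤ) : ℂ) = (((d : ℤ) - (p' : ℤ) * (e : ℤ) : ℤ) : ℂ) := by
        push_cast
        rw [hmain]
        push_cast
        ring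
      exact_mod_cast this
    have h1 : (p' : ℤ) * (e : ℤ) ≥ p' := by
      have : (1 : ℤ) ≤ e := by exact_mod_cast he1
      nlinarith [Int.natCast_nonneg p']
    have h2 : (0 : ℤ) ≤ (m₀ : ℤ) * (p : ℤ) := by positivity
    omega

/-- Constituents of the restriction to a normal subgroup `M` of a character of degree `< p`
are invariant under every `p`-element. -/
theorem ns_inv {G : Type u} [Group G] [Fintype G] (p : ℕ) [hp : Fact p.Prime] {ψ : G → ℂ}
    (hψ : IsCharacter G ψ) (n : ℕ) (hn : ψ 1 = n) (hnp : n < p) (M : Subgroup G) [hM : M.Normal]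
    [Fintype M] (s : G) (hs : ns_pel p s) (θ : IrrCharacter M)
    (h0 : classInner (fun m : M => ψ m) (θ : M → ℂ) ≠ 0) :
    Helper26.gc_InvFun M (Subgroup.zpowers s) (θ : M → ℂ) := by
  classical
  have hp' := hp.out
  let cj : G → IrrCharacter M := fun t => ⟨fun m => (θ : M → ℂ) (MulAut.conjNormal t m),
    Helper2.isIrrCharacter_comp_of_surjective (MulAut.conjNormal t : M ≃* M).toMonoidHom
      (MulEquiv.surjective _) θ.2⟩
  have hcj : ∀ (t : G) (m : M), (cj t : M → ℂ) m = (θ : M → ℂ) (MulAut.conjNormal t m) :=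
    fun _ _ => rfl
  have hcjmul : ∀ (a b : G) (m : M), (cj (a * b) : M → ℂ) m =
      (cj a : M → ℂ) (MulAut.conjNormal b m) := by
    intro a b m
    rw [hcj, hcj, map_mul, MulAut.mul_apply]
  have hpowx : ∀ x : G, cj x = θ → ∀ a : ℕ, cj (x ^ a) = θ := by
    intro x hx a
    induction a with
    | zero =>
      apply Subtype.ext
      funext m
      rw [hcj, pow_zero, map_one, MulAut.one_apply]
    | succ a ih =>
      apply Subtype.ext
      funext m
      rw [pow_succ, hcjmul, ih]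
      have := congrFun (congrArg Subtype.val hx) m
      rw [hcj] at this
      exact this
  by_cases hfix : cj s = θ
  · intro t ht g g' hgg'
    obtain ⟨j, rfl⟩ := (Submonoid.mem_powers_iff _ _).mp (mem_powers_iff_mem_zpowers.mpr ht)
    have h1 := congrFun (congrArg Subtype.val (hpowx s hfix j)) g
    rw [hcj] at h1
    have h2 : MulAut.conjNormal (s ^ j) g = g' :=
      Subtype.ext (by rw [MulAut.conjNormal_apply, hgg'])
    rw [h2] at h1
    exact h1
  · exfalso
    obtain ⟨k, hk⟩ := hs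
    have hinj : ∀ i j : ℕ, i < j → j < p → cj (s ^ i) ≠ cj (s ^ j) := by
      intro i j hij hjp heq
      apply hfix
      have h1 : cj (s ^ (j - i)) = θ := by
        apply Subtype.ext
        funext m
        have h2 := congrFun (congrArg Subtype.val heq) (MulAut.conjNormal (s ^ i)⁻¹ m)
        have h3 : s ^ j = s ^ (j - i) * s ^ i := by
          rw [← pow_add]
          congr 1
          omega
        have h4 : ∀ (a : G) (m : M), MulAut.conjNormal a (MulAut.conjNormal a⁻¹ m) = m := by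
          intro a m
          rw [← MulAut.mul_apply, ← map_mul, mul_inv_cancel, map_one, MulAut.one_apply]
        rw [h3, hcjmul, hcj, h4] at h2
        exact h2.symm
      have hcop : (j - i).Coprime (orderOf s) := by
        rw [hk]
        apply Nat.Coprime.pow_right
        exact Nat.Coprime.symm ((Nat.Prime.coprime_iff_not_dvd hp').mpr
          (Nat.not_dvd_of_pos_of_lt (by omega) (by omega)))
      obtain ⟨a, ha⟩ := exists_pow_eq_self_of_coprime hcop
      have h5 := hpowx _ h1 a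
      rw [ha] at h5
      exact h5
    have hψM := Helper2.isCharacter_restrict M hψ
    have hnM : (fun m : M => ψ m) 1 = n := by simpa using hn
    obtain ⟨mM, hmM, hsum⟩ := ns_decomp hψM n hnM
    have hconst : ∀ t : G, mM (cj t) = mM θ := by
      intro t
      have h1 : classInner (fun m : M => ψ m) (cj t : M → ℂ) =
          classInner (fun m : M => ψ m) (θ : M → ℂ) := by
        unfold classInner
        congr 1
        rw [← Equiv.sum_comp (MulAut.conjNormal t : M ≃* M).toEquiv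
          (fun m : M => ψ m * (starRingEnd ℂ) ((θ : M → ℂ) m))]
        apply Finset.sum_congr rfl
        intro m _
        have h2 : ψ ((MulAut.conjNormal t m : M) : G) = ψ m := by
          rw [MulAut.conjNormal_apply]
          exact Helper2.isClassFunction_of_isCharacter hψ m t
        show ψ m * _ = ψ ((MulAut.conjNormal t m : M) : G) * _
        rw [h2]
        rfl
      rw [hmM, hmM] at h1
      exact_mod_cast h1
    have hmpos : 0 < mM θ := by
      apply Nat.pos_of_ne_zero
      intro h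
      apply h0
      rw [hmM, h, Nat.cast_zero]
    have hinjOn : ∀ i ∈ Finset.range p, ∀ j ∈ Finset.range p,
        cj (s ^ i) = cj (s ^ j) → i = j := by
      intro i hi j hj heq
      rw [Finset.mem_range] at hi hj
      rcases lt_trichotomy i j with h | h | h
      · exact absurd heq (hinj i j h hj)
      · exact h
      · exact absurd heq.symm (hinj j i h hi)
    have hsub : ∑ i ∈ Finset.range p,
        mM (cj (s ^ i)) * charDegree ((cj (s ^ i) : IrrCharacter M) : M → ℂ) ≤ n := by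
      rw [hsum, ← Finset.sum_image (f := fun χ : IrrCharacter M => mM χ * charDegree (χ : M → ℂ))
        (g := fun i => cj (s ^ i)) hinjOn]
      exact Finset.sum_le_sum_of_subset (Finset.subset_univ _)
    have hge : p ≤ ∑ i ∈ Finset.range p,
        mM (cj (s ^ i)) * charDegree ((cj (s ^ i) : IrrCharacter M) : M → ℂ) := by
      calc p = ∑ i ∈ Finset.range p, 1 := by simp
        _ ≤ _ := Finset.sum_le_sum (fun i _ => by
          rw [hconst]
          exact Nat.mul_pos hmpos (Helper25.irr_degree_pos _))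
    omega

/-- A cyclic `p`-group `⟨s⟩` with `s ^ p` central, acting on a normal `p'`-subgroup `M` with
`G = M ⟨s⟩`, centralizes `M` when `G` has a faithful character of degree `< p - 1`. -/
theorem ns_cyc {G : Type u} [Group G] [Finite G] (p : ℕ) [hp : Fact p.Prime] {ψ : G → ℂ}
    (hψ : IsCharacter G ψ) (n : ℕ) (hn : ψ 1 = n) (hfaith : ∀ x : G, ψ x = ψ 1 → x = 1)
    (hnp : n + 1 < p) (M : Subgroup G) [hM : M.Normal] (s : G)
    (hsup : M ⊔ Subgroup.zpowers s = ⊤) (hcop : (Nat.card M).Coprime p)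
    (hs : ns_pel p s) (hz : s ^ p ∈ Subgroup.center G) :
    ∀ m ∈ M, m * s = s * m := by
  classical
  letI : Fintype G := Fintype.ofFinite _
  letI : Fintype M := Fintype.ofFinite _
  letI : Fintype (Subgroup.zpowers s) := Fintype.ofFinite _
  letI : Fintype (M ⊓ Subgroup.centralizer ((Subgroup.zpowers s : Subgroup G) : Set G) :
    Subgroup G) := Fintype.ofFinite _
  have hp' := hp.out
  obtain ⟨k0, hk0⟩ := hs
  intro m hm
  by_cases hs1 : s = 1
  · rw [hs1, mul_one, one_mul]
  have hk0pos : k0 ≠ 0 := by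
    intro h
    rw [h, pow_zero, orderOf_eq_one_iff] at hk0
    exact hs1 hk0
  obtain ⟨k, rfl⟩ : ∃ k, k0 = k + 1 := ⟨k0 - 1, by omega⟩
  have hcopS : (Nat.card M).Coprime (Nat.card (Subgroup.zpowers s)) := by
    rw [Nat.card_zpowers, hk0]
    exact Nat.Coprime.pow_right _ hcop
  have hψM := Helper2.isCharacter_restrict M hψ
  have hnM : (fun m : M => ψ m) 1 = n := by simpa using hn
  have hcM : m * s * m⁻¹ * s⁻¹ ∈ M := by
    have h1 : s * m⁻¹ * s⁻¹ ∈ M := hM.conj_mem _ (M.inv_mem hm) s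
    have h2 : m * s * m⁻¹ * s⁻¹ = m * (s * m⁻¹ * s⁻¹) := by group
    rw [h2]
    exact M.mul_mem hm h1
  have key := ns_char_ker hψM (⟨m * s * m⁻¹ * s⁻¹, hcM⟩ : M) ?_
  · have h1 : ψ (m * s * m⁻¹ * s⁻¹) = ψ 1 := by simpa using key
    have h2 := hfaith _ h1
    calc m * s = (m * s * m⁻¹ * s⁻¹) * (s * m) := by group
      _ = s * m := by rw [h2, one_mul]
  · intro θ h0
    have hdle := ns_deg_le hψM n hnM θ h0
    have hinv := ns_inv p hψ n hn (by omega) M s ⟨k + 1, hk0⟩ θ h0
    obtain ⟨θh, hext, hdet⟩ :=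
      Helper26.cy_exists_canon M (Subgroup.zpowers s) hsup hcopS θ hinv
    obtain ⟨β, ε, hε, hval, -⟩ := Helper26.cy_exists M (Subgroup.zpowers s)
      (M ⊓ Subgroup.centralizer ((Subgroup.zpowers s : Subgroup G) : Set G)) hsup hcopS s rfl rfl
      inf_le_left θ θh hext hdet
    have hd : charDegree (θh : G → ℂ) = charDegree (θ : M → ℂ) := by
      have h1 := hext 1
      rw [Subgroup.coe_one, Helper25.irr_one_eq_degree, Helper25.irr_one_eq_degree] at h1
      exact_mod_cast h1
    have hv : ∀ i : ℕ, i.Coprime p → (θh : G → ℂ) (s ^ i) =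
        (ε : ℂ) * ((charDegree β.1 : ℕ) : ℂ) := by
      intro i hi
      have hgen : Subgroup.zpowers (s ^ i) = Subgroup.zpowers s := by
        apply le_antisymm
        · rw [Subgroup.zpowers_le]
          exact Subgroup.pow_mem _ (Subgroup.mem_zpowers s) i
        · rw [Subgroup.zpowers_le]
          have hc : i.Coprime (orderOf s) := by
            rw [hk0]
            exact Nat.Coprime.pow_right _ hi
          obtain ⟨a, ha⟩ := exists_pow_eq_self_of_coprime hc
          have h7 : (s ^ i) ^ a ∈ Subgroup.zpowers (s ^ i) :=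
            Subgroup.pow_mem _ (Subgroup.mem_zpowers (s ^ i)) a
          rwa [ha] at h7
      have h1 := hval 1 (s ^ i) hgen
      rw [Subgroup.coe_one, one_mul, Helper25.irr_one_eq_degree β] at h1
      exact h1
    have hs_ker := ns_val p θh s k hk0 hz _ hd (by omega) _ (Helper25.irr_degree_pos β).ne' ε hε hv
    have h1 : s ∈ Helper25.irrKer θh := (Helper25.mem_irrKer θh s).mpr hs_ker
    have h2 : m * s * m⁻¹ * s⁻¹ ∈ Helper25.irrKer θh :=
      Subgroup.mul_mem _ ((Helper25.irrKer_normal θh).conj_mem s h1 m) (Subgroup.inv_mem _ h1)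
    have h3 := (Helper25.mem_irrKer θh _).mp h2
    have h4 := hext ⟨m * s * m⁻¹ * s⁻¹, hcM⟩
    have h5 := hext 1
    rw [Subgroup.coe_one] at h5
    rw [← h4, ← h5]
    exact h3

/-- Main step: a group with a faithful character of degree `n`, `n + 1 < p`, whose Sylow
`p`-subgroup has order at least `(n + 1) ^ 2` and all of whose proper subgroups have a normal
Sylow `p`-subgroup, has a normal Sylow `p`-subgroup. -/
theorem ns_main {G : Type u} [Group G] [Finite G] (p : ℕ) [hp : Fact p.Prime] (n : ℕ)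
    {ψ : G → ℂ} (hψ : IsCharacter G ψ) (hn : ψ 1 = n) (hfaith : ∀ x : G, ψ x = ψ 1 → x = 1)
    (hnp : n + 1 < p) (hbig : (n + 1) ^ 2 ≤ p ∨ p ^ 2 ∣ Nat.card G)
    (hmin : ∀ L : Subgroup G, L ≠ ⊤ → ns_NS p L) (P : Sylow p G) :
    (P : Subgroup G).Normal := by
  classical
  letI : Fintype G := Fintype.ofFinite _
  letI : Fintype (P : Subgroup G) := Fintype.ofFinite _
  have hp' := hp.out
  by_cases hP1 : (P : Subgroup G) = ⊥
  · rw [hP1]
    infer_instance
  have hPcard : (n + 1) ^ 2 ≤ Nat.card (P : Subgroup G) := by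
    have h1 := P.card_eq_multiplicity
    rcases hbig with h | h
    · have h2 : p ∣ Nat.card (P : Subgroup G) := by
        rw [h1]
        apply dvd_pow_self
        intro h0
        apply hP1
        rw [h0, pow_zero] at h1
        exact Subgroup.eq_bot_of_card_eq _ h1
      exact le_trans h (Nat.le_of_dvd Nat.card_pos h2)
    · have h2 : 2 ≤ (Nat.card G).factorization p :=
        (hp'.pow_dvd_iff_le_factorization Nat.card_pos.ne').mp h
      have h3 : p ^ 2 ≤ Nat.card (P : Subgroup G) := by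
        rw [h1]
        exact Nat.pow_le_pow_right hp'.pos h2
      have h4 : (n + 1) ^ 2 ≤ p ^ 2 := Nat.pow_le_pow_left (by omega) 2
      omega
  have habQ := ns_abelian p hψ n hn hfaith (by omega)
  have hab := habQ P P.isPGroup'
  have use3 : ∀ M : Subgroup G, M.Normal → (P : Subgroup G) ≤ M → M ≠ ⊤ →
      (P : Subgroup G).Normal := by
    intro M hMn hPM hMne
    rw [← ns_T_eq_sylow p M (hmin M hMne) P hPM]
    exact ns_T_normal p M (hmin M hMne) hMn
  by_cases hZ : (P : Subgroup G) ⊓ Subgroup.center G = ⊥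
  · by_contra hnot
    have hnoM : ∀ M : Subgroup G, M.Normal → (P : Subgroup G) ≤ M → M = ⊤ := by
      intro M hMn hPM
      by_contra hne
      exact hnot (use3 M hMn hPM hne)
    have hnab : ∃ x y : G, x * y ≠ y * x := by
      by_contra hall
      push Not at hall
      apply hnot
      exact ⟨fun a ha g => by rw [hall g a, mul_inv_cancel_right]; exact ha⟩
    obtain ⟨x, y, hxy⟩ := hnab
    have hc1 : x * y * x⁻¹ * y⁻¹ ≠ 1 := by
      intro h
      apply hxy
      calc x * y = (x * y * x⁻¹ * y⁻¹) * (y * x) := by group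
        _ = y * x := by rw [h, one_mul]
    have hex : ∃ χ : IrrCharacter G, classInner ψ (χ : G → ℂ) ≠ 0 ∧
        (χ : G → ℂ) (x * y * x⁻¹ * y⁻¹) ≠ (χ : G → ℂ) 1 := by
      by_contra hall
      push Not at hall
      exact hc1 (hfaith _ (ns_char_ker hψ _ hall))
    obtain ⟨χ, hχ0, hχc⟩ := hex
    have hχ1 : (χ : G → ℂ) 1 ≠ 1 := by
      intro h1
      apply hχc
      have hmul := Helper25.irr_linear_mul χ h1
      have hinv : ∀ a : G, (χ : G → ℂ) a * (χ : G → ℂ) a⁻¹ = 1 := by
        intro a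
        rw [← hmul, mul_inv_cancel, h1]
      rw [hmul, hmul, hmul, h1]
      calc (χ : G → ℂ) x * (χ : G → ℂ) y * (χ : G → ℂ) x⁻¹ * (χ : G → ℂ) y⁻¹
          = ((χ : G → ℂ) x * (χ : G → ℂ) x⁻¹) * ((χ : G → ℂ) y * (χ : G → ℂ) y⁻¹) := by ring
        _ = 1 := by rw [hinv, hinv, mul_one]
    have hker : ∃ h ∈ (P : Subgroup G), (χ : G → ℂ) h ≠ (χ : G → ℂ) 1 := by
      by_contra hall
      push Not at hall
      have h1 : (P : Subgroup G) ≤ Helper25.irrKer χ :=
        fun h hh => (Helper25.mem_irrKer χ h).mpr (hall h hh)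
      have h2 := hnoM _ (Helper25.irrKer_normal χ) h1
      have h3 : x * y * x⁻¹ * y⁻¹ ∈ Helper25.irrKer χ := by
        rw [h2]
        exact Subgroup.mem_top _
      exact hχc ((Helper25.mem_irrKer χ _).mp h3)
    have hTI : ∀ Q₁ Q₂ : Sylow p G, ∀ x : G, x ∈ (Q₁ : Subgroup G) →
        x ∈ (Q₂ : Subgroup G) → x ∉ Subgroup.center G → (Q₁ : Subgroup G) = Q₂ := by
      intro Q₁ Q₂ x hxQ₁ hxQ₂ hxZ
      have hCne : Subgroup.centralizer ({x} : Set G) ≠ ⊤ := by
        intro h
        apply hxZ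
        rw [Subgroup.centralizer_eq_top_iff_subset] at h
        exact h (Set.mem_singleton x)
      have hle : ∀ Q : Sylow p G, x ∈ (Q : Subgroup G) →
          (Q : Subgroup G) ≤ Subgroup.centralizer ({x} : Set G) := by
        intro Q hxQ q hq
        rw [Subgroup.mem_centralizer_singleton_iff]
        exact habQ Q Q.isPGroup' q hq x hxQ
      rw [← ns_T_eq_sylow p _ (hmin _ hCne) Q₁ (hle Q₁ hxQ₁),
        ← ns_T_eq_sylow p _ (hmin _ hCne) Q₂ (hle Q₂ hxQ₂)]
    have hone : ∀ g : G, g ∉ Subgroup.center G → ∀ a b : G,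
        Subgroup.centralizer ({g} : Set G) ⊓
          (P : Subgroup G).map (MulAut.conj a).toMonoidHom ≠ ⊥ →
        Subgroup.centralizer ({g} : Set G) ⊓
          (P : Subgroup G).map (MulAut.conj b).toMonoidHom ≠ ⊥ →
        (P : Subgroup G).map (MulAut.conj a).toMonoidHom =
          (P : Subgroup G).map (MulAut.conj b).toMonoidHom := by
      intro g hg a b ha hb
      have hCne : Subgroup.centralizer ({g} : Set G) ≠ ⊤ := by
        intro h
        apply hg
        rw [Subgroup.centralizer_eq_top_iff_subset] at h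
        exact h (Set.mem_singleton g)
      have hcoe : ∀ c : G, ((c • P : Sylow p G) : Subgroup G) =
          (P : Subgroup G).map (MulAut.conj c).toMonoidHom := by
        intro c
        rw [Sylow.coe_subgroup_smul]
        rfl
      obtain ⟨R, hR⟩ := (ns_T_pgroup p _ (hmin _ hCne)).exists_le_sylow
      have hstep : ∀ c : G, Subgroup.centralizer ({g} : Set G) ⊓
          (P : Subgroup G).map (MulAut.conj c).toMonoidHom ≠ ⊥ →
          (P : Subgroup G).map (MulAut.conj c).toMonoidHom = R := by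
        intro c hc
        obtain ⟨x, hx, hx1⟩ : ∃ x ∈ Subgroup.centralizer ({g} : Set G) ⊓
            (P : Subgroup G).map (MulAut.conj c).toMonoidHom, x ≠ 1 := by
          by_contra hall
          push Not at hall
          exact hc ((Subgroup.eq_bot_iff_forall _).mpr hall)
        have hxC := (Subgroup.mem_inf.mp hx).1
        have hxQ := (Subgroup.mem_inf.mp hx).2
        have hxZ : x ∉ Subgroup.center G := by
          intro hxZ
          obtain ⟨x0, hx0, hx0x⟩ := hxQ
          have h5 : x0 = x := by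
            have h6 : c * x0 * c⁻¹ = x := by simpa [MulAut.conj_apply] using hx0x
            have h7 := Subgroup.mem_center_iff.mp hxZ c
            calc x0 = c⁻¹ * (c * x0 * c⁻¹) * c := by group
              _ = c⁻¹ * x * c := by rw [h6]
              _ = c⁻¹ * (x * c) := by group
              _ = c⁻¹ * (c * x) := by rw [h7]
              _ = x := by group
          have h8 : x ∈ (P : Subgroup G) ⊓ Subgroup.center G :=
            Subgroup.mem_inf.mpr ⟨h5 ▸ hx0, hxZ⟩
          rw [hZ, Subgroup.mem_bot] at h8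
          exact hx1 h8
        rw [← hcoe c] at hxQ ⊢
        have hxT : x ∈ ns_T p _ (hmin _ hCne) :=
          ⟨hxC, ns_pel_of_pgroup p (c • P : Sylow p G).isPGroup' hxQ⟩
        exact hTI (c • P) R x hxQ (hR hxT) hxZ
      rw [hstep a ha, hstep b hb]
    have hres := (Cfsg.Agent.S0898.result (P : Subgroup G) hab hZ hone (χ : G → ℂ) χ.2 hker).2
      hχ1 hnoM
    have hdle := ns_deg_le hψ n hn χ hχ0
    have h1 : ((χ : G → ℂ) 1).re = (charDegree (χ : G → ℂ) : ℝ) := by
      rw [Helper25.irr_one_eq_degree]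
      simp
    rw [h1] at hres
    have h2 : (Nat.card (P : Subgroup G) : ℝ) < ((1 + charDegree (χ : G → ℂ) : ℕ) : ℝ) ^ 2 := by
      push_cast
      exact hres
    have h3 : Nat.card (P : Subgroup G) < (1 + charDegree (χ : G → ℂ)) ^ 2 := by
      exact_mod_cast h2
    have h4 : (1 + charDegree (χ : G → ℂ)) ^ 2 ≤ (n + 1) ^ 2 := Nat.pow_le_pow_left (by omega) 2
    omega
  · obtain ⟨z, hzmem, hz1⟩ : ∃ z ∈ (P : Subgroup G) ⊓ Subgroup.center G, z ≠ 1 := by
      by_contra hall
      push Not at hall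
      exact hZ ((Subgroup.eq_bot_iff_forall _).mpr hall)
    have hzP := (Subgroup.mem_inf.mp hzmem).1
    have hzZ := (Subgroup.mem_inf.mp hzmem).2
    letI : CommGroup (P : Subgroup G) := { (inferInstance : Group (P : Subgroup G)) with
      mul_comm := fun a b => Subtype.ext (hab a a.2 b b.2) }
    let V : G →* (P : Subgroup G) := MonoidHom.transfer (MonoidHom.id (P : Subgroup G))
    have hVc : ∀ c : G, c ∈ Subgroup.center G →
        ((V c : (P : Subgroup G)) : G) = c ^ (P : Subgroup G).index := by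
      intro c hc
      have key : ∀ (k : ℕ) (g₀ : G), g₀⁻¹ * c ^ k * g₀ ∈ (P : Subgroup G) →
          g₀⁻¹ * c ^ k * g₀ = c ^ k := by
        intro k g₀ _
        have h1 := Subgroup.mem_center_iff.mp (Subgroup.pow_mem _ hc k) g₀
        rw [mul_assoc, ← h1, inv_mul_cancel_left]
      have h1 := MonoidHom.transfer_eq_pow (MonoidHom.id (P : Subgroup G)) c key
      exact congrArg Subtype.val h1
    let M : Subgroup G := V.ker
    have hMn : M.Normal := MonoidHom.normal_ker V
    haveI := hMn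
    have hcopidx : p.Coprime (P : Subgroup G).index :=
      (Nat.Prime.coprime_iff_not_dvd hp').mpr P.not_dvd_index
    have hMZ : ∀ c : G, c ∈ M → c ∈ (P : Subgroup G) → c ∈ Subgroup.center G → c = 1 := by
      intro c hcM hcP hcZ
      have h1 : c ^ (P : Subgroup G).index = 1 := by
        rw [← hVc c hcZ]
        have h2 : V c = 1 := MonoidHom.mem_ker.mp hcM
        rw [h2]
        rfl
      obtain ⟨k, hk⟩ := ns_pel_of_pgroup p P.isPGroup' hcP
      have h2 : orderOf c ∣ (P : Subgroup G).index := orderOf_dvd_of_pow_eq_one h1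
      rw [hk] at h2
      have h3 : p ^ k = 1 := Nat.Coprime.eq_one_of_dvd (Nat.Coprime.pow_left k hcopidx) h2
      rw [h3] at hk
      exact orderOf_eq_one_iff.mp hk
    have hMne : M ≠ ⊤ := by
      intro h
      exact hz1 (hMZ z (h ▸ Subgroup.mem_top z) hzP hzZ)
    have hTn := ns_T_normal p M (hmin M hMne) hMn
    have hTP : ns_T p M (hmin M hMne) ≤ (P : Subgroup G) := by
      haveI := hTn
      exact IsPGroup.le_sylow_of_normal (ns_T_pgroup p M (hmin M hMne)) P
    by_cases hC : Subgroup.centralizer ((ns_T p M (hmin M hMne) : Subgroup G) : Set G) = ⊤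
    swap
    · haveI := hTn
      apply use3 _ inferInstance _ hC
      intro x hx
      rw [Subgroup.mem_centralizer_iff]
      intro t ht
      exact hab t (hTP ht) x hx
    have hTbot : ∀ t ∈ ns_T p M (hmin M hMne), t = 1 := by
      intro t ht
      apply hMZ t (ns_T_le p M _ ht) (hTP ht)
      rw [Subgroup.centralizer_eq_top_iff_subset] at hC
      exact hC ht
    have hMcop : (Nat.card M).Coprime p := by
      rw [Nat.coprime_comm, Nat.Prime.coprime_iff_not_dvd hp']
      intro hdvd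
      letI : Fintype M := Fintype.ofFinite _
      rw [Nat.card_eq_fintype_card] at hdvd
      obtain ⟨x, hx⟩ := exists_prime_orderOf_dvd_card p hdvd
      have h1 : (x : G) ∈ ns_T p M (hmin M hMne) :=
        ⟨x.2, 1, by rw [Subgroup.orderOf_coe, hx, pow_one]⟩
      have h2 := hTbot _ h1
      rw [← Subgroup.orderOf_coe, h2, orderOf_one] at hx
      exact hp'.one_lt.ne hx
    have hMidx : ∃ j, M.index = p ^ j := by
      have h1 : M.index = Nat.card V.range := Subgroup.index_ker V
      have h2 : Nat.card V.range ∣ Nat.card (P : Subgroup G) :=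
        Subgroup.card_subgroup_dvd_card V.range
      obtain ⟨k, hk⟩ := IsPGroup.iff_card.mp P.isPGroup'
      rw [hk] at h2
      obtain ⟨j, -, hj⟩ := (Nat.dvd_prime_pow hp').mp h2
      exact ⟨j, by rw [h1, hj]⟩
    have hinf : M ⊓ (P : Subgroup G) = ⊥ := by
      apply (Subgroup.disjoint_of_coprime_natCard ?_).eq_bot
      obtain ⟨k, hk⟩ := IsPGroup.iff_card.mp P.isPGroup'
      rw [hk]
      exact Nat.Coprime.pow_right _ hMcop
    have hsupP : M ⊔ (P : Subgroup G) = ⊤ := by
      rw [← Subgroup.index_eq_one]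
      obtain ⟨j, hj⟩ := hMidx
      have h1 : (M ⊔ (P : Subgroup G)).index ∣ p ^ j := hj ▸ Subgroup.index_dvd_of_le le_sup_left
      have h2 : (M ⊔ (P : Subgroup G)).index ∣ (P : Subgroup G).index :=
        Subgroup.index_dvd_of_le le_sup_right
      exact Nat.Coprime.eq_one_of_dvd
        (Nat.Coprime.coprime_dvd_left h2 (Nat.Coprime.pow_right j hcopidx.symm)) h1
    have hpelP : ∀ s ∈ (P : Subgroup G), ns_pel p s :=
      fun s hs => ns_pel_of_pgroup p P.isPGroup' hs
    have use6 : ∀ s ∈ (P : Subgroup G), M ⊔ Subgroup.zpowers s ≠ ⊤ →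
        ∀ m ∈ M, m * s = s * m := by
      intro s hs hne m hm
      have hL := hmin _ hne
      have hsL : s ∈ M ⊔ Subgroup.zpowers s := Subgroup.mem_sup_right (Subgroup.mem_zpowers s)
      have hmL : m ∈ M ⊔ Subgroup.zpowers s := Subgroup.mem_sup_left hm
      have h1 : ns_pel p (m * s * m⁻¹ * s⁻¹) := by
        apply hL _ (Subgroup.mul_mem _ (Subgroup.mul_mem _ hmL hsL) (Subgroup.inv_mem _ hmL)) _
          (Subgroup.inv_mem _ hsL)
        · exact ns_pel_conj p m s (hpelP s hs)
        · obtain ⟨k, hk⟩ := hpelP s hs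
          exact ⟨k, by rw [orderOf_inv, hk]⟩
      have h2 : m * s * m⁻¹ * s⁻¹ ∈ M := by
        have h3 : s * m⁻¹ * s⁻¹ ∈ M := hMn.conj_mem _ (M.inv_mem hm) s
        have h4 : m * s * m⁻¹ * s⁻¹ = m * (s * m⁻¹ * s⁻¹) := by group
        rw [h4]
        exact M.mul_mem hm h3
      obtain ⟨k, hk⟩ := h1
      have h5 : orderOf (m * s * m⁻¹ * s⁻¹) ∣ Nat.card M := Subgroup.orderOf_dvd_natCard M h2
      rw [hk] at h5
      have h6 : p ^ k = 1 := Nat.Coprime.eq_one_of_dvd (Nat.Coprime.pow_left k hMcop.symm) h5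
      rw [h6] at hk
      have h7 := orderOf_eq_one_iff.mp hk
      calc m * s = (m * s * m⁻¹ * s⁻¹) * (s * m) := by group
        _ = s * m := by rw [h7, one_mul]
    have hdecomp : ∀ (H : Subgroup G), M ⊔ H = ⊤ → ∀ g : G, ∃ m ∈ M, ∃ x ∈ H, m * x = g := by
      intro H htop g
      have hg : g ∈ ((M ⊔ H : Subgroup G) : Set G) := by
        rw [htop]
        exact Set.mem_univ g
      rw [Subgroup.normal_mul] at hg
      exact Set.mem_mul.mp hg
    have hfin : (∀ s ∈ (P : Subgroup G), ∀ m ∈ M, m * s = s * m) → (P : Subgroup G).Normal := by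
      intro hall
      have hcen : ∀ s ∈ (P : Subgroup G), ∀ g : G, g * s = s * g := by
        intro s hs g
        obtain ⟨m, hm, x, hx, rfl⟩ := hdecomp _ hsupP g
        calc m * x * s = m * (x * s) := by group
          _ = m * (s * x) := by rw [hab x hx s hs]
          _ = (m * s) * x := by group
          _ = (s * m) * x := by rw [hall s hs m hm]
          _ = s * (m * x) := by group
      exact ⟨fun a ha g => by rw [hcen a ha g, mul_inv_cancel_right]; exact ha⟩
    by_cases hall : ∀ s ∈ (P : Subgroup G), ∀ m ∈ M, m * s = s * m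
    · exact hfin hall
    · exfalso
      push Not at hall
      obtain ⟨s, hs, m₀, hm₀, hne⟩ := hall
      have hMs : M ⊔ Subgroup.zpowers s = ⊤ := by
        by_contra h
        exact hne (use6 s hs h m₀ hm₀)
      have hs1 : s ≠ 1 := by
        rintro rfl
        exact hne (by rw [mul_one, one_mul])
      have hPle : ∀ t ∈ (P : Subgroup G), M ⊔ Subgroup.zpowers t = ⊤ →
          (P : Subgroup G) ≤ Subgroup.zpowers t := by
        intro t ht htop x hx
        obtain ⟨m, hm, y, hy, hmy⟩ := hdecomp _ htop x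
        have hyP : y ∈ (P : Subgroup G) := (Subgroup.zpowers_le.mpr ht) hy
        have hm1 : m ∈ M ⊓ (P : Subgroup G) := by
          refine Subgroup.mem_inf.mpr ⟨hm, ?_⟩
          have h1 : m = x * y⁻¹ := by
            rw [← hmy]
            group
          rw [h1]
          exact Subgroup.mul_mem _ hx (Subgroup.inv_mem _ hyP)
        rw [hinf, Subgroup.mem_bot] at hm1
        rw [hm1, one_mul] at hmy
        rw [← hmy]
        exact hy
      have hspP : s ^ p ∈ (P : Subgroup G) := Subgroup.pow_mem _ hs p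
      have hsp_ne : M ⊔ Subgroup.zpowers (s ^ p) ≠ ⊤ := by
        intro htop
        have h1 := hPle (s ^ p) hspP htop hs
        have h2 : Subgroup.zpowers s ≤ Subgroup.zpowers (s ^ p) := Subgroup.zpowers_le.mpr h1
        have h3 : Nat.card (Subgroup.zpowers s) ≤ Nat.card (Subgroup.zpowers (s ^ p)) :=
          Subgroup.card_le_of_le h2
        rw [Nat.card_zpowers, Nat.card_zpowers] at h3
        obtain ⟨k, hk⟩ := hpelP s hs
        have hk0 : k ≠ 0 := by
          rintro rfl
          rw [pow_zero, orderOf_eq_one_iff] at hk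
          exact hs1 hk
        have hpd : p ∣ orderOf s := by
          rw [hk]
          exact dvd_pow_self p hk0
        rw [orderOf_pow_of_dvd hp'.pos.ne' hpd] at h3
        have h4 : orderOf s / p < orderOf s := Nat.div_lt_self (orderOf_pos s) hp'.one_lt
        omega
      have hspc : s ^ p ∈ Subgroup.center G := by
        rw [Subgroup.mem_center_iff]
        intro g
        obtain ⟨m, hm, x, hx, rfl⟩ := hdecomp _ hsupP g
        calc m * x * s ^ p = m * (x * s ^ p) := by group
          _ = m * (s ^ p * x) := by rw [hab x hx _ hspP]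
          _ = (m * s ^ p) * x := by group
          _ = (s ^ p * m) * x := by rw [use6 _ hspP hsp_ne m hm]
          _ = s ^ p * (m * x) := by group
      exact hne (ns_cyc p hψ n hn hfaith hnp M s hMs hMcop (hpelP s hs) hspc m₀ hm₀)

end Cfsg.Agent.Helper24
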