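import Mathlib
import Cfsg.Agent.Helper24.TIRep
import Cfsg.Agent.Helper25.CharOrth
import Cfsg.Agent.Helper25.CharMore

/-!
# Small-degree characters and trivial-intersection Sylow subgroups (helper24)

If `P` is a trivial-intersection Sylow `p`-subgroup of `G` and `H ≥ N_G(P)`, then a
representation of degree `< |P|` without `G`-fixed vectors has no `H`-fixed vectors.  Hence if all
nonprincipal irreducible characters have degree `< |P|`, then `P` is normal.
-/

set_option autoImplicit false

namespace Cfsg.Agent.Helper24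

open Cfsg

open scoped Pointwise

/-- The sum of a representation over a finite group is zero when the sum of its character is. -/
theorem rep_sum_eq_zero {G : Type*} [Group G] [Fintype G] {n : ℕ}
    (ρ : Representation ℂ G (Fin n → ℂ)) (h0 : ∑ g : G, ρ.character g = 0) :
    ∑ g : G, ρ g = 0 := by
  classical
  have hG : (Nat.card G : ℂ) ≠ 0 := Nat.cast_ne_zero.mpr Nat.card_pos.ne'
  set E : (Fin n → ℂ) →ₗ[ℂ] (Fin n → ℂ) := ∑ g : G, ρ g with hE
  have hEE : E * E = (Nat.card G : ℂ) • E := by
    have h1 : ∀ g : G, ρ g * E = E := by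
      intro g
      rw [hE, Finset.mul_sum]
      simp only [← map_mul]
      exact Fintype.sum_bijective (fun x => g * x) (Group.mulLeft_bijective g) _ _ (fun x => rfl)
    have h2 : E * E = ∑ g : G, ρ g * E := by
      conv_lhs => rw [show E * E = (∑ g : G, ρ g) * E from rfl]
      rw [Finset.sum_mul]
    rw [h2]
    simp only [h1]
    rw [Finset.sum_const, Finset.card_univ, Nat.card_eq_fintype_card, ← Nat.cast_smul_eq_nsmul ℂ]
  have hidem : IsIdempotentElem ((Nat.card G : ℂ)⁻¹ • E) := by
    unfold IsIdempotentElem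
    rw [smul_mul_smul_comm, hEE, smul_smul, mul_assoc, inv_mul_cancel₀ hG, mul_one]
  have htr : LinearMap.trace ℂ (Fin n → ℂ) ((Nat.card G : ℂ)⁻¹ • E) = 0 := by
    rw [map_smul, hE, map_sum]
    have : ∑ g : G, LinearMap.trace ℂ (Fin n → ℂ) (ρ g) = ∑ g : G, ρ.character g := rfl
    rw [this, h0, smul_zero]
  have hz := (LinearMap.IsIdempotentElem.trace_eq_zero_iff hidem).mp htr
  have : E = (Nat.card G : ℂ) • ((Nat.card G : ℂ)⁻¹ • E) := by
    rw [smul_smul, mul_inv_cancel₀ hG, one_smul]
  rw [this, hz, smul_zero]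

/-- **No fixed vectors.**  Let `P` be a trivial-intersection Sylow `p`-subgroup and
`H ≥ N_G(P)`.  A representation of degree `n < |P|` whose character has zero sum over `G` has
character with zero sum over `H`. -/
theorem ti_no_fixed {G : Type*} [Group G] [Fintype G] (p : ℕ) [hp : Fact p.Prime] (P : Sylow p G)
    (hTI : ∀ g : G, g ∉ Subgroup.normalizer ((P : Subgroup G) : Set G) →
      (P : Subgroup G) ⊓ (MulAut.conj g • (P : Subgroup G)) = ⊥)
    (H : Subgroup G) [Fintype H] (hH : Subgroup.normalizer ((P : Subgroup G) : Set G) ≤ H)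
    {n : ℕ} (ρ : Representation ℂ G (Fin n → ℂ)) (hn : n < Nat.card (P : Subgroup G))
    (h0 : ∑ g : G, ρ.character g = 0) : ∑ h : H, ρ.character (h : G) = 0 := by
  classical
  by_contra hne
  have hEG := rep_sum_eq_zero ρ h0
  set EH : (Fin n → ℂ) →ₗ[ℂ] (Fin n → ℂ) := ∑ h : H, ρ (h : G) with hEHdef
  have htr : LinearMap.trace ℂ (Fin n → ℂ) EH = ∑ h : H, ρ.character (h : G) := by
    rw [hEHdef, map_sum]
    rfl
  have hEH : EH ≠ 0 := by
    intro h
    apply hne
    rw [← htr, h, map_zero]
  obtain ⟨u, hu⟩ : ∃ u, EH u ≠ 0 := by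
    by_contra hall
    push Not at hall
    exact hEH (LinearMap.ext hall)
  have hfix : ∀ h ∈ H, ρ h (EH u) = EH u := by
    intro h hh
    have h1 : ρ h * EH = EH := by
      rw [hEHdef, Finset.mul_sum]
      simp only [← map_mul]
      exact Fintype.sum_bijective (fun x : H => (⟨h, hh⟩ : H) * x)
        (Group.mulLeft_bijective _) _ _ (fun x => rfl)
    calc ρ h (EH u) = (ρ h * EH) u := rfl
      _ = EH u := by rw [h1]
  haveI : Fintype (⊤ : Subgroup G) := Fintype.ofFinite _
  haveI : Fintype (P : Subgroup G) := Fintype.ofFinite _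
  have hsum : ∑ g : (⊤ : Subgroup G), ρ (g : G) (EH u) = 0 := by
    have h1 : ∑ g : (⊤ : Subgroup G), ρ (g : G) (EH u) = ∑ g : G, ρ g (EH u) :=
      Fintype.sum_equiv Subgroup.topEquiv.toEquiv _ _ (fun x => rfl)
    rw [h1, ← LinearMap.sum_apply, hEG, LinearMap.zero_apply]
  obtain ⟨R, _, hli⟩ := ti_key p ρ ⊤ H (P : Subgroup G) le_top
    (le_trans Subgroup.le_normalizer hH) P.2
    (fun g _ hg u hu hx => ti_free p P hTI H hH g hg u hu hx) (EH u) hu hfix hsum
  have h2 := hli.fintype_card_le_finrank
  rw [Module.finrank_fin_fun, ← Nat.card_eq_fintype_card] at h2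
  omega

/-- If `P` is a trivial-intersection Sylow `p`-subgroup and every nonprincipal irreducible
character has degree less than `|P|`, then `P` is normal. -/
theorem ti_small_degree {G : Type*} [Group G] [Finite G] (p : ℕ) [hp : Fact p.Prime]
    (P : Sylow p G)
    (hTI : ∀ g : G, g ∉ Subgroup.normalizer ((P : Subgroup G) : Set G) →
      (P : Subgroup G) ⊓ (MulAut.conj g • (P : Subgroup G)) = ⊥)
    (hdeg : ∀ χ : IrrCharacter G, χ ≠ Helper25.trivChar G →
      charDegree (χ : G → ℂ) < Nat.card (P : Subgroup G)) :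
    Subgroup.normalizer ((P : Subgroup G) : Set G) = ⊤ := by
  classical
  haveI : Fintype G := Fintype.ofFinite G
  set N := Subgroup.normalizer ((P : Subgroup G) : Set G) with hN
  haveI : Fintype N := Fintype.ofFinite N
  have hzero : ∀ χ : IrrCharacter G, χ ≠ Helper25.trivChar G →
      ∑ h : N, (χ : G → ℂ) (h : G) = 0 := by
    intro χ hχ
    obtain ⟨n, ρ, hirr, hch⟩ := χ.2
    have hd : charDegree (χ : G → ℂ) = n := by
      rw [← hch]
      exact Helper25.rep_charDegree ρ
    have h0 : ∑ g : G, ρ.character g = 0 := by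
      have h1 := Helper25.irr_classInner χ (Helper25.trivChar G)
      rw [if_neg hχ] at h1
      unfold classInner at h1
      simp only [Helper25.trivChar_apply, map_one, mul_one] at h1
      have hG : (Nat.card G : ℂ)⁻¹ ≠ 0 :=
        inv_ne_zero (Nat.cast_ne_zero.mpr Nat.card_pos.ne')
      rw [hch]
      exact (mul_eq_zero.mp h1).resolve_left hG
    have h2 := ti_no_fixed p P hTI N le_rfl ρ (by rw [← hd]; exact hdeg χ hχ) h0
    rw [hch] at h2
    exact h2
  have hcount : ∑ h : N, ∑ χ : IrrCharacter G, (χ : G → ℂ) (h : G) * (χ : G → ℂ) 1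
      = (Nat.card G : ℂ) := by
    rw [Finset.sum_eq_single (1 : N)]
    · have h1 := Helper25.second_orthogonality (G := G) 1 1
      rw [inv_one, if_pos (IsConj.refl 1)] at h1
      have h2 : Subgroup.centralizer ({1} : Set G) = ⊤ := by
        rw [Subgroup.centralizer_eq_top_iff_subset]
        intro x hx
        rw [Set.mem_singleton_iff.mp hx]
        exact Subgroup.one_mem _
      rw [h2, Subgroup.card_top] at h1
      exact h1
    · intro h _ hne
      have h1 := Helper25.second_orthogonality (G := G) (h : G) 1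
      rw [inv_one, if_neg] at h1
      · exact h1
      · intro hc
        apply hne
        have : (h : G) = 1 := by
          rcases isConj_iff.mp hc with ⟨c, hc'⟩
          have h3 : (h : G) = c⁻¹ * 1 * c := by rw [← hc']; group
          rw [h3]; group
        exact Subtype.ext this
    · intro h
      exact absurd (Finset.mem_univ _) h
  rw [Finset.sum_comm] at hcount
  rw [Finset.sum_eq_single (Helper25.trivChar G)] at hcount
  · simp only [Helper25.trivChar_apply, mul_one, Finset.sum_const, Finset.card_univ,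
      nsmul_eq_mul] at hcount
    rw [← Nat.card_eq_fintype_card] at hcount
    apply Subgroup.eq_top_of_card_eq
    exact_mod_cast hcount
  · intro χ _ hχ
    rw [← Finset.sum_mul, hzero χ hχ, zero_mul]
  · intro h
    exact absurd (Finset.mem_univ _) h

end Cfsg.Agent.Helper24
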